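import Cfsg.Agent.H59.HJ.Normalizer

/-!
Groups of Hall-Janko type: the Sylow 5-subgroup.
-/

set_option autoImplicit false
set_option linter.style.haveILetI false
set_option linter.constructorNameAsVariable false

namespace Cfsg.Agent.H59.HJ

open Subgroup
open scoped Pointwise

theorem alt_five_cent5 : ∀ x y : ↥(alternatingGroup (Fin 5)), x ^ 5 = 1 → x ≠ 1 → y * x = x * y →
    ∃ i : Fin 5, y = x ^ (i : ℕ) := by decide +kernel

theorem alt_five_sq5 : ∀ x y : ↥(alternatingGroup (Fin 5)), x ^ 5 = 1 → x ≠ 1 →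
    y * x * y⁻¹ ≠ x ^ 2 := by decide +kernel

variable {G : Type*} [Group G] [Finite G] {z t : G} {E A B W : Subgroup G}

omit [Finite G] in
theorem zpowers_le_centralizer {u x : G} (hx : x ∈ zpowers u) : x ∈ centralizer ({u} : Set G) := by
  obtain ⟨i, rfl⟩ := mem_zpowers_iff.1 hx
  exact mem_centralizer_singleton_iff.2 (Commute.zpow_left (Commute.refl u) i).eq

omit [Finite G] in
theorem centralizer_sq {u : G} (hu : orderOf u = 5) :
    centralizer ({u ^ 2} : Set G) = centralizer ({u} : Set G) := by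
  ext x
  rw [mem_centralizer_singleton_iff, mem_centralizer_singleton_iff]
  refine ⟨fun h => ?_, fun h => (Commute.pow_right h 2).eq⟩
  have e : (u ^ 2) ^ 3 = u := by
    rw [← pow_mul, show 2 * 3 = 5 + 1 from rfl, pow_succ, ← hu, pow_orderOf_eq_one, one_mul]
  have := (Commute.pow_right h 3).eq
  rwa [e] at this

omit [Finite G] in
theorem centralizer_of_zpowers {a b : G} (h : zpowers a = zpowers b) :
    centralizer ({a} : Set G) = centralizer ({b} : Set G) := by
  have key : ∀ c d : G, zpowers c = zpowers d →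
      centralizer ({c} : Set G) ≤ centralizer ({d} : Set G) := by
    intro c d hcd x hx
    obtain ⟨i, hi⟩ := mem_zpowers_iff.1 (hcd ▸ mem_zpowers d : d ∈ zpowers c)
    rw [mem_centralizer_singleton_iff, ← hi]
    exact (Commute.zpow_right (mem_centralizer_singleton_iff.1 hx) i).eq
  exact le_antisymm (key a b h) (key b a h.symm)

namespace Split

variable (s : Split z t E A B W)
include s

theorem centralizer_W {w : G} (hw : w ∈ W) (hw1 : w ≠ 1) :
    centralizer ({w} : Set G) = centralizer ({t} : Set G) := by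
  have hle : centralizer ({t} : Set G) ≤ centralizer ({w} : Set G) := fun y hy =>
    mem_centralizer_singleton_iff.2 (((s.memW _).1 hw).2 y hy)
  obtain ⟨g, hg⟩ := isConj_iff.1 (s.W_conj_t hw hw1).symm
  refine (eq_of_le_of_card_ge hle ?_).symm
  rw [← hg, card_centralizer_conj]

omit [Finite G] in
theorem exists_mul {x : G} (hx : x ∈ centralizer ({t} : Set G)) : ∃ w ∈ W, ∃ y ∈ B, w * y = x := by
  have hx' : x ∈ W ⊔ B := s.idp.2.2.2.2.ge hx
  have hcs : W ≤ centralizer (B : Set G) := fun w hw =>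
    mem_centralizer_iff.2 fun y hy => (s.comm hw hy).symm
  rw [← SetLike.mem_coe, coe_mul_of_left_le_normalizer_right W B
    (hcs.trans (centralizer_le_normalizer _))] at hx'
  obtain ⟨w, hw, y, hy, hwy⟩ := hx'
  exact ⟨w, hw, y, hy, hwy⟩

theorem N_two_elem {v : G} (hv : v ∈ normalizer (W : Set G)) {k : ℕ} (hk : v ^ 2 ^ k = 1) :
    v ∈ centralizer ({t} : Set G) := by
  set N := normalizer (W : Set G) with hN
  haveI : ((centralizer ({t} : Set G)).subgroupOf N).Normal :=
    ⟨fun x hx g => mem_subgroupOf.2 (s.conj_T (s.mem_normalizer_W.1 g.2) (mem_subgroupOf.1 hx))⟩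
  have hidx : ((centralizer ({t} : Set G)).subgroupOf N).index = 3 := by
    have := ((centralizer ({t} : Set G)).subgroupOf N).index_mul_card
    rw [Nat.card_congr (subgroupOfEquivOfLe s.T_le_N).toEquiv, s.cardT, s.card_N] at this
    omega
  have h3 := Subgroup.pow_index_mem ((centralizer ({t} : Set G)).subgroupOf N) ⟨v, hv⟩
  rw [hidx, mem_subgroupOf, Subgroup.coe_pow] at h3
  have hcop : Nat.Coprime 3 (orderOf v) := by
    obtain ⟨j, -, hj⟩ := (Nat.dvd_prime_pow Nat.prime_two).1 (orderOf_dvd_of_pow_eq_one hk)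
    rw [hj]; exact Nat.Coprime.pow_right j (by norm_num)
  obtain ⟨m, hm⟩ := exists_pow_eq_self_of_coprime hcop
  exact hm ▸ Subgroup.pow_mem _ h3 m

omit [Finite G] in
theorem cent_B_five {u y : G} (hu : u ∈ B) (hu5 : orderOf u = 5) (hy : y ∈ B) (hc : y * u = u * y) :
    y ∈ zpowers u := by
  obtain ⟨e⟩ := s.alt
  have h5 : (⟨u, hu⟩ : B) ^ 5 = 1 := Subtype.ext (by rw [Subgroup.coe_pow, ← hu5]; exact pow_orderOf_eq_one u)
  obtain ⟨i, hi⟩ := alt_five_cent5 (e ⟨u, hu⟩) (e ⟨y, hy⟩) (by rw [← map_pow, h5, map_one])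
    (fun h => by
      have := congrArg Subtype.val (e.injective (h.trans e.map_one.symm))
      simp only [Subgroup.coe_one] at this
      rw [this, orderOf_one] at hu5; norm_num at hu5)
    (by rw [← map_mul, ← map_mul]; exact congrArg e (Subtype.ext hc))
  rw [← map_pow] at hi
  exact ⟨((i : ℕ) : ℤ), by simpa using (congrArg Subtype.val (e.injective hi)).symm⟩

omit [Finite G] in
theorem W_cent {w x : G} (hw : w ∈ W) (hx : x ∈ B) : w ∈ centralizer ({x} : Set G) :=
  mem_centralizer_singleton_iff.2 (s.comm hw hx)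

theorem five_sylow_two {u : G} (hu : u ∈ B) (hu5 : orderOf u = 5) :
    ∃ S : Sylow 2 (centralizer ({u} : Set G)),
      (S : Subgroup (centralizer ({u} : Set G))) = W.subgroupOf (centralizer ({u} : Set G)) := by
  have hle : W ≤ centralizer ({u} : Set G) := fun w hw => s.W_cent hw hu
  refine sylow_of_normalizer (IsPGroup.of_card (n := 2) ?_) fun v hv ⟨k, hk⟩ => ?_
  · rw [Nat.card_congr (subgroupOfEquivOfLe hle).toEquiv, s.cardW]; norm_num
  have hvN : (v : G) ∈ normalizer (W : Set G) := s.mem_normalizer_W.2 (by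
    simpa [mem_subgroupOf] using (mem_normalizer_iff.1 hv ⟨t, hle s.tW⟩).1 (mem_subgroupOf.2 s.tW))
  have hk' : (v : G) ^ 2 ^ k = 1 := by simpa using congrArg Subtype.val hk
  obtain ⟨w, hw, y, hy, hwy⟩ := s.exists_mul (s.N_two_elem hvN hk')
  have hyu : y * u = u * y := by
    have := mem_centralizer_singleton_iff.1 v.2
    rw [← hwy, mul_assoc, ← mul_assoc u, ← s.comm hw hu, mul_assoc w u] at this
    exact mul_left_cancel this
  obtain ⟨i, hi⟩ := mem_zpowers_iff.1 (s.cent_B_five hu hu5 hy hyu)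
  have h2 : y ^ 2 ^ (k + 1) = 1 := by
    have h1 : (v : G) ^ 2 ^ (k + 1) = 1 := by rw [pow_succ, pow_mul, hk', one_pow]
    rw [← hwy, (show Commute w y from s.comm hw hy).mul_pow, pow_succ' 2 k, pow_mul w, pow_two w,
      s.sqW w hw, one_pow, one_mul] at h1
    rwa [pow_succ' 2 k]
  have hy5 : y ^ 5 = 1 := by
    rw [← hi, ← zpow_natCast, ← zpow_mul, mul_comm, zpow_mul, zpow_natCast, ← hu5,
      pow_orderOf_eq_one, one_zpow]
  have hy1 : y = 1 := orderOf_eq_one_iff.1 (Nat.eq_one_of_dvd_coprimes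
    (Nat.Coprime.pow_right (k + 1) (by norm_num : Nat.Coprime 5 2))
    (orderOf_dvd_of_pow_eq_one hy5) (orderOf_dvd_of_pow_eq_one h2))
  rw [mem_subgroupOf, ← hwy, hy1, mul_one]
  exact hw

variable (h : Local z t E A)
include h

theorem cardG : Nat.card G = 604800 := h.card_G s

theorem card_sylow_five (P : Sylow 5 G) : Nat.card (P : Subgroup G) = 25 := by
  haveI : Fact (Nat.Prime 5) := ⟨by norm_num⟩
  rw [P.card_eq_multiplicity, s.cardG h, show (604800 : ℕ) = 5 ^ 2 * 24192 from rfl,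
    Nat.factorization_mul (by norm_num) (by norm_num), Finsupp.add_apply,
    Nat.Prime.factorization_pow (by norm_num), Finsupp.single_eq_same,
    Nat.factorization_eq_zero_of_not_dvd (by norm_num : ¬ 5 ∣ 24192)]
  rfl

theorem sylow_five_le {P : Sylow 5 G} {u : G} (hu : u ∈ (P : Subgroup G)) :
    (P : Subgroup G) ≤ centralizer ({u} : Set G) := by
  haveI : Fact (Nat.Prime 5) := ⟨by norm_num⟩
  intro p hp
  have := IsPGroup.isMulCommutative_of_card_eq_prime_sq (p := 5) (G := (P : Subgroup G))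
    (by rw [s.card_sylow_five h P]; norm_num)
  exact mem_centralizer_singleton_iff.2 (congrArg Subtype.val (this.is_comm.comm ⟨p, hp⟩ ⟨u, hu⟩))

/-- The centraliser of an element of order five of `B` is an extension by `A₅`. -/
theorem five_quot {u : G} (hu : u ∈ B) (hu5 : orderOf u = 5) :
    Nat.card (centralizer ({u} : Set G)) = 300 ∧
      ∃ φ : centralizer ({u} : Set G) →* ↥(alternatingGroup (Fin 5)), Function.Surjective φ ∧
        ∀ x, φ x = 1 ↔ (x : G) ∈ zpowers u := by
  classical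
  haveI : Fact (Nat.Prime 5) := ⟨by norm_num⟩
  haveI : Fact (Nat.Prime 2) := ⟨Nat.prime_two⟩
  set X := centralizer ({u} : Set G) with hX
  have hle : W ≤ X := fun w hw => s.W_cent hw hu
  have hZle : zpowers u ≤ X := fun x hx => zpowers_le_centralizer hx
  haveI hZn : ((zpowers u).subgroupOf X).Normal := ⟨fun x hx g => by
    rw [mem_subgroupOf] at hx ⊢
    obtain ⟨i, hi⟩ := mem_zpowers_iff.1 hx
    rw [Subgroup.coe_mul, Subgroup.coe_mul, InvMemClass.coe_inv, ← hi]
    have hc : Commute (g : G) (u ^ i) := Commute.zpow_right (mem_centralizer_singleton_iff.1 g.2) i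
    rw [hc.eq, mul_inv_cancel_right]
    exact zpow_mem (mem_zpowers u) i⟩
  set Z := (zpowers u).subgroupOf X with hZ
  have hZcard : Nat.card Z = 5 := by
    rw [hZ, Nat.card_congr (subgroupOfEquivOfLe hZle).toEquiv, Nat.card_zpowers, hu5]
  obtain ⟨S, hS⟩ := s.five_sylow_two hu hu5
  set P := S.mapSurjective (QuotientGroup.mk'_surjective Z) with hP
  have hPmem : ∀ q : X ⧸ Z, q ∈ (P : Subgroup (X ⧸ Z)) ↔ ∃ w : X, (w : G) ∈ W ∧ (w : X ⧸ Z) = q := by
    intro q
    rw [hP, Sylow.coe_mapSurjective, Subgroup.mem_map]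
    simp only [hS, mem_subgroupOf, QuotientGroup.mk'_apply]
  have hWZ : ∀ w : X, (w : G) ∈ W → w ∈ Z → w = 1 := by
    intro w hw hwZ
    refine Subtype.ext (orderOf_eq_one_iff.1 (Nat.eq_one_of_dvd_coprimes (show Nat.Coprime 2 5 by norm_num)
      (orderOf_dvd_of_pow_eq_one ?_) ?_))
    · rw [pow_two]; exact s.sqW _ hw
    · rw [← hu5, ← Nat.card_zpowers u]
      have := orderOf_dvd_natCard (⟨(w : G), mem_subgroupOf.1 hwZ⟩ : zpowers u)
      rwa [Subgroup.orderOf_mk] at this
  have h4 : Nat.card (P : Subgroup (X ⧸ Z)) = 4 := by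
    rw [← s.cardW]
    symm
    refine Nat.card_congr (Equiv.ofBijective (fun w : W =>
      (⟨((⟨w, hle w.2⟩ : X) : X ⧸ Z), (hPmem _).2 ⟨_, w.2, rfl⟩⟩ : (P : Subgroup (X ⧸ Z)))) ⟨?_, ?_⟩)
    · intro a b e
      have e' := QuotientGroup.eq.1 (congrArg Subtype.val e)
      have e'' : (⟨a, hle a.2⟩ : X) = ⟨b, hle b.2⟩ :=
        inv_mul_eq_one.1 (hWZ _ (W.mul_mem (W.inv_mem a.2) b.2) e')
      exact Subtype.ext (show (a : G) = b from congrArg (fun x : X => (x : G)) e'')
    · rintro ⟨q, hq⟩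
      obtain ⟨w, hw, rfl⟩ := (hPmem q).1 hq
      exact ⟨⟨w, hw⟩, rfl⟩
  have hC : ∀ a ∈ (P : Subgroup (X ⧸ Z)), a ≠ 1 → centralizer ({a} : Set (X ⧸ Z)) = (P : Subgroup (X ⧸ Z)) := by
    intro a ha ha1
    obtain ⟨w, hw, rfl⟩ := (hPmem a).1 ha
    ext q
    rw [mem_centralizer_singleton_iff]
    constructor
    · induction q using QuotientGroup.induction_on with | H x =>
      intro hxw
      rw [← QuotientGroup.mk_mul, ← QuotientGroup.mk_mul, QuotientGroup.eq] at hxw
      obtain ⟨i, hi⟩ := mem_zpowers_iff.1 (mem_subgroupOf.1 hxw)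
      simp only [Subgroup.coe_mul, InvMemClass.coe_inv] at hi
      -- the power of `u` vanishes
      have hxu : Commute (x : G) u := mem_centralizer_singleton_iff.1 x.2
      have hwu : Commute (w : G) u := mem_centralizer_singleton_iff.1 w.2
      have e1 : (x : G)⁻¹ * w * x = w * u ^ i := by
        rw [hi]
        have hww := inv_eq_of_mul_eq_one_right (s.sqW _ hw)
        rw [mul_inv_rev, hww]
        rw [show (w : G) * ((w : G) * (x : G)⁻¹ * (w * x)) = w * w * ((x : G)⁻¹ * w * x) by group,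
          s.sqW _ hw, one_mul]
      have e2 : (u ^ i) ^ 2 = 1 := by
        have h1 : ((x : G)⁻¹ * w * x) ^ 2 = 1 := by
          rw [pow_two, show (x : G)⁻¹ * w * x * ((x : G)⁻¹ * w * x) = (x : G)⁻¹ * (w * w) * x by group,
            s.sqW _ hw]; group
        rwa [e1, (hwu.zpow_right i).mul_pow, pow_two (w : G), s.sqW _ hw, one_mul] at h1
      have e3 : (u ^ i) ^ 5 = 1 := by
        rw [← zpow_natCast, ← zpow_mul, mul_comm, zpow_mul, zpow_natCast, ← hu5, pow_orderOf_eq_one,
          one_zpow]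
      have e4 : u ^ i = 1 := orderOf_eq_one_iff.1 (Nat.eq_one_of_dvd_coprimes
        (show Nat.Coprime 2 5 by norm_num) (orderOf_dvd_of_pow_eq_one e2) (orderOf_dvd_of_pow_eq_one e3))
      rw [e4, mul_one] at e1
      have hxT : (x : G) ∈ centralizer ({t} : Set G) := by
        rw [← s.centralizer_W hw fun e => ha1 (by rw [show w = 1 from Subtype.ext e]; rfl),
          mem_centralizer_singleton_iff]
        conv_lhs => rw [← e1]
        group
      obtain ⟨w', hw', y, hy, hwy⟩ := s.exists_mul hxT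
      have hyu : y * u = u * y := by
        have := hxu.eq
        rw [← hwy, mul_assoc, ← mul_assoc u, ← s.comm hw' hu, mul_assoc w' u] at this
        exact mul_left_cancel this
      refine (hPmem _).2 ⟨⟨w', hle hw'⟩, hw', QuotientGroup.eq.2 (mem_subgroupOf.2 ?_)⟩
      rw [Subgroup.coe_mul, InvMemClass.coe_inv, ← hwy, inv_mul_cancel_left]
      exact s.cent_B_five hu hu5 hy hyu
    · intro hq
      obtain ⟨w', hw', rfl⟩ := (hPmem q).1 hq
      rw [← QuotientGroup.mk_mul, ← QuotientGroup.mk_mul]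
      exact congrArg _ (Subtype.ext (((s.memW _).1 hw).2 _ (s.W_le hw')))
  have hsq : ∀ a ∈ (P : Subgroup (X ⧸ Z)), a * a = 1 := by
    intro a ha
    obtain ⟨w, hw, rfl⟩ := (hPmem a).1 ha
    rw [← QuotientGroup.mk_mul, show w * w = 1 from Subtype.ext (s.sqW _ hw), QuotientGroup.mk_one]
  -- twenty-five divides the order
  have h25 : 25 ∣ Nat.card X := by
    obtain ⟨R, hR⟩ := (IsPGroup.of_card (n := 1) (by rw [Nat.card_zpowers, hu5, pow_one]) :
      IsPGroup 5 (zpowers u)).exists_le_sylow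
    exact s.card_sylow_five h R ▸ card_dvd_of_le (s.sylow_five_le h (hR (mem_zpowers u)))
  have hXcard : Nat.card X = Nat.card (X ⧸ Z) * 5 := by rw [Z.card_eq_card_quotient_mul_card_subgroup, hZcard]
  rcases four_self_centralizing P h4 hsq hC with h1 | ⟨-, h1⟩ | ⟨⟨e⟩⟩
  · rw [hXcard, ← card_top (G := X ⧸ Z), ← h1, h4] at h25; norm_num at h25
  · rw [hXcard, h1] at h25; norm_num at h25
  · refine ⟨by rw [hXcard, iso_card e], e.toMonoidHom.comp (QuotientGroup.mk' Z),
      e.surjective.comp (QuotientGroup.mk'_surjective Z), fun x => ?_⟩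
    show e (x : X ⧸ Z) = 1 ↔ _
    rw [e.map_eq_one_iff, QuotientGroup.eq_one_iff, mem_subgroupOf]

/-- An element of the centraliser of `u` commuting with another line of `P` lies in `P`. -/
theorem five_self {P : Sylow 5 G} {u p x : G} (hu : u ∈ B) (hu5 : orderOf u = 5)
    (huP : u ∈ (P : Subgroup G)) (hp : p ∈ (P : Subgroup G)) (hpu : p ∉ zpowers u)
    (hx : x ∈ centralizer ({u} : Set G)) (hxp : x * p = p * x) : x ∈ (P : Subgroup G) := by
  obtain ⟨-, φ, -, hker⟩ := s.five_quot h hu hu5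
  set p' : centralizer ({u} : Set G) := ⟨p, s.sylow_five_le h huP hp⟩
  have hp25 : p' ^ 25 = 1 := Subtype.ext (by
    have := orderOf_dvd_natCard (⟨p, hp⟩ : (P : Subgroup G))
    rw [Subgroup.orderOf_mk, s.card_sylow_five h P] at this
    exact orderOf_dvd_iff_pow_eq_one.1 this)
  have h5 : (φ p') ^ 5 = 1 := by
    have h1 := orderOf_dvd_natCard (φ p')
    rw [iso_card (MulEquiv.refl _)] at h1
    have h2 : orderOf (φ p') ∣ 25 := orderOf_dvd_of_pow_eq_one (by rw [← map_pow, hp25, map_one])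
    exact orderOf_dvd_iff_pow_eq_one.1 ((Nat.dvd_gcd h1 h2).trans (by norm_num))
  obtain ⟨i, hi⟩ := alt_five_cent5 (φ p') (φ ⟨x, hx⟩) h5 (fun e => hpu ((hker p').1 e))
    (by rw [← map_mul, ← map_mul]; exact congrArg φ (Subtype.ext hxp))
  have hm : x * (p ^ (i : ℕ))⁻¹ ∈ zpowers u :=
    (hker (⟨x, hx⟩ * (p' ^ (i : ℕ))⁻¹)).1 (by rw [map_mul, map_inv, map_pow, ← hi, mul_inv_cancel])
  have := Subgroup.mul_mem _ ((zpowers_le.2 huP) hm) (Subgroup.pow_mem _ hp (i : ℕ))
  rwa [inv_mul_cancel_right] at this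

theorem exists_outside {P : Sylow 5 G} {u : G} (hu5 : orderOf u = 5) :
    ∃ p ∈ (P : Subgroup G), p ∉ zpowers u := by
  by_contra hcon
  push Not at hcon
  have := Subgroup.card_le_of_le (show (P : Subgroup G) ≤ zpowers u from hcon)
  rw [s.card_sylow_five h P, Nat.card_zpowers, hu5] at this
  omega

theorem centralizer_P {P : Sylow 5 G} {u : G} (hu : u ∈ B) (hu5 : orderOf u = 5)
    (huP : u ∈ (P : Subgroup G)) : centralizer ((P : Subgroup G) : Set G) = P := by
  refine le_antisymm (fun x hx => ?_) fun x hx => mem_centralizer_iff.2 fun p hp => ?_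
  · obtain ⟨p, hp, hpu⟩ := s.exists_outside h (P := P) hu5
    exact s.five_self h hu hu5 huP hp hpu
      (mem_centralizer_singleton_iff.2 (mem_centralizer_iff.1 hx u huP).symm)
      (mem_centralizer_iff.1 hx p hp).symm
  · exact mem_centralizer_singleton_iff.1 (s.sylow_five_le h hx hp)

/-- A Sylow subgroup containing `u` has ten times five elements normalising it and fixing `u`. -/
theorem five_stab {P : Sylow 5 G} {u : G} (hu : u ∈ B) (hu5 : orderOf u = 5)
    (huP : u ∈ (P : Subgroup G)) :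
    Nat.card ↥(normalizer ((P : Subgroup G) : Set G) ⊓ centralizer ({u} : Set G)) = 50 := by
  haveI : Fact (Nat.Prime 5) := ⟨by norm_num⟩
  set X := centralizer ({u} : Set G) with hX
  obtain ⟨h300, φ, hsur, hker⟩ := s.five_quot h hu hu5
  set R := P.subtype (s.sylow_five_le h huP) with hR
  have hR' : (R : Subgroup X) = (P : Subgroup G).subgroupOf X := rfl
  have hR25 : Nat.card (R : Subgroup X) = 25 := by
    rw [hR', Nat.card_congr (subgroupOfEquivOfLe (s.sylow_five_le h huP)).toEquiv, s.card_sylow_five h P]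
  have hNR : normalizer ((R : Subgroup X) : Set X) =
      (normalizer ((P : Subgroup G) : Set G)).subgroupOf X := by
    ext x
    rw [mem_subgroupOf]
    constructor
    · intro hx
      refine mem_normalizer_fintype fun p hp => ?_
      have := (mem_normalizer_iff.1 hx ⟨p, s.sylow_five_le h huP hp⟩).1 (mem_subgroupOf.2 hp)
      exact mem_subgroupOf.1 this
    · intro hx
      refine mem_normalizer_iff.2 fun p => ?_
      rw [hR', mem_subgroupOf, mem_subgroupOf]
      exact mem_normalizer_iff.1 hx p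
  have hn := card_sylow_modEq_one 5 X
  have hidx : (R : Subgroup X).index = 12 := by
    have := (R : Subgroup X).card_mul_index
    rw [hR25, h300] at this
    omega
  have hdvd : Nat.card (Sylow 5 X) ∣ 12 := hidx ▸ R.card_dvd_index
  have hne : Nat.card (Sylow 5 X) ≠ 1 := by
    intro h1
    rw [R.card_eq_index_normalizer, index_eq_one] at h1
    haveI hn' : (R : Subgroup X).Normal := normalizer_eq_top_iff.1 h1
    haveI := hn'.map φ hsur
    haveI : IsSimpleGroup ↥(alternatingGroup (Fin 5)) := inferInstance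
    rcases Subgroup.Normal.eq_bot_or_eq_top ‹((R : Subgroup X).map φ).Normal› with hb | hb
    · obtain ⟨p, hp, hpu⟩ := s.exists_outside h (P := P) hu5
      refine hpu ((hker ⟨p, s.sylow_five_le h huP hp⟩).1 ?_)
      rw [← mem_bot, ← hb]
      exact mem_map_of_mem φ (mem_subgroupOf.2 hp)
    · have := (R : Subgroup X).card_map_dvd φ
      rw [hb, card_top, iso_card (MulEquiv.refl _), hR25] at this
      norm_num at this
  have h6 : Nat.card (Sylow 5 X) = 6 := by
    have := Nat.le_of_dvd (by norm_num) hdvd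
    unfold Nat.ModEq at hn
    interval_cases hc : Nat.card (Sylow 5 X) <;> omega
  rw [R.card_eq_index_normalizer] at h6
  replace h6 : (normalizer ((R : Subgroup X) : Set X)).index = 6 := h6
  have := (normalizer ((R : Subgroup X) : Set X)).card_mul_index
  rw [h6, h300, hNR, ← inf_subgroupOf_right,
    Nat.card_congr (subgroupOfEquivOfLe inf_le_right).toEquiv] at this
  omega

/-- The conjugation of the normaliser of `W` on `B` is inner. -/
theorem inner_on_B {n : G} (hn : n ∈ normalizer (W : Set G)) :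
    ∃ b ∈ B, ∀ y ∈ B, n * y * n⁻¹ = b * y * b⁻¹ := by
  obtain ⟨g, hg, hgN, hgt, -, hgB⟩ := s.exists_outer h
  set N := normalizer (W : Set G) with hN
  let M : Subgroup G :=
    { carrier := {m | m ∈ N ∧ ∃ b ∈ B, ∀ y ∈ B, m * y * m⁻¹ = b * y * b⁻¹}
      one_mem' := ⟨N.one_mem, 1, B.one_mem, fun y _ => rfl⟩
      mul_mem' := fun {m m'} ⟨hm, b, hb, hmb⟩ ⟨hm', b', hb', hmb'⟩ =>
        ⟨N.mul_mem hm hm', b * b', B.mul_mem hb hb', fun y hy => by
          rw [show m * m' * y * (m * m')⁻¹ = m * (m' * y * m'⁻¹) * m⁻¹ by group, hmb' y hy,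
            hmb _ (B.mul_mem (B.mul_mem hb' hy) (B.inv_mem hb'))]
          group⟩
      inv_mem' := fun {m} ⟨hm, b, hb, hmb⟩ => ⟨N.inv_mem hm, b⁻¹, B.inv_mem hb, fun y hy => by
        have := hmb (b⁻¹ * y * b) (B.mul_mem (B.mul_mem (B.inv_mem hb) hy) hb)
        rw [show b * (b⁻¹ * y * b) * b⁻¹ = y by group] at this
        conv_lhs => rw [← this]
        group⟩ }
  have hTM : centralizer ({t} : Set G) ≤ M := by
    intro x hx
    obtain ⟨w, hw, b, hb, rfl⟩ := s.exists_mul hx
    refine ⟨s.T_le_N hx, b, hb, fun y hy => ?_⟩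
    rw [show w * b * y * (w * b)⁻¹ = w * (b * y * b⁻¹) * w⁻¹ by group,
      s.comm hw (B.mul_mem (B.mul_mem hb hy) (B.inv_mem hb)), mul_inv_cancel_right]
  have hgM : g ∈ M := ⟨hgN, 1, B.one_mem, fun y hy => by rw [hgB y hy]; group⟩
  have hMN : M ≤ N := fun m hm => hm.1
  have hlt : Nat.card (centralizer ({t} : Set G)) < Nat.card M :=
    lt_of_le_of_ne (Subgroup.card_le_of_le hTM) fun e => hgt ((eq_of_le_of_card_ge hTM e.ge).symm.le hgM)
  have h1 := card_dvd_of_le hTM
  have h2 := card_dvd_of_le hMN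
  rw [s.cardT] at hlt h1
  rw [hN, s.card_N] at h2
  obtain ⟨c, hc⟩ := h1
  have hc3 : c ≤ 3 := by have := Nat.le_of_dvd (by norm_num) h2; omega
  have hM : M = N := eq_of_le_of_card_ge hMN (by
    rw [hN, s.card_N, hc]
    rw [hc] at hlt h2
    interval_cases c <;> omega)
  exact (hM.ge hn).2

/-- An element of order five of `B` is not conjugate to its square. -/
theorem five_not_sq {u : G} (hu : u ∈ B) (hu5 : orderOf u = 5) (y : G) : y * u * y⁻¹ ≠ u ^ 2 := by
  intro e
  haveI : Fact (Nat.Prime 2) := ⟨Nat.prime_two⟩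
  have hyX : ∀ x, x ∈ centralizer ({u} : Set G) → y * x * y⁻¹ ∈ centralizer ({u} : Set G) := fun x hx => by
    rw [← centralizer_sq hu5, ← e, mem_centralizer_singleton_iff, conj_mul, conj_mul,
      mem_centralizer_singleton_iff.1 hx]
  obtain ⟨S, hS⟩ := s.five_sylow_two hu hu5
  set a : centralizer ({u} : Set G) := ⟨y * t * y⁻¹, hyX t (s.W_cent s.tW hu)⟩
  have ha : orderOf a = 2 := by
    rw [Subgroup.orderOf_mk, orderOf_conj, h.ht]
  obtain ⟨R, hR⟩ := (IsPGroup.of_card (n := 1) (by rw [Nat.card_zpowers, ha, pow_one]) :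
    IsPGroup 2 (zpowers a)).exists_le_sylow
  obtain ⟨c, hc⟩ := MulAction.exists_smul_eq (centralizer ({u} : Set G)) R S
  have hca : c * a * c⁻¹ ∈ (S : Subgroup (centralizer ({u} : Set G))) := by
    rw [← hc]; exact ⟨a, hR (mem_zpowers a), rfl⟩
  rw [hS, mem_subgroupOf] at hca
  have hn : (c : G) * y ∈ normalizer (W : Set G) := s.mem_normalizer_W.2 (by
    rw [mul_inv_rev, show (c : G) * y * t * (y⁻¹ * (c : G)⁻¹) = c * (y * t * y⁻¹) * (c : G)⁻¹ by group]
    simpa [a] using hca)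
  obtain ⟨b, hb, hby⟩ := s.inner_on_B h hn
  have := hby u hu
  rw [mul_inv_rev, show (c : G) * y * u * (y⁻¹ * (c : G)⁻¹) = c * (y * u * y⁻¹) * (c : G)⁻¹ by group, e,
    (Commute.pow_right (mem_centralizer_singleton_iff.1 c.2 : Commute (c : G) u) 2).eq,
    mul_inv_cancel_right] at this
  obtain ⟨e'⟩ := s.alt
  refine alt_five_sq5 (e' ⟨u, hu⟩) (e' ⟨b, hb⟩) ?_ (fun h1 => ?_) ?_
  · rw [← map_pow, show (⟨u, hu⟩ : B) ^ 5 = 1 from Subtype.ext (by
      rw [Subgroup.coe_pow, ← hu5]; exact pow_orderOf_eq_one u), map_one]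
  · have := congrArg Subtype.val (e'.injective (h1.trans e'.map_one.symm))
    simp only [Subgroup.coe_one] at this
    rw [this, orderOf_one] at hu5; norm_num at hu5
  · rw [← map_mul, ← map_inv, ← map_mul, ← map_pow]
    exact congrArg e' (Subtype.ext this.symm)

variable {f k : G} (d : FiveData z t f k)
include d

/-- The centraliser of `f`. -/
theorem f_facts {P : Sylow 5 G} (hfP : f ∈ (P : Subgroup G))
    (hCP : centralizer ((P : Subgroup G) : Set G) = P) :
    Nat.card (centralizer ({f} : Set G)) = 50 ∧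
      centralizer ({f} : Set G) ≤ normalizer ((P : Subgroup G) : Set G) := by
  classical
  haveI : Fact (Nat.Prime 5) := ⟨by norm_num⟩
  obtain ⟨O, hO, hcard, hodd, -⟩ := five_local h d
  have hfO : f ∈ O := (hO f).2 ⟨mem_centralizer_singleton_iff.2 rfl, by rw [d.ordf]; decide⟩
  have hPO : (P : Subgroup G) ≤ O := by
    intro p hp
    refine (hO p).2 ⟨s.sylow_five_le h hfP hp, ?_⟩
    have := orderOf_dvd_natCard (⟨p, hp⟩ : (P : Subgroup G))
    rw [Subgroup.orderOf_mk, s.card_sylow_five h P] at this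
    exact Odd.of_dvd_nat (by decide) this
  have hzf : Commute z f := (mem_centralizer_singleton_iff.1 d.fC).symm
  have hzz : z * z = 1 := h.sqE z (h.A_le h.z_mem)
  have hzO : ∀ x ∈ O, z * x * z⁻¹ ∈ O := fun x hx => (hO _).2 ⟨by
    have hzC : z ∈ centralizer ({f} : Set G) := mem_centralizer_singleton_iff.2 hzf
    exact Subgroup.mul_mem _ (Subgroup.mul_mem _ hzC ((hO x).1 hx).1) (Subgroup.inv_mem _ hzC),
    by rw [orderOf_conj]; exact ((hO x).1 hx).2⟩
  -- the quotient by `⟨f⟩` is inverted by `z`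
  haveI hZn : ((zpowers f).subgroupOf O).Normal := ⟨fun x hx g => by
    rw [mem_subgroupOf] at hx ⊢
    obtain ⟨i, hi⟩ := mem_zpowers_iff.1 hx
    rw [Subgroup.coe_mul, Subgroup.coe_mul, InvMemClass.coe_inv, ← hi]
    have hc : Commute (g : G) (f ^ i) :=
      Commute.zpow_right (mem_centralizer_singleton_iff.1 ((hO _).1 g.2).1) i
    rw [hc.eq, mul_inv_cancel_right]
    exact zpow_mem (mem_zpowers f) i⟩
  set Z := (zpowers f).subgroupOf O with hZ
  let σ : O →* O :=
    { toFun := fun x => ⟨z * x * z⁻¹, hzO x x.2⟩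
      map_one' := Subtype.ext (by simp)
      map_mul' := fun p q => Subtype.ext (by simp [mul_assoc]) }
  have hσZ : Z ≤ Z.comap σ := fun x hx => by
    rw [mem_comap, mem_subgroupOf]
    obtain ⟨i, hi⟩ := mem_zpowers_iff.1 (mem_subgroupOf.1 hx)
    show z * (x : G) * z⁻¹ ∈ _
    rw [← hi, (hzf.zpow_right i).eq, mul_inv_cancel_right]
    exact zpow_mem (mem_zpowers f) i
  let σ' : O ⧸ Z →* O ⧸ Z := QuotientGroup.map Z Z σ hσZ
  have hfix : MonoidHom.FixedPointFree σ' := by
    intro q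
    induction q using QuotientGroup.induction_on with | H x =>
    intro hq
    rw [show σ' (x : O ⧸ Z) = ((σ x : O) : O ⧸ Z) from rfl, QuotientGroup.eq, mem_subgroupOf] at hq
    obtain ⟨i, hi⟩ := mem_zpowers_iff.1 hq
    simp only [Subgroup.coe_mul, InvMemClass.coe_inv] at hi
    change f ^ i = (z * (x : G) * z⁻¹)⁻¹ * x at hi
    have e1 : (x : G) = z * x * z⁻¹ * f ^ i := by rw [hi]; group
    have e3 : (f ^ i) ^ 2 = 1 := by
      have h1 : z * (x : G) * z⁻¹ = z * (z * x * z⁻¹ * f ^ i) * z⁻¹ := by rw [← e1]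
      rw [← conj_mul, show z * (z * (x : G) * z⁻¹) * z⁻¹ = z * z * x * (z * z)⁻¹ by group, hzz,
        (hzf.zpow_right i).eq, mul_inv_cancel_right, one_mul, inv_one, mul_one] at h1
      rw [h1, mul_assoc, ← pow_two] at e1
      exact mul_eq_left.1 e1.symm
    have e4 : (f ^ i) ^ 5 = 1 := by
      rw [← zpow_natCast, ← zpow_mul, mul_comm, zpow_mul, zpow_natCast, ← d.ordf, pow_orderOf_eq_one,
        one_zpow]
    have e5 : f ^ i = 1 := orderOf_eq_one_iff.1 (Nat.eq_one_of_dvd_coprimes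
      (show Nat.Coprime 2 5 by norm_num) (orderOf_dvd_of_pow_eq_one e3) (orderOf_dvd_of_pow_eq_one e4))
    rw [e5, mul_one] at e1
    have hxD : (x : G) ∈ centralizer ({z} : Set G) ⊓ centralizer ({f} : Set G) :=
      ⟨mem_centralizer_singleton_iff.2 (by nth_rewrite 1 [e1]; group), ((hO _).1 x.2).1⟩
    set D := centralizer ({z} : Set G) ⊓ centralizer ({f} : Set G) with hD
    have hfD : zpowers f ≤ D := zpowers_le.2 ⟨d.fC, mem_centralizer_singleton_iff.2 rfl⟩
    have hidx : ((zpowers f).subgroupOf D).index = 2 := by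
      have := ((zpowers f).subgroupOf D).index_mul_card
      rw [Nat.card_congr (subgroupOfEquivOfLe hfD).toEquiv, Nat.card_zpowers, d.ordf, hD, d.cardCf] at this
      rw [hD]; omega
    have hx2 := sq_mem_of_index_two hidx ⟨x, hxD⟩
    rw [mem_subgroupOf, Subgroup.coe_pow] at hx2
    have h10 := orderOf_dvd_natCard (⟨(x : G), hxD⟩ : D)
    rw [Subgroup.orderOf_mk, hD, d.cardCf] at h10
    have hx5 : (x : G) ^ 5 = 1 := orderOf_dvd_iff_pow_eq_one.1
      ((Nat.coprime_two_right.2 ((hO _).1 x.2).2).dvd_of_dvd_mul_left (show orderOf (x : G) ∣ 2 * 5 from h10))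
    refine (QuotientGroup.eq_one_iff x).2 (mem_subgroupOf.2 ?_)
    have := Subgroup.pow_mem _ hx2 3
    rwa [← pow_mul, show 2 * 3 = 5 + 1 from rfl, pow_succ, hx5, one_mul] at this
  have hinv2 : Function.Involutive σ' := by
    intro q
    induction q using QuotientGroup.induction_on with | H x =>
    show ((σ (σ x) : O) : O ⧸ Z) = x
    congr 1
    refine Subtype.ext ?_
    show z * (z * (x : G) * z⁻¹) * z⁻¹ = x
    rw [show z * (z * (x : G) * z⁻¹) * z⁻¹ = z * z * x * (z * z)⁻¹ by group, hzz]; group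
  have hcomm : ∀ p q : O ⧸ Z, p * q = q * p := by
    intro p q
    have hi := hfix.coe_eq_inv_of_involutive hinv2
    have := congrFun hi (q⁻¹ * p⁻¹)
    rw [map_mul, congrFun hi, congrFun hi, inv_inv, inv_inv, mul_inv_rev, inv_inv, inv_inv] at this
    exact this.symm
  -- every fifth power lies in `P`
  have hnorm : ∀ x ∈ O, ∀ p ∈ (P : Subgroup G), ∃ c ∈ zpowers f, x * p * x⁻¹ = c * p := by
    intro x hx p hp
    have h1 := hcomm ((⟨p, hPO hp⟩ : O) : O ⧸ Z) ((⟨x, hx⟩ : O) : O ⧸ Z)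
    rw [← QuotientGroup.mk_mul, ← QuotientGroup.mk_mul, QuotientGroup.eq, mem_subgroupOf] at h1
    obtain ⟨i, hi⟩ := mem_zpowers_iff.1 h1
    simp only [Subgroup.coe_mul, InvMemClass.coe_inv] at hi
    refine ⟨f ^ i, zpow_mem (mem_zpowers f) i, ?_⟩
    have hpf : Commute (p * x) (f ^ i) :=
      Commute.zpow_right (mem_centralizer_singleton_iff.1 ((hO _).1 (O.mul_mem (hPO hp) hx)).1) i
    have e : x * p = f ^ i * (p * x) := by rw [← hpf.eq, hi]; group
    rw [e]; group
  have hle : ∀ x ∈ O, x ^ 5 ∈ (P : Subgroup G) := by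
    intro x hx
    rw [← hCP, mem_centralizer_iff]
    intro p hp
    obtain ⟨c, hc, hxc⟩ := hnorm x hx p hp
    have hxc' : Commute x c := by
      obtain ⟨i, rfl⟩ := mem_zpowers_iff.1 hc
      exact Commute.zpow_right (mem_centralizer_singleton_iff.1 ((hO _).1 hx).1) i
    have key : ∀ n : ℕ, x ^ n * p * (x ^ n)⁻¹ = c ^ n * p := by
      intro n
      induction n with
      | zero => simp
      | succ n ih =>
        rw [pow_succ', show x * x ^ n * p * (x * x ^ n)⁻¹ = x * (x ^ n * p * (x ^ n)⁻¹) * x⁻¹ by group,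
          ih, ← conj_mul, hxc, (hxc'.pow_right n).eq, mul_inv_cancel_right, ← mul_assoc, ← pow_succ]
    have hc5 : c ^ 5 = 1 := by
      obtain ⟨i, rfl⟩ := mem_zpowers_iff.1 hc
      rw [← zpow_natCast, ← zpow_mul, mul_comm, zpow_mul, zpow_natCast, ← d.ordf, pow_orderOf_eq_one,
        one_zpow]
    have := key 5
    rw [hc5, one_mul, mul_inv_eq_iff_eq_mul] at this
    exact this.symm
  have hOP : O = (P : Subgroup G) := by
    refine P.3 (Q := O) (fun x => ⟨3, Subtype.ext ?_⟩) hPO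
    have := orderOf_dvd_natCard (⟨(x : G) ^ 5, hle x x.2⟩ : (P : Subgroup G))
    rw [Subgroup.orderOf_mk, s.card_sylow_five h P] at this
    rw [Subgroup.coe_pow, Subgroup.coe_one, show (5 : ℕ) ^ 3 = 5 * 25 from rfl, pow_mul]
    exact orderOf_dvd_iff_pow_eq_one.1 this
  refine ⟨by rw [hcard, hOP, s.card_sylow_five h P], fun y hy => mem_normalizer_fintype fun p hp => ?_⟩
  have hpO : p ∈ O := hPO hp
  rw [SetLike.mem_coe, ← hOP]
  exact (hO _).2 ⟨Subgroup.mul_mem _ (Subgroup.mul_mem _ hy ((hO p).1 hpO).1) (Subgroup.inv_mem _ hy),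
    by rw [orderOf_conj]; exact ((hO p).1 hpO).2⟩

/-- The Sylow normaliser and the classes of elements of order five. -/
theorem five_classes : ∃ (u : G) (P : Sylow 5 G), u ∈ B ∧ orderOf u = 5 ∧
    centralizer ((P : Subgroup G) : Set G) = P ∧
    Nat.card (normalizer ((P : Subgroup G) : Set G)) = 300 ∧
    ∀ x ∈ (P : Subgroup G), x ≠ 1 →
      IsConj x u ∨ IsConj x (u ^ 2) ∨ IsConj x f ∨ IsConj x (f ^ 2) := by
  classical
  haveI : Fact (Nat.Prime 5) := ⟨by norm_num⟩
  obtain ⟨⟨u, hu⟩, hu5⟩ := exists_prime_orderOf_dvd_card' (G := B) 5 (by rw [s.card_B]; norm_num)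
  rw [Subgroup.orderOf_mk] at hu5
  obtain ⟨P, hP⟩ := (IsPGroup.of_card (n := 1) (by rw [Nat.card_zpowers, hu5, pow_one]) :
    IsPGroup 5 (zpowers u)).exists_le_sylow
  have huP := hP (mem_zpowers u)
  have hCP := s.centralizer_P h hu hu5 huP
  obtain ⟨P₀, hP₀⟩ := (IsPGroup.of_card (n := 1) (by rw [Nat.card_zpowers, d.ordf, pow_one]) :
    IsPGroup 5 (zpowers f)).exists_le_sylow
  obtain ⟨g, hg⟩ := MulAction.exists_smul_eq G P₀ P
  have hgmem : ∀ x, x ∈ (P₀ : Subgroup G) ↔ g * x * g⁻¹ ∈ (P : Subgroup G) := by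
    intro x
    rw [← hg]
    refine ⟨fun hx => ⟨x, hx, rfl⟩, fun ⟨y, hy, e⟩ => ?_⟩
    have : y = x := mul_left_cancel (mul_right_cancel e)
    exact this ▸ hy
  have hCP₀ : centralizer ((P₀ : Subgroup G) : Set G) = P₀ := by
    ext x
    rw [hgmem, ← hCP, mem_centralizer_iff, mem_centralizer_iff]
    refine ⟨fun hx p hp => ?_, fun hx p hp => ?_⟩
    · have h1 := hx (g⁻¹ * p * g) ((hgmem _).2 (by rwa [show g * (g⁻¹ * p * g) * g⁻¹ = p by group]))
      calc p * (g * x * g⁻¹) = g * (g⁻¹ * p * g * x) * g⁻¹ := by group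
        _ = g * (x * (g⁻¹ * p * g)) * g⁻¹ := by rw [h1]
        _ = g * x * g⁻¹ * p := by group
    · have h1 := hx _ ((hgmem p).1 hp)
      rw [conj_mul, conj_mul] at h1
      exact mul_left_cancel (mul_right_cancel h1)
  obtain ⟨hf50, hfN⟩ := s.f_facts h d (hP₀ (mem_zpowers f)) hCP₀
  set f' := g * f * g⁻¹ with hf'
  have hf'P : f' ∈ (P : Subgroup G) := (hgmem f).1 (hP₀ (mem_zpowers f))
  have hf'5 : orderOf f' = 5 := by rw [hf', orderOf_conj, d.ordf]
  have hf'50 : Nat.card (centralizer ({f'} : Set G)) = 50 := by rw [hf', card_centralizer_conj, hf50]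
  set N := normalizer ((P : Subgroup G) : Set G) with hN
  have hf'N : centralizer ({f'} : Set G) ≤ N := fun y hy => mem_normalizer_fintype fun p hp => by
    have hy' : g⁻¹ * y * g ∈ centralizer ({f} : Set G) := by
      rw [mem_centralizer_singleton_iff]
      have := mem_centralizer_singleton_iff.1 hy
      calc g⁻¹ * y * g * f = g⁻¹ * (y * (g * f * g⁻¹)) * g := by group
        _ = g⁻¹ * (g * f * g⁻¹ * y) * g := by rw [this]
        _ = f * (g⁻¹ * y * g) := by group
    have h1 : g⁻¹ * p * g ∈ (P₀ : Subgroup G) := (hgmem _).2 (by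
      rwa [show g * (g⁻¹ * p * g) * g⁻¹ = p by group])
    have h2 := (mem_normalizer_iff.1 (hfN hy') _).1 h1
    rw [hgmem] at h2
    rwa [show g * (g⁻¹ * y * g * (g⁻¹ * p * g) * (g⁻¹ * y * g)⁻¹) * g⁻¹ = y * p * y⁻¹ by group] at h2
  have hu300 := (s.five_quot h hu hu5).1
  -- no fusion between the four elements
  have hnc : ∀ a b : G, Nat.card (centralizer ({a} : Set G)) = 300 →
      Nat.card (centralizer ({b} : Set G)) = 50 → ¬ IsConj a b := by
    intro a b ha hb hab
    obtain ⟨c, hc⟩ := isConj_iff.1 hab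
    rw [← hc, card_centralizer_conj, ha] at hb
    omega
  have hu2 : Nat.card (centralizer ({u ^ 2} : Set G)) = 300 := by rw [centralizer_sq hu5, hu300]
  have hf2 : Nat.card (centralizer ({f' ^ 2} : Set G)) = 50 := by rw [centralizer_sq hf'5, hf'50]
  obtain ⟨O, -, -, -, hfsq⟩ := five_local h d
  have hfsq' : ∀ y, y * f' * y⁻¹ ≠ f' ^ 2 := fun y e => hfsq (g⁻¹ * y * g) (by
    rw [hf', conj_pow] at e
    calc g⁻¹ * y * g * f * (g⁻¹ * y * g)⁻¹ = g⁻¹ * (y * (g * f * g⁻¹) * y⁻¹) * g := by group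
      _ = g⁻¹ * (g * f ^ 2 * g⁻¹) * g := by rw [e]
      _ = f ^ 2 := by group)
  -- the orbits
  let orb : G → Set G := fun a => {x | ∃ n ∈ N, n * a * n⁻¹ = x}
  have horbP : ∀ a ∈ (P : Subgroup G), a ≠ 1 → orb a ⊆ ((P : Subgroup G) : Set G) \ {1} := by
    rintro a ha ha1 x ⟨n, hn, rfl⟩
    exact ⟨(mem_normalizer_iff.1 hn a).1 ha, fun e => ha1 (conj_eq_one_iff.1 e)⟩
  have hstab : ∀ a, Nat.card ↥(N ⊓ centralizer ({a} : Set G)) = 50 → Nat.card N = (orb a).ncard * 50 := by
    intro a ha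
    rw [← ha]
    refine card_orbit (a := a) inf_le_left (fun n hn => ?_) fun x => Iff.rfl
    rw [mul_inv_eq_iff_eq_mul, ← mem_centralizer_singleton_iff]
    exact and_iff_right hn
  have su := s.five_stab h hu hu5 huP
  have h1 := hstab u su
  have h2 := hstab (u ^ 2) (by rw [centralizer_sq hu5]; exact su)
  have sf : Nat.card ↥(N ⊓ centralizer ({f'} : Set G)) = 50 := by rw [inf_eq_right.2 hf'N, hf'50]
  have h3 := hstab f' sf
  have h4 := hstab (f' ^ 2) (by rw [centralizer_sq hf'5]; exact sf)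
  have hdis : ∀ a b : G, ¬ IsConj a b → Disjoint (orb a) (orb b) := by
    intro a b hab
    rw [Set.disjoint_left]
    rintro x ⟨n, -, hn⟩ ⟨m, -, hm⟩
    exact hab ((isConj_iff.2 ⟨n, hn⟩).trans (isConj_iff.2 ⟨m, hm⟩).symm)
  have d1 := hdis u (u ^ 2) fun e => by
    obtain ⟨c, hc⟩ := isConj_iff.1 e; exact s.five_not_sq h hu hu5 c hc
  have d2 := hdis f' (f' ^ 2) fun e => by
    obtain ⟨c, hc⟩ := isConj_iff.1 e; exact hfsq' c hc
  have d3 := hdis u f' (hnc _ _ hu300 hf'50)
  have d4 := hdis u (f' ^ 2) (hnc _ _ hu300 hf2)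
  have d5 := hdis (u ^ 2) f' (hnc _ _ hu2 hf'50)
  have d6 := hdis (u ^ 2) (f' ^ 2) (hnc _ _ hu2 hf2)
  have hne : ∀ a : G, orderOf a = 5 → a ≠ 1 ∧ a ^ 2 ≠ 1 := fun a ha =>
    ⟨fun e => by rw [e, orderOf_one] at ha; norm_num at ha, fun e => by
      have := orderOf_dvd_of_pow_eq_one e; rw [ha] at this; norm_num at this⟩
  set U := orb u ∪ orb (u ^ 2) ∪ (orb f' ∪ orb (f' ^ 2)) with hU
  have hUcard : U.ncard = 4 * (orb u).ncard := by
    rw [hU, Set.ncard_union_eq (Disjoint.union_left (d3.union_right d4) (d5.union_right d6))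
      (Set.toFinite _) (Set.toFinite _), Set.ncard_union_eq d1, Set.ncard_union_eq d2]
    omega
  have hUsub : U ⊆ ((P : Subgroup G) : Set G) \ {1} :=
    Set.union_subset (Set.union_subset (horbP _ huP (hne u hu5).1) (horbP _ (Subgroup.pow_mem _ huP 2) (hne u hu5).2))
      (Set.union_subset (horbP _ hf'P (hne f' hf'5).1) (horbP _ (Subgroup.pow_mem _ hf'P 2) (hne f' hf'5).2))
  have hP24 : (((P : Subgroup G) : Set G) \ {1}).ncard = 24 := by
    rw [Set.ncard_sdiff_singleton_of_mem (Subgroup.one_mem _), ← Nat.card_coe_set_eq,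
      SetLike.coe_sort_coe, s.card_sylow_five h P]
  have hr := Set.ncard_le_ncard hUsub (Set.toFinite _)
  rw [hUcard, hP24] at hr
  have hidx := N.index_mul_card
  rw [h1, s.cardG h] at hidx
  have hn5 := card_sylow_modEq_one 5 G
  rw [P.card_eq_index_normalizer] at hn5
  replace hn5 : N.index ≡ 1 [MOD 5] := hn5
  have hr1 : (orb u).ncard ≠ 1 := by
    intro e
    rw [e, one_mul] at h1
    have hNu : N ⊓ centralizer ({u} : Set G) = N := eq_of_le_of_card_ge inf_le_left (by rw [h1, su])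
    have hNf : N ⊓ centralizer ({f'} : Set G) = N := eq_of_le_of_card_ge inf_le_left (by rw [h1, sf])
    have hfu : f' ∉ zpowers u := fun hm => hnc u f' hu300 hf'50 (by
      exfalso
      have hz : zpowers f' = zpowers u := eq_of_le_of_card_ge (zpowers_le.2 hm)
        (by rw [Nat.card_zpowers, Nat.card_zpowers, hu5, hf'5])
      rw [centralizer_of_zpowers hz, hu300] at hf'50
      omega)
    have : N ≤ (P : Subgroup G) := fun n hn => s.five_self h hu hu5 huP hf'P hfu (hNu.ge hn).2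
      (mem_centralizer_singleton_iff.1 (hNf.ge hn).2)
    have := Subgroup.card_le_of_le this
    rw [h1, s.card_sylow_five h P] at this
    omega
  have hr6 : (orb u).ncard = 6 := by
    unfold Nat.ModEq at hn5
    have hle : (orb u).ncard ≤ 6 := by omega
    interval_cases hc : (orb u).ncard <;> omega
  refine ⟨u, P, hu, hu5, hCP, by rw [h1, hr6], fun x hx hx1 => ?_⟩
  have hUeq : U = ((P : Subgroup G) : Set G) \ {1} :=
    Set.eq_of_subset_of_ncard_le hUsub (by rw [hP24, hUcard, hr6]) (Set.toFinite _)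
  have hxU : x ∈ U := hUeq ▸ ⟨hx, hx1⟩
  have hff : IsConj f' f := (isConj_iff.2 ⟨g, rfl⟩ : IsConj f f').symm
  have hff2 : IsConj (f' ^ 2) (f ^ 2) := (isConj_iff.2 ⟨g, (conj_pow).symm⟩ : IsConj (f ^ 2) (f' ^ 2)).symm
  rcases hxU with (⟨n, -, e⟩ | ⟨n, -, e⟩) | ⟨n, -, e⟩ | ⟨n, -, e⟩
  · exact Or.inl (isConj_iff.2 ⟨n, e⟩).symm
  · exact Or.inr (Or.inl (isConj_iff.2 ⟨n, e⟩).symm)
  · exact Or.inr (Or.inr (Or.inl ((isConj_iff.2 ⟨n, e⟩).symm.trans hff)))
  · exact Or.inr (Or.inr (Or.inr ((isConj_iff.2 ⟨n, e⟩).symm.trans hff2)))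

end Split

end Cfsg.Agent.H59.HJ
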