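import Cfsg.Agent.H59.HJ.Split
import Cfsg.Agent.H5.SmallOrth
import Cfsg.Agent.H51.FStar

/-!
Groups of Hall-Janko type: from the hypotheses of the statements to the working data.
-/

set_option autoImplicit false
set_option linter.style.haveILetI false

namespace Cfsg.Agent.H59.HJ

open Subgroup

theorem nonempty_omega_minus_four :
    Nonempty (↥(Cfsg.Omega (ZMod 2) (Cfsg.quadFormMinus 1 (ZMod 2) 1 1)) ≃* A5) := by
  obtain ⟨e⟩ := H5.nonempty_minus_four_two
  have hmap : (alternatingGroup (Fin 5)).map e.symm.toMonoidHom =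
      Cfsg.Omega (ZMod 2) (Cfsg.quadFormMinus 1 (ZMod 2) 1 1) := by
    rw [← alternatingGroup.commutator_perm_eq (α := Fin 5) (by simp), Cfsg.Omega, commutator_def,
      commutator_def, Subgroup.map_commutator, Subgroup.map_top_of_surjective _ e.symm.surjective]
  exact ⟨((e.symm.subgroupMap (alternatingGroup (Fin 5))).trans (MulEquiv.subgroupCongr hmap)).symm⟩

variable {G : Type*} [Group G] [Finite G]

/-- The working data of a group of Hall-Janko type. -/
structure Data (z t f k : G) (E A B W : Subgroup G) : Prop where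
  loc : Local z t E A
  five : FiveData z t f k
  split : Split z t E A B W

theorem exists_data (z : G) (hz : orderOf z = 2) (Q : Subgroup (centralizer ({z} : Set G))) [Q.Normal]
    (hF : Cfsg.generalizedFittingSubgroup (centralizer ({z} : Set G)) = Q) (hQ : Cfsg.IsExtraspecial 2 Q)
    (hcard : Nat.card Q = 2 ^ 5)
    (e : (centralizer ({z} : Set G)) ⧸ Q ≃* Cfsg.Omega (ZMod 2) (Cfsg.quadFormMinus 1 (ZMod 2) 1 1))
    (hnwc : ∃ g : G, (∃ hq : g * z * g⁻¹ ∈ centralizer ({z} : Set G),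
      (⟨g * z * g⁻¹, hq⟩ : centralizer ({z} : Set G)) ∈ Q) ∧ g * z * g⁻¹ ≠ z)
    (hcl : ∃ x y : G, orderOf x = 2 ∧ orderOf y = 2 ∧ ¬ IsConj x y) :
    ∃ (t f k : G) (E A B W : Subgroup G) (Φ : Q0 × A5 → G), Frame z Φ ∧ Data z t f k E A B W := by
  obtain ⟨ε⟩ := nonempty_omega_minus_four
  have hyp : Hyp z Q :=
    ⟨hz, by rw [← hF]; exact H51.centralizer_generalizedFitting_le _, hQ, hcard, ⟨e.trans ε⟩, hnwc, hcl⟩
  obtain ⟨Φ, F⟩ := exists_frame hyp
  obtain ⟨t, E, A, h⟩ := exists_local F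
  obtain ⟨f, k, d⟩ := exists_five F h
  obtain ⟨W, s⟩ := h.exists_split d
  exact ⟨t, f, k, E, A, derT t, W, Φ, F, h, d, s⟩

end Cfsg.Agent.H59.HJ
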