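import Cfsg.Agent.H59.HJ.Model

/-! The counts in the model used by the order formula. -/

set_option autoImplicit false

namespace Cfsg.Agent.H59.HJ

/-- Powers in the model. -/
def ppow (a : Q0 × A5) : ℕ → Q0 × A5
  | 0 => (0, 1)
  | n + 1 => pm (ppow a n) a

theorem ppow_period : ∀ a : Q0 × A5, ∃ m : Fin 12, ppow a (m + 1) = (0, 1) := by decide +kernel

/-- Pairs of an inner and an outer involution. -/
abbrev InnerOuter (p : (Q0 × A5) × (Q0 × A5)) : Prop :=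
  p.1.2 = 1 ∧ mulQ p.1.1 p.1.1 = 0 ∧ p.1.1 ≠ 0 ∧ p.2.2 ≠ 1 ∧ pm p.2 p.2 = (0, 1)

theorem count_pairs :
    ((((Finset.univ : Finset (Q0 × A5)).filter fun a => a.2 = 1 ∧ mulQ a.1 a.1 = 0 ∧ a.1 ≠ 0) ×ˢ
      ((Finset.univ : Finset (Q0 × A5)).filter fun b => b.2 ≠ 1 ∧ pm b b = (0, 1))).filter
        fun p => ∃ k : Fin 13, ppow (pm p.1 p.2) k = (zQ, 1)).card = 960 := by decide +kernel

theorem cent_inner_sq : ∀ x : Q0, pm (0, sig0) (x, 1) = pm (x, 1) (0, sig0) → mulQ x x = 0 := by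
  decide +kernel

theorem pm_one : ∀ a : Q0 × A5, pm (0, 1) a = a ∧ pm a (0, 1) = a := by decide +kernel

end Cfsg.Agent.H59.HJ
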