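import Cfsg.Agent.H59.HJ.Klein

/-!
Facts about the alternating group of degree five, transported to an abstract group.
-/

set_option autoImplicit false
set_option linter.style.haveILetI false

namespace Cfsg.Agent.H59.HJ

open Subgroup

theorem alt_five_invol : ∀ a b : ↥(alternatingGroup (Fin 5)), a * a = 1 → a ≠ 1 → b * b = 1 →
    b ≠ 1 → ∃ c, c * a * c⁻¹ = b := by decide +kernel

set_option synthInstance.maxSize 1024 in
theorem alt_five_inverter : ∀ a b : ↥(alternatingGroup (Fin 5)), a * a = 1 → a ≠ 1 →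
    b * a * b⁻¹ * a = a * (b * a * b⁻¹) → b * a * b⁻¹ ≠ a → ∃ y,
      (y * y = 1 ∧ y * b * y = b⁻¹ ∧ (a * y) ^ 3 = 1) ∧
      (∀ y', y' * y' = 1 → y' * b * y' = b⁻¹ → (a * y') ^ 3 = 1 → y' = y) ∧
      ((b * a * b⁻¹ * y) ^ 5 = 1 ∧ b * a * b⁻¹ * y ≠ 1 ∨
        (b⁻¹ * a * b * y) ^ 5 = 1 ∧ b⁻¹ * a * b * y ≠ 1) := by decide +kernel

theorem alt_five_cube : ∀ a b : ↥(alternatingGroup (Fin 5)), a * a = 1 →
    b * a * b⁻¹ * a = a * (b * a * b⁻¹) → b * a * b⁻¹ ≠ a → b ^ 3 = 1 := by decide +kernel

theorem alt_five_center : ∀ x : ↥(alternatingGroup (Fin 5)), (∀ y, y * x = x * y) → x = 1 := by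
  decide +kernel

variable {X : Type*} [Group X] [Finite X]

omit [Finite X] in
theorem iso_card (e : X ≃* ↥(alternatingGroup (Fin 5))) : Nat.card X = 60 := by
  rw [Nat.card_congr e.toEquiv, Nat.card_eq_fintype_card]; decide +kernel

omit [Finite X] in
theorem iso_invol (e : X ≃* ↥(alternatingGroup (Fin 5))) {a b : X} (ha : a * a = 1) (ha1 : a ≠ 1)
    (hb : b * b = 1) (hb1 : b ≠ 1) : ∃ c, c * a * c⁻¹ = b := by
  obtain ⟨c, hc⟩ := alt_five_invol (e a) (e b) (by rw [← map_mul, ha, map_one])
    (by simpa using ha1) (by rw [← map_mul, hb, map_one]) (by simpa using hb1)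
  exact ⟨e.symm c, e.injective (by simpa using hc)⟩

omit [Finite X] in
theorem iso_center (e : X ≃* ↥(alternatingGroup (Fin 5))) {x : X} (h : ∀ y, y * x = x * y) :
    x = 1 := by
  apply e.injective
  rw [map_one]
  refine alt_five_center _ fun y => ?_
  simpa using congrArg e (h (e.symm y))

/-- An element acting on `X` which fixes a four-group and an element of order three normalising it
fixes everything. -/
theorem fix_all (e : X ≃* ↥(alternatingGroup (Fin 5))) (φ : X →* X) {a b : X} (ha : a * a = 1)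
    (ha1 : a ≠ 1) (hab : b * a * b⁻¹ * a = a * (b * a * b⁻¹)) (hab' : b * a * b⁻¹ ≠ a)
    (hfa : φ a = a) (hfb : φ b = b) : ∀ x, φ x = x := by
  obtain ⟨y, ⟨hy1, hy2, hy3⟩, huniq, hy4⟩ := alt_five_inverter (e a) (e b)
    (by rw [← map_mul, ha, map_one]) (by simpa using ha1)
    (by simpa using congrArg e hab) fun h => hab' (e.injective (by simpa using h))
  obtain ⟨y, rfl⟩ := e.surjective y
  have hfy : φ y = y := by
    have h1 : y * y = 1 := e.injective (by simpa using hy1)
    have h2 : y * b * y = b⁻¹ := e.injective (by simpa using hy2)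
    have h3 : (a * y) ^ 3 = 1 := e.injective (by simpa using hy3)
    apply e.injective
    apply huniq
    · rw [← map_mul, ← map_mul, h1, map_one, map_one]
    · have := congrArg φ h2
      rw [map_mul, map_mul, map_inv, hfb] at this
      rw [← map_mul, ← map_mul, this, map_inv]
    · have := congrArg φ h3
      rw [map_pow, map_mul, map_one, hfa] at this
      rw [← map_mul, ← map_pow, this, map_one]
  let H : Subgroup X :=
    { carrier := {x | φ x = x}
      one_mem' := map_one φ
      mul_mem' := fun {p q} hp hq => by simp [show φ p = p from hp, show φ q = q from hq]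
      inv_mem' := fun {p} hp => by simp [show φ p = p from hp] }
  have h60 := iso_card e
  suffices hH : H = ⊤ by
    intro x
    exact (show x ∈ H by rw [hH]; exact mem_top _)
  -- `H` contains a four-group
  haveI : Fact (Nat.Prime 2) := ⟨Nat.prime_two⟩
  set a' := b * a * b⁻¹ with ha'
  have haH : a ∈ H := hfa
  have hbH : b ∈ H := hfb
  have hyH : y ∈ H := hfy
  have ha'H : a' ∈ H := H.mul_mem (H.mul_mem hbH haH) (H.inv_mem hbH)
  have ha'2 : a' * a' = 1 := by
    rw [ha', conj_mul, ha]; group
  have ha'1 : a' ≠ 1 := fun h => ha1 (conj_eq_one_iff.1 (ha' ▸ h))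
  -- the order of `H`
  have hdvd : Nat.card H ∣ 60 := h60 ▸ H.card_subgroup_dvd_card
  have h2 : 4 ∣ Nat.card H := by
    let V : Subgroup X :=
      { carrier := {x | x = 1 ∨ x = a ∨ x = a' ∨ x = a * a'}
        one_mem' := Or.inl rfl
        mul_mem' := fun {p q} hp hq => by
          have e1 : a' * a = a * a' := hab
          have e2 : ∀ r, a * (a * r) = r := fun r => by rw [← mul_assoc, ha, one_mul]
          have e4 : ∀ r, a' * (a * r) = a * (a' * r) := fun r => by rw [← mul_assoc, e1, mul_assoc]
          rcases hp with rfl | rfl | rfl | rfl <;> rcases hq with rfl | rfl | rfl | rfl <;>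
            simp [mul_assoc, e1, e2, e4, ha, ha'2]
        inv_mem' := fun {p} hp => by
          have e1 : a' * a = a * a' := hab
          rcases hp with rfl | rfl | rfl | rfl
          · simp
          · exact Or.inr (Or.inl (inv_eq_of_mul_eq_one_right ha))
          · exact Or.inr (Or.inr (Or.inl (inv_eq_of_mul_eq_one_right ha'2)))
          · exact Or.inr (Or.inr (Or.inr (by
              rw [mul_inv_rev, inv_eq_of_mul_eq_one_right ha, inv_eq_of_mul_eq_one_right ha'2, e1]))) }
    have hVle : V ≤ H := by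
      rintro x (rfl | rfl | rfl | rfl)
      exacts [H.one_mem, haH, ha'H, H.mul_mem haH ha'H]
    have hV4 : Nat.card V = 4 := by
      classical
      have hset : (V : Set X) = ↑({1, a, a', a * a'} : Finset X) := by
        ext x; simp [V]
      rw [← SetLike.coe_sort_coe, Nat.card_coe_set_eq, hset, Set.ncard_coe_finset]
      have hne1 : a * a' ≠ 1 := fun h => hab' (by
        rw [eq_inv_of_mul_eq_one_right h, inv_eq_of_mul_eq_one_right ha])
      have hne2 : a * a' ≠ a := fun h => ha'1 (mul_eq_left.1 h)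
      have hne3 : a * a' ≠ a' := fun h => ha1 (mul_eq_right.1 h)
      rw [Finset.card_insert_of_notMem, Finset.card_insert_of_notMem, Finset.card_insert_of_notMem,
        Finset.card_singleton] <;>
        simp [ha1, ha'1, Ne.symm ha1, Ne.symm ha'1, hne1.symm, hne2.symm, hne3.symm, Ne.symm hab']
    exact hV4 ▸ card_dvd_of_le hVle
  have h3 : 3 ∣ Nat.card H := by
    have h := alt_five_cube (e a) (e b) (by rw [← map_mul, ha, map_one])
      (by simpa [ha'] using congrArg e hab)
      fun h => hab' (e.injective (by simpa [ha'] using h))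
    have h3 : b ^ 3 = 1 := e.injective (by rw [map_pow, map_one]; exact h)
    haveI : Fact (Nat.Prime 3) := ⟨Nat.prime_three⟩
    rw [← orderOf_eq_prime h3 fun h => hab' (by rw [ha', h]; simp), ← Subgroup.orderOf_mk b hbH]
    exact orderOf_dvd_natCard _
  have h5 : 5 ∣ Nat.card H := by
    haveI : Fact (Nat.Prime 5) := ⟨by norm_num⟩
    have key : ∀ w ∈ H, (e w) ^ 5 = 1 → e w ≠ 1 → 5 ∣ Nat.card H := by
      intro w hw h h1
      rw [← map_pow, ← map_one e] at h
      rw [← orderOf_eq_prime (e.injective h) (fun hh => h1 (by rw [hh, map_one])),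
        ← Subgroup.orderOf_mk w hw]
      exact orderOf_dvd_natCard _
    rcases hy4 with ⟨h, h'⟩ | ⟨h, h'⟩
    · exact key (a' * y) (H.mul_mem ha'H hyH) (by simpa [ha'] using h) (by simpa [ha'] using h')
    · exact key (b⁻¹ * a * b * y) (H.mul_mem (H.mul_mem (H.mul_mem (H.inv_mem hbH) haH) hbH) hyH)
        (by simpa using h) (by simpa using h')
  refine eq_top_of_card_eq _ (Nat.dvd_antisymm (h60.symm ▸ hdvd) ?_)
  rw [h60]
  exact (show Nat.Coprime (4 * 3) 5 by norm_num).mul_dvd_of_dvd_of_dvd
      ((show Nat.Coprime 4 3 by norm_num).mul_dvd_of_dvd_of_dvd h2 h3) h5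

end Cfsg.Agent.H59.HJ
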