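import Cfsg.Prelude
import Cfsg.Agent.H37.KleinSylowA5

/-!
Groups with a self-centralising four-group at every involution; recognition of `A₄`.
-/

set_option autoImplicit false
set_option linter.style.haveILetI false

namespace Cfsg.Agent.H59.HJ

open Subgroup
open scoped Pointwise

variable {X : Type*} [Group X] [Finite X]

/-- A 2-subgroup containing every 2-element normalising it is a Sylow subgroup. -/
theorem sylow_of_normalizer {P : Subgroup X} (hP : IsPGroup 2 P)
    (h : ∀ u : X, u ∈ normalizer (P : Set X) → (∃ k : ℕ, u ^ 2 ^ k = 1) → u ∈ P) :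
    ∃ S : Sylow 2 X, (S : Subgroup X) = P := by
  haveI : Fact (Nat.Prime 2) := ⟨Nat.prime_two⟩
  obtain ⟨S, hS⟩ := hP.exists_le_sylow
  refine ⟨S, le_antisymm ?_ hS⟩
  by_contra hne
  haveI := S.isPGroup'.isNilpotent
  have hlt : P.subgroupOf (S : Subgroup X) < ⊤ := by
    rw [lt_top_iff_ne_top, Ne, subgroupOf_eq_top]
    exact hne
  obtain ⟨u, hu, huP⟩ := SetLike.exists_of_lt (normalizerCondition_of_isNilpotent _ hlt)
  refine huP (mem_subgroupOf.2 (h u ?_ ?_))
  · rw [mem_normalizer_iff]
    intro n
    constructor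
    · intro hn
      have := (mem_normalizer_iff.1 hu ⟨n, hS hn⟩).1 (mem_subgroupOf.2 hn)
      simpa [mem_subgroupOf] using this
    · intro hn
      have hnS : n ∈ (S : Subgroup X) := by
        have := (S : Subgroup X).mul_mem ((S : Subgroup X).mul_mem
          ((S : Subgroup X).inv_mem u.2) (hS hn)) u.2
        simpa [mul_assoc] using this
      have := (mem_normalizer_iff.1 hu ⟨n, hnS⟩).2 (mem_subgroupOf.2 (by simpa using hn))
      simpa [mem_subgroupOf] using this
  · obtain ⟨k, hk⟩ := S.isPGroup' u
    exact ⟨k, by simpa using congrArg Subtype.val hk⟩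

/-- A group with a four-group which is the centraliser of each of its involutions and a Sylow
subgroup. -/
theorem four_self_centralizing (P : Sylow 2 X) (h4 : Nat.card (P : Subgroup X) = 4)
    (hsq : ∀ a ∈ (P : Subgroup X), a * a = 1)
    (hC : ∀ a ∈ (P : Subgroup X), a ≠ 1 → centralizer ({a} : Set X) = (P : Subgroup X)) :
    (P : Subgroup X) = ⊤ ∨ ((P : Subgroup X).Normal ∧ Nat.card X = 12) ∨
      Nonempty (X ≃* ↥(alternatingGroup (Fin 5))) := by
  classical
  haveI : Fact (Nat.Prime 2) := ⟨Nat.prime_two⟩
  have hsq' : ∀ a ∈ (P : Subgroup X), a ^ 2 = 1 := fun a ha => by rw [pow_two]; exact hsq a ha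
  obtain ⟨a, ha, ha1⟩ : ∃ a ∈ (P : Subgroup X), a ≠ 1 := by
    by_contra hcon
    push Not at hcon
    rw [(Subgroup.eq_bot_iff_forall _).2 hcon, card_bot] at h4
    omega
  have ha2 : orderOf a = 2 := orderOf_eq_prime (hsq' a ha) ha1
  by_cases hPn : (P : Subgroup X).Normal
  · -- the action on the three involutions
    haveI := hPn
    haveI := Fintype.ofFinite (P : Subgroup X)
    let T := {b : (P : Subgroup X) // b ≠ 1}
    let f : X →* Equiv.Perm T :=
      { toFun := fun g => Equiv.subtypeEquiv (MulAut.conjNormal g).toEquiv fun b => by simp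
        map_one' := by ext b; simp
        map_mul' := fun g g' => by ext b; simp }
    have hker : f.ker = (P : Subgroup X) := by
      refine le_antisymm (fun g hg => ?_) fun g hg => ?_
      · rw [← hC a ha ha1, mem_centralizer_singleton_iff]
        have := congrArg (fun σ : Equiv.Perm T => ((σ ⟨⟨a, ha⟩, fun e => ha1 (congrArg Subtype.val e)⟩).1 : X))
          (MonoidHom.mem_ker.1 hg)
        simp [f] at this
        exact mul_inv_eq_iff_eq_mul.1 this
      · refine MonoidHom.mem_ker.2 (Equiv.ext fun b => Subtype.ext (Subtype.ext ?_))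
        show g * ((b.1 : (P : Subgroup X)) : X) * g⁻¹ = b.1
        rw [mul_inv_eq_iff_eq_mul]
        exact mem_centralizer_singleton_iff.1 (show g ∈ centralizer ({((b.1 : (P : Subgroup X)) : X)} : Set X)
          by rw [hC _ b.1.2 fun e => b.2 (Subtype.ext e)]; exact hg)
    have hT : Fintype.card T = 3 := by
      rw [Fintype.card_subtype_compl, Fintype.card_subtype_eq, ← Nat.card_eq_fintype_card, h4]
    have hdvd : (P : Subgroup X).index ∣ 6 := by
      rw [← hker, index_ker]
      refine (Subgroup.card_subgroup_dvd_card f.range).trans ?_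
      rw [Nat.card_perm, Nat.card_eq_fintype_card, hT]
      rfl
    have hodd := P.not_dvd_index
    have hcard := (P : Subgroup X).card_mul_index
    rw [h4] at hcard
    rcases (by
      have := Nat.le_of_dvd (by norm_num) hdvd
      interval_cases (P : Subgroup X).index <;> omega :
      (P : Subgroup X).index = 1 ∨ (P : Subgroup X).index = 3) with h | h
    · exact Or.inl (index_eq_one.1 h)
    · exact Or.inr (Or.inl ⟨hPn, by rw [← hcard, h]⟩)
  by_cases hnc : Cfsg.HasNormalPComplement 2 X
  · left
    obtain ⟨R, N, hN, hcompl⟩ := hnc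
    haveI := hN
    have hodd : Odd (Nat.card N) := by
      have h1 := hcompl.card_mul
      have h2 : (R : Subgroup X).index = Nat.card N := hcompl.index_eq_card
      rw [← h2]
      exact Nat.odd_iff.mpr (Nat.two_dvd_ne_zero.mp R.not_dvd_index)
    have hinv : ∀ b ∈ (P : Subgroup X), b ≠ 1 → ∀ n ∈ N, b * n * b⁻¹ = n⁻¹ := by
      intro b hb hb1 n hn
      let φ : N →* N := (MulAut.conjNormal b).toMonoidHom
      have hfix : MonoidHom.FixedPointFree φ := by
        intro m hm
        have e : b * (m : X) * b⁻¹ = m := congrArg Subtype.val hm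
        have hmP : (m : X) ∈ (P : Subgroup X) := by
          rw [← hC b hb hb1, mem_centralizer_singleton_iff]
          exact (mul_inv_eq_iff_eq_mul.1 e).symm
        apply Subtype.ext
        by_contra hm1
        have h2 : orderOf (m : X) = 2 := orderOf_eq_prime (hsq' _ hmP) hm1
        rw [Subgroup.orderOf_coe] at h2
        exact (Nat.not_even_iff_odd.2 hodd) (even_iff_two_dvd.2 (h2 ▸ orderOf_dvd_natCard m))
      have hinvol : Function.Involutive φ := fun m => Subtype.ext (by
        show b * (b * (m : X) * b⁻¹) * b⁻¹ = m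
        have hbb := hsq b hb
        rw [inv_eq_of_mul_eq_one_right hbb]
        simp [mul_assoc, ← mul_assoc b b, hbb])
      have := congrFun (hfix.coe_eq_inv_of_involutive hinvol) ⟨n, hn⟩
      exact congrArg Subtype.val this
    obtain ⟨b, hb, hb1, hba⟩ : ∃ b ∈ (P : Subgroup X), b ≠ 1 ∧ b ≠ a := by
      by_contra hcon
      push Not at hcon
      have hsub : ((P : Subgroup X) : Set X) ⊆ {1, a} := fun b hb => by
        by_cases hb1 : b = 1
        · exact Or.inl hb1
        · exact Or.inr (hcon b hb hb1)
      have := Set.ncard_le_ncard hsub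
      rw [← Nat.card_coe_set_eq, SetLike.coe_sort_coe, h4] at this
      rw [Set.ncard_pair (Ne.symm ha1)] at this
      omega
    have hab : a * b ≠ 1 := fun e => hba (by
      rw [eq_inv_of_mul_eq_one_right e, inv_eq_of_mul_eq_one_right (hsq a ha)])
    have hN1 : N = ⊥ := by
      rw [Subgroup.eq_bot_iff_forall]
      intro n hn
      have e1 := hinv _ ((P : Subgroup X).mul_mem ha hb) hab n hn
      have e2 : a * b * n * (a * b)⁻¹ = n := by
        rw [show a * b * n * (a * b)⁻¹ = a * (b * n * b⁻¹) * a⁻¹ by group, hinv b hb hb1 n hn,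
          hinv a ha ha1 _ (N.inv_mem hn), inv_inv]
      rw [e2] at e1
      by_contra hn1
      have h2 : orderOf (⟨n, hn⟩ : N) = 2 := by
        refine orderOf_eq_prime (Subtype.ext ?_) fun e => hn1 (congrArg Subtype.val e)
        show n ^ 2 = 1
        rw [pow_two]
        nth_rewrite 1 [e1]
        exact inv_mul_cancel n
      exact (Nat.not_even_iff_odd.2 hodd) (even_iff_two_dvd.2 (h2 ▸ orderOf_dvd_natCard _))
    subst hN1
    have hRtop : (R : Subgroup X) = ⊤ := isComplement'_bot_left.1 hcompl
    refine (card_eq_iff_eq_top _).1 ?_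
    rw [P.card_eq_multiplicity, ← R.card_eq_multiplicity, hRtop, card_top]
  · refine Or.inr (Or.inr (H37.a5_of_self_centralizing_klein_sylow a ha2 P (hC a ha ha1).symm h4 hsq'
      hnc fun E hE hel => ⟨fun hE2 => ?_, fun hE4 => ?_⟩))
    · -- a central involution
      haveI := hE
      refine hPn ?_
      have hEP : E ≤ (P : Subgroup X) := by
        have hEp : IsPGroup 2 E := IsPGroup.of_card (n := 1) (by rw [hE2, pow_one])
        obtain ⟨T, hT⟩ := hEp.exists_le_sylow
        obtain ⟨g, hg⟩ := MulAction.exists_smul_eq X T P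
        intro x hx
        rw [← hg]
        refine Set.mem_smul_set.2 ⟨g⁻¹ * x * g, hT ?_, ?_⟩
        · simpa using hE.conj_mem x hx g⁻¹
        · show g * (g⁻¹ * x * g) * g⁻¹ = x
          group
      haveI : Nontrivial E := Finite.one_lt_card_iff_nontrivial.1 (by rw [hE2]; norm_num)
      obtain ⟨⟨c, hcE⟩, hc1⟩ := exists_ne (1 : E)
      have hc1' : c ≠ 1 := fun e => hc1 (Subtype.ext e)
      have hcen : centralizer ({c} : Set X) = ⊤ := by
        rw [eq_top_iff]
        intro g _
        rw [mem_centralizer_singleton_iff]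
        have hgc : (⟨g * c * g⁻¹, hE.conj_mem c hcE g⟩ : E) = ⟨c, hcE⟩ := by
          by_contra hne
          haveI := Fintype.ofFinite E
          have h3 : ({(1 : E), ⟨c, hcE⟩, ⟨g * c * g⁻¹, hE.conj_mem c hcE g⟩} : Finset E).card = 3 :=
            Finset.card_eq_three.2 ⟨1, _, _, fun e => hc1 e.symm,
              fun e => hc1' (conj_eq_one_iff.1 (congrArg Subtype.val e).symm), fun e => hne e.symm, rfl⟩
          have := Finset.card_le_univ ({(1 : E), ⟨c, hcE⟩, ⟨g * c * g⁻¹, hE.conj_mem c hcE g⟩} : Finset E)
          rw [h3, ← Nat.card_eq_fintype_card, hE2] at this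
          omega
        exact mul_inv_eq_iff_eq_mul.1 (congrArg Subtype.val hgc)
      rw [← hC c (hEP hcE) hc1', hcen]
      infer_instance
    · haveI := hE
      refine hPn ?_
      have hEp : IsPGroup 2 E := IsPGroup.of_card (n := 2) (by rw [hE4]; norm_num)
      obtain ⟨T, hT⟩ := hEp.exists_le_sylow
      have hTE : (T : Subgroup X) = E := (eq_of_le_of_card_ge hT
        (by rw [hE4, T.card_eq_multiplicity, ← P.card_eq_multiplicity, h4])).symm
      obtain ⟨g, hg⟩ := MulAction.exists_smul_eq X T P
      have hPT : (P : Subgroup X) = E := by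
        rw [← hg]
        show (MulAut.conj g : MulAut X) • (T : Subgroup X) = E
        rw [hTE]
        exact Subgroup.Normal.conj_smul_eq_self g E
      rw [hPT]
      exact hE

omit [Finite X] in
theorem perm_four_index : Nat.card (Equiv.Perm (Fin 4)) = 24 := by
  rw [Nat.card_perm, Nat.card_eq_fintype_card, Fintype.card_fin]; rfl

/-- A group of order twelve with a non-normal subgroup of order three is `A₄`. -/
theorem nonempty_alt_four (h12 : Nat.card X = 12) {R : Subgroup X} (hR : Nat.card R = 3)
    (hn : ¬ R.Normal) : Nonempty (X ≃* ↥(alternatingGroup (Fin 4))) := by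
  classical
  haveI : Fact (Nat.Prime 3) := ⟨Nat.prime_three⟩
  have hidx : R.index = 4 := by
    have := R.card_mul_index
    rw [hR, h12] at this
    omega
  haveI := Fintype.ofFinite (X ⧸ R)
  have hf : Fintype.card (X ⧸ R) = 4 := by
    rw [← Nat.card_eq_fintype_card]; exact hidx
  let f : X →* Equiv.Perm (Fin 4) :=
    (Fintype.equivFinOfCardEq hf).permCongrHom.toMonoidHom.comp (MulAction.toPermHom X (X ⧸ R))
  have hker : f.ker = R.normalCore := by
    rw [normalCore_eq_ker]
    ext x
    simp [f, MonoidHom.mem_ker]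
  have hinj : Function.Injective f := by
    rw [← MonoidHom.ker_eq_bot_iff, hker]
    by_contra hne
    have h1 : Nat.card R.normalCore ∣ 3 := hR ▸ Subgroup.card_dvd_of_le R.normalCore_le
    rcases (Nat.dvd_prime Nat.prime_three).1 h1 with h | h
    · exact hne (Subgroup.eq_bot_of_card_eq _ h)
    · exact hn ((eq_of_le_of_card_ge R.normalCore_le (by rw [h, hR])) ▸ R.normalCore_normal)
  have hrange : f.range = alternatingGroup (Fin 4) := by
    refine Equiv.Perm.eq_alternatingGroup_of_index_eq_two ?_
    have h2 := f.range.card_mul_index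
    rw [← Nat.card_congr (MonoidHom.ofInjective hinj).toEquiv, h12, perm_four_index] at h2
    omega
  exact ⟨(MonoidHom.ofInjective hinj).trans (MulEquiv.subgroupCongr hrange)⟩

end Cfsg.Agent.H59.HJ
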