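import Cfsg.Agent.H59.HJ.Local
import Cfsg.Agent.H59.HJ.Klein

/-!
Groups of Hall-Janko type: the derived subgroup of the centraliser of the second involution.
-/

set_option autoImplicit false
set_option linter.style.haveILetI false

namespace Cfsg.Agent.H59.HJ

open Subgroup
open scoped commutatorElement

variable {G : Type*} [Group G] [Finite G] {z t : G} {E A : Subgroup G}

omit [Finite G] in
theorem perm_three_fixed : ∀ σ : Equiv.Perm (Fin 3), σ * σ * σ = 1 ∨ ∃ i, σ i = i := by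
  decide +kernel

theorem isConj_orderOf {a b : G} (h : IsConj a b) : orderOf a = orderOf b := by
  obtain ⟨g, hg⟩ := isConj_iff.1 h
  rw [← hg, orderOf_conj]

namespace Local

theorem le_T (h : Local z t E A) : E ≤ centralizer ({t} : Set G) := fun x hx =>
  mem_centralizer_singleton_iff.2 ((h.memE x).1 hx).2

theorem A_le (h : Local z t E A) : A ≤ E := fun x hx => ((h.memA x).1 hx).1

theorem commE (h : Local z t E A) {a b : G} (ha : a ∈ E) (hb : b ∈ E) : a * b = b * a := by
  have e1 := h.sqE _ (E.mul_mem ha hb)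
  rw [eq_inv_of_mul_eq_one_left e1, mul_inv_rev, inv_eq_of_mul_eq_one_right (h.sqE a ha),
    inv_eq_of_mul_eq_one_right (h.sqE b hb)]

theorem t_mem (h : Local z t E A) : t ∈ E := (h.memE t).2 ⟨h.tz, rfl⟩

theorem z_mem (h : Local z t E A) : z ∈ A := by
  refine (h.memA z).2 ⟨(h.memE z).2 ⟨mem_centralizer_singleton_iff.2 rfl, ?_⟩, Or.inr (IsConj.refl z)⟩
  exact (mem_centralizer_singleton_iff.1 h.tz).symm

theorem z_ne (h : Local z t E A) : z ≠ 1 := fun e => by have := h.hz; simp [e] at this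

theorem t_ne (h : Local z t E A) : t ≠ 1 := fun e => by have := h.ht; simp [e] at this

theorem t_notMem (h : Local z t E A) : t ∉ A := fun ht =>
  ((h.memA t).1 ht).2.elim h.t_ne h.nc

theorem conjA (h : Local z t E A) {a : G} (ha : a ∈ A) (ha1 : a ≠ 1) : IsConj a z :=
  ((h.memA a).1 ha).2.resolve_left ha1

theorem outside (h : Local z t E A) {x : G} (hx : x ∈ E) (hxA : x ∉ A) : IsConj x t := by
  have hx1 : x ≠ 1 := fun e => hxA (e ▸ A.one_mem)
  exact (h.cases x (orderOf_two (h.sqE x hx) hx1)).resolve_left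
    fun e => hxA ((h.memA x).2 ⟨hx, Or.inr e⟩)

/-- Conjugates of `z` in the centraliser of `t` are conjugate there. -/
theorem conj_to_z (h : Local z t E A) {y : G} (hy : y ∈ centralizer ({t} : Set G))
    (hyz : IsConj y z) : ∃ g ∈ centralizer ({t} : Set G), g * y * g⁻¹ = z := by
  obtain ⟨g₀, hg₀⟩ := isConj_iff.1 hyz
  have hC : g₀ * t * g₀⁻¹ ∈ centralizer ({z} : Set G) := by
    rw [mem_centralizer_singleton_iff, ← hg₀, conj_mul, conj_mul,
      (mem_centralizer_singleton_iff.1 hy).symm]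
  obtain ⟨c, hc, hct⟩ := h.fuse _ hC (isConj_iff.2 ⟨g₀, rfl⟩).symm
  refine ⟨c * g₀, ?_, ?_⟩
  · rw [mem_centralizer_singleton_iff, ← mul_inv_eq_iff_eq_mul, mul_inv_rev]
    rw [show c * g₀ * t * (g₀⁻¹ * c⁻¹) = c * (g₀ * t * g₀⁻¹) * c⁻¹ by group, hct]
  · rw [mul_inv_rev, show c * g₀ * y * (g₀⁻¹ * c⁻¹) = c * (g₀ * y * g₀⁻¹) * c⁻¹ by group, hg₀,
      mem_centralizer_singleton_iff.1 hc, mul_inv_cancel_right]

theorem inf_centralizer (h : Local z t E A) {a : G} (ha : a ∈ A) (ha1 : a ≠ 1) :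
    centralizer ({t} : Set G) ⊓ centralizer ({a} : Set G) = E := by
  obtain ⟨g, hg, hga⟩ := h.conj_to_z (h.le_T (h.A_le ha)) (h.conjA ha ha1)
  have hle : E ≤ centralizer ({t} : Set G) ⊓ centralizer ({a} : Set G) := fun x hx =>
    ⟨h.le_T hx, mem_centralizer_singleton_iff.2 (h.commE hx (h.A_le ha))⟩
  refine (eq_of_le_of_card_ge hle ?_).symm
  refine Nat.card_le_card_of_injective (fun x => (⟨g * x.1 * g⁻¹, (h.memE _).2 ⟨?_, ?_⟩⟩ : E))
    fun x y e => Subtype.ext ?_
  · rw [mem_centralizer_singleton_iff, ← hga, conj_mul, conj_mul,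
      mem_centralizer_singleton_iff.1 x.2.2]
  · exact mem_centralizer_singleton_iff.1
      ((centralizer ({t} : Set G)).mul_mem ((centralizer ({t} : Set G)).mul_mem hg x.2.1)
        ((centralizer ({t} : Set G)).inv_mem hg))
  · exact mul_left_cancel (mul_right_cancel (congrArg Subtype.val e))

/-- An element normalising `E` in the centraliser of `t` normalises `A`. -/
theorem conj_mem_A (h : Local z t E A) {u : G} (hu : ∀ x ∈ E, u * x * u⁻¹ ∈ E) {a : G} (ha : a ∈ A) :
    u * a * u⁻¹ ∈ A := by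
  refine (h.memA _).2 ⟨hu a (h.A_le ha), ((h.memA a).1 ha).2.imp (fun e => by rw [e]; simp) fun e => ?_⟩
  exact (isConj_iff.2 ⟨u, rfl⟩).symm.trans e

/-- An element acting on `A` has trivial cube or fixes an involution. -/
theorem cube_or_fixed (h : Local z t E A) {u : G} (hu : ∀ a ∈ A, u * a * u⁻¹ ∈ A) :
    (∀ a ∈ A, u ^ 3 * a * (u ^ 3)⁻¹ = a) ∨ ∃ a ∈ A, a ≠ 1 ∧ u * a * u⁻¹ = a := by
  classical
  haveI := Fintype.ofFinite A
  let T := {a : A // a ≠ 1}
  let f : T → T := fun a => ⟨⟨u * a.1.1 * u⁻¹, hu _ a.1.2⟩, fun e => a.2 (Subtype.ext (by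
    simpa using congrArg Subtype.val e))⟩
  have hf : Function.Injective f := fun a b e => by
    have := congrArg (fun x : T => x.1.1) e
    exact Subtype.ext (Subtype.ext (mul_left_cancel (mul_right_cancel this)))
  have hT : Fintype.card T = 3 := by
    rw [Fintype.card_subtype_compl, Fintype.card_subtype_eq, ← Nat.card_eq_fintype_card, h.cardA]
  let σ : Equiv.Perm T := Equiv.ofBijective f (Finite.injective_iff_bijective.1 hf)
  let e := Fintype.equivFinOfCardEq hT
  rcases perm_three_fixed (e.permCongr σ) with h3 | ⟨i, hi⟩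
  · left
    intro a ha
    by_cases ha1 : a = 1
    · simp [ha1]
    have := congrArg (fun τ : Equiv.Perm (Fin 3) => τ (e ⟨⟨a, ha⟩, fun e' => ha1 (congrArg Subtype.val e')⟩)) h3
    simp [Equiv.permCongr_apply] at this
    have h' := congrArg (fun x : T => x.1.1) this
    simp [σ, f] at h'
    rw [pow_succ, pow_succ, pow_one]
    simpa [mul_assoc] using h'
  · refine Or.inr ⟨(e.symm i).1.1, (e.symm i).1.2, fun e' => (e.symm i).2 (Subtype.ext e'), ?_⟩
    have := e.injective (hi.trans (e.apply_symm_apply i).symm)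
    exact congrArg (fun x : T => x.1.1) this

theorem two_element_fixed (h : Local z t E A) {u : G} (hu : ∀ a ∈ A, u * a * u⁻¹ ∈ A) {k : ℕ}
    (hk : u ^ 2 ^ k = 1) : ∃ a ∈ A, a ≠ 1 ∧ u * a * u⁻¹ = a := by
  rcases h.cube_or_fixed hu with h3 | h3
  · refine ⟨z, h.z_mem, h.z_ne, mul_inv_eq_iff_eq_mul.2 ?_⟩
    have h2 : zpowers (u ^ 3) ≤ centralizer ({z} : Set G) :=
      zpowers_le.2 (mem_centralizer_singleton_iff.2 (mul_inv_eq_iff_eq_mul.1 (h3 z h.z_mem)))
    have hcop : Nat.Coprime 3 (orderOf u) := by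
      obtain ⟨j, -, hj⟩ := (Nat.dvd_prime_pow Nat.prime_two).1 (orderOf_dvd_of_pow_eq_one hk)
      rw [hj]; exact Nat.Coprime.pow_right j (by norm_num)
    obtain ⟨m, hm⟩ := exists_pow_eq_self_of_coprime hcop
    exact mem_centralizer_singleton_iff.1 (h2 ⟨(m : ℤ), by simpa using hm⟩)
  · exact h3

theorem fixed_mem (h : Local z t E A) {u : G} (hu : u ∈ centralizer ({t} : Set G)) {a : G}
    (ha : a ∈ A) (ha1 : a ≠ 1) (hua : u * a * u⁻¹ = a) : u ∈ E :=
  (h.inf_centralizer ha ha1).le ⟨hu, mem_centralizer_singleton_iff.2 (mul_inv_eq_iff_eq_mul.1 hua)⟩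

theorem exists_sylow (h : Local z t E A) : ∃ S : Sylow 2 (centralizer ({t} : Set G)),
    (S : Subgroup (centralizer ({t} : Set G))) = E.subgroupOf (centralizer ({t} : Set G)) := by
  refine sylow_of_normalizer (IsPGroup.of_card (n := 4) ?_) fun u hu hk => ?_
  · rw [Nat.card_congr (subgroupOfEquivOfLe h.le_T).toEquiv, h.cardE]; norm_num
  · obtain ⟨k, hk⟩ := hk
    have hE : ∀ x ∈ E, (u : G) * x * (u : G)⁻¹ ∈ E := fun x hx => by
      simpa [mem_subgroupOf] using
        (mem_normalizer_iff.1 hu ⟨x, h.le_T hx⟩).1 (mem_subgroupOf.2 hx)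
    obtain ⟨a, ha, ha1, hua⟩ := h.two_element_fixed (fun a ha => h.conj_mem_A hE ha)
      (k := k) (by simpa using congrArg Subtype.val hk)
    exact mem_subgroupOf.2 (h.fixed_mem u.2 ha ha1 hua)

theorem conj_normalizer (h : Local z t E A) {g x : G} (hg : g ∈ centralizer ({t} : Set G))
    (hx : x ∈ E) (hgx : g * x * g⁻¹ ∈ E) :
    ∃ n ∈ centralizer ({t} : Set G), (∀ y ∈ E, n * y * n⁻¹ ∈ E) ∧ n * x * n⁻¹ = g * x * g⁻¹ := by
  haveI : Fact (Nat.Prime 2) := ⟨Nat.prime_two⟩
  obtain ⟨S, hS⟩ := h.exists_sylow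
  haveI : IsMulCommutative (S : Subgroup (centralizer ({t} : Set G))) := by
    refine ⟨⟨fun a b => Subtype.ext (Subtype.ext ?_)⟩⟩
    exact h.commE (mem_subgroupOf.1 (hS.le a.2)) (mem_subgroupOf.1 (hS.le b.2))
  obtain ⟨n, hn, hne⟩ := S.conj_eq_normalizer_conj_of_mem ⟨x, h.le_T hx⟩ ⟨g, hg⟩⁻¹
    (hS.ge (mem_subgroupOf.2 hx))
    (hS.ge (mem_subgroupOf.2 (by simpa using hgx)))
  refine ⟨(n : G)⁻¹, (centralizer ({t} : Set G)).inv_mem n.2, fun y hy => ?_, ?_⟩
  · have := (mem_normalizer_iff.1 (Subgroup.inv_mem _ hn) ⟨y, h.le_T hy⟩).1 (hS.ge (mem_subgroupOf.2 hy))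
    simpa [hS, mem_subgroupOf] using this
  · have := congrArg Subtype.val hne
    simpa using this.symm

theorem commutator_mem_A (h : Local z t E A) {n x : G} (hn : n ∈ centralizer ({t} : Set G))
    (hnE : ∀ y ∈ E, n * y * n⁻¹ ∈ E) (hx : x ∈ E) : n * x * n⁻¹ * x⁻¹ ∈ A := by
  classical
  have hnA : ∀ a ∈ A, n * a * n⁻¹ ∈ A := fun a ha => h.conj_mem_A hnE ha
  have hnt : n * t * n⁻¹ = t :=
    mul_inv_eq_iff_eq_mul.2 (mem_centralizer_singleton_iff.1 hn)
  rcases h.cube_or_fixed hnA with h3 | ⟨a, ha, ha1, hna⟩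
  · -- the cube lies in `E`
    have h3E : n ^ 3 ∈ E :=
      h.fixed_mem ((centralizer ({t} : Set G)).pow_mem hn 3) h.z_mem h.z_ne (h3 z h.z_mem)
    have h3x : n ^ 3 * x * (n ^ 3)⁻¹ = x := by
      rw [h.commE h3E hx, mul_inv_cancel_right]
    by_contra hcon
    have htE := h.t_mem
    have htt : t * t = 1 := h.sqE t htE
    have hAE := h.A_le
    -- the subgroup generated by `A` and `t`
    let A2 : Subgroup G :=
      { carrier := {e | e ∈ E ∧ (e ∈ A ∨ e * t ∈ A)}
        one_mem' := ⟨E.one_mem, Or.inl A.one_mem⟩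
        mul_mem' := fun {a b} ha hb => ⟨E.mul_mem ha.1 hb.1, by
          have c : b * t = t * b := h.commE hb.1 htE
          have hc : a * t * b = a * b * t := by rw [mul_assoc, ← c, ← mul_assoc]
          rcases ha.2 with ha' | ha' <;> rcases hb.2 with hb' | hb'
          · exact Or.inl (A.mul_mem ha' hb')
          · exact Or.inr (by simpa [mul_assoc] using A.mul_mem ha' hb')
          · exact Or.inr (hc ▸ A.mul_mem ha' hb')
          · refine Or.inl ?_
            have := A.mul_mem ha' hb'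
            rwa [← mul_assoc, hc, mul_assoc, htt, mul_one] at this⟩
        inv_mem' := fun {a} ha => by
          rw [inv_eq_of_mul_eq_one_right (h.sqE a ha.1)]; exact ha }
    have hA2E : A2 ≤ E := fun e he => he.1
    have hAA2 : A ≤ A2 := fun e he => ⟨hAE he, Or.inl he⟩
    have htA2 : t ∈ A2 := ⟨htE, Or.inr (by rw [htt]; exact A.one_mem)⟩
    have hxA2 : x ∉ A2 := by
      rintro ⟨-, hxA | hxA⟩
      · exact hcon (A.mul_mem (hnA x hxA) (A.inv_mem hxA))
      · refine hcon ?_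
        have e : n * (x * t) * n⁻¹ = n * x * n⁻¹ * t := by rw [← conj_mul, hnt]
        have e2 := A.mul_mem (hnA _ hxA) (A.inv_mem hxA)
        rw [e, mul_inv_rev, show n * x * n⁻¹ * t * (t⁻¹ * x⁻¹) = n * x * n⁻¹ * x⁻¹ by group] at e2
        exact e2
    have hA2n : ∀ e ∈ A2, n * e * n⁻¹ ∈ A2 := fun e he => ⟨hnE e he.1, he.2.imp (hnA e) fun he' => by
      have := hnA _ he'
      rwa [← conj_mul, hnt] at this⟩
    have hnxA2 : n * x * n⁻¹ ∉ A2 := fun hh => hxA2 (by
      have := hA2n _ (hA2n _ hh)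
      rwa [show n * (n * (n * x * n⁻¹) * n⁻¹) * n⁻¹ = n ^ 3 * x * (n ^ 3)⁻¹ by
        simp only [pow_succ, pow_zero, one_mul, mul_inv_rev, mul_assoc], h3x] at this)
    have hidx : (A2.subgroupOf E).index = 2 := by
      have h1 := (A2.subgroupOf E).card_mul_index
      rw [Nat.card_congr (subgroupOfEquivOfLe hA2E).toEquiv, h.cardE] at h1
      have hlt : Nat.card A < Nat.card A2 := lt_of_le_of_ne (card_le_of_le hAA2) fun e =>
        h.t_notMem ((eq_of_le_of_card_ge hAA2 e.ge).symm.le htA2)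
      have hlt2 : Nat.card A2 < 16 := by
        rw [← h.cardE]
        exact lt_of_le_of_ne (card_le_of_le hA2E) fun e =>
          hxA2 ((eq_of_le_of_card_ge hA2E e.ge).symm.le hx)
      rw [h.cardA] at hlt
      have hdv := card_dvd_of_le hA2E
      rw [h.cardE] at hdv
      obtain ⟨j, hj, hje⟩ := (Nat.dvd_prime_pow Nat.prime_two).1 (show Nat.card A2 ∣ 2 ^ 4 from hdv)
      rw [hje] at hlt hlt2 h1
      interval_cases j <;> omega
    have key : n * x * n⁻¹ * x⁻¹ ∈ A2 := by
      have := (mul_mem_iff_of_index_two hidx (a := (⟨n * x * n⁻¹, hnE x hx⟩ : E))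
        (b := (⟨x, hx⟩ : E)⁻¹)).2 (by simp [mem_subgroupOf, hnxA2, hxA2])
      simpa [mem_subgroupOf] using this
    obtain ⟨-, hkey | hkey⟩ := key
    · exact hcon hkey
    set a := n * x * n⁻¹ * x⁻¹ * t with ha
    have haE : a ∈ E := hAE hkey
    have e1 : n * x * n⁻¹ = a * t * x := by
      rw [ha, mul_assoc _ t t, htt, mul_one]; group
    have e2 : n * (n * x * n⁻¹) * n⁻¹ = n * a * n⁻¹ * a * x := by
      rw [e1, ← conj_mul, ← conj_mul, hnt, e1, ← mul_assoc, ← mul_assoc,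
        mul_assoc (n * a * n⁻¹) t a, h.commE htE haE, ← mul_assoc, mul_assoc (n * a * n⁻¹ * a) t t,
        htt, mul_one]
    have e3 : n * (n * (n * x * n⁻¹) * n⁻¹) * n⁻¹ = x := by
      rw [show n * (n * (n * x * n⁻¹) * n⁻¹) * n⁻¹ = n ^ 3 * x * (n ^ 3)⁻¹ by
        simp only [pow_succ, pow_zero, one_mul, mul_inv_rev, mul_assoc], h3x]
    rw [e2, ← conj_mul, ← conj_mul, e1, ← mul_assoc, ← mul_assoc] at e3
    have hb : n * (n * a * n⁻¹) * n⁻¹ * (n * a * n⁻¹) * a ∈ A :=
      A.mul_mem (A.mul_mem (hnA _ (hnA _ hkey)) (hnA _ hkey)) hkey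
    exact h.t_notMem (by
      rw [eq_inv_of_mul_eq_one_right (mul_eq_right.1 e3)]; exact A.inv_mem hb)
  · have := h.fixed_mem hn ha ha1 hna
    rw [h.commE this hx, mul_inv_cancel_right, mul_inv_cancel]
    exact A.one_mem

/-- The derived subgroup of the centraliser meets `E` in `A`. -/
theorem derived_inf (h : Local z t E A) :
    (_root_.commutator (centralizer ({t} : Set G))).map (centralizer ({t} : Set G)).subtype ⊓ E = A := by
  haveI : Fact (Nat.Prime 2) := ⟨Nat.prime_two⟩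
  obtain ⟨S, hS⟩ := h.exists_sylow
  have hfocal : (S : Subgroup (centralizer ({t} : Set G))).focalSubgroup ≤ A.subgroupOf (centralizer ({t} : Set G)) := by
    rw [focalSubgroup_def, closure_le]
    rintro c ⟨hcS, x, hx, u, rfl⟩
    rw [SetLike.mem_coe, mem_subgroupOf]
    have hxE : (x : G) ∈ E := mem_subgroupOf.1 (hS.le hx)
    have hcE : ((⁅x, u⁆ : (centralizer ({t} : Set G))) : G) ∈ E := mem_subgroupOf.1 (hS.le hcS)
    have e : ((⁅x, u⁆ : (centralizer ({t} : Set G))) : G) = (x : G) * ((u : G) * (x : G)⁻¹ * (u : G)⁻¹) := by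
      simp [commutatorElement_def, mul_assoc]
    rw [e] at hcE ⊢
    have hyE : (u : G) * (x : G)⁻¹ * (u : G)⁻¹ ∈ E := by
      have := E.mul_mem (E.inv_mem hxE) hcE
      simpa [mul_assoc] using this
    obtain ⟨n, hn, hnE, hne⟩ := h.conj_normalizer u.2 (E.inv_mem hxE) hyE
    rw [← hne]
    have := h.commutator_mem_A hn hnE (E.inv_mem hxE)
    rwa [inv_inv, h.commE (hnE _ (E.inv_mem hxE)) hxE] at this
  refine le_antisymm ?_ ?_
  · rintro g ⟨⟨c, hc, rfl⟩, hcE⟩
    have h1 : c ∈ _root_.commutator (centralizer ({t} : Set G)) ⊓ (S : Subgroup (centralizer ({t} : Set G))) := ⟨hc, hS.ge (mem_subgroupOf.2 hcE)⟩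
    rw [commutator_inf_eq_focalSubgroup] at h1
    exact mem_subgroupOf.1 (hfocal h1)
  · refine le_inf ?_ h.A_le
    -- the products of `z` with its conjugates
    have hcl : ∀ a ∈ A, a ≠ 1 → a * z ∈ (_root_.commutator (centralizer ({t} : Set G))).map (centralizer ({t} : Set G)).subtype := by
      intro a ha ha1
      obtain ⟨g, hg, hga⟩ := h.conj_to_z (h.le_T (h.A_le ha)) (h.conjA ha ha1)
      refine ⟨⁅(⟨a, h.le_T (h.A_le ha)⟩ : (centralizer ({t} : Set G))), ⟨g, hg⟩⁆,
        commutator_mem_commutator (mem_top _) (mem_top _), ?_⟩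
      have hai : a⁻¹ = a := inv_eq_of_mul_eq_one_right (h.sqE a (h.A_le ha))
      show ((⁅(⟨a, h.le_T (h.A_le ha)⟩ : (centralizer ({t} : Set G))), ⟨g, hg⟩⁆ : (centralizer ({t} : Set G))) : G) = a * z
      simp only [commutatorElement_def, Subgroup.coe_mul, InvMemClass.coe_inv]
      rw [hai, ← hga]; group
    have hzK : z ∈ (_root_.commutator (centralizer ({t} : Set G))).map (centralizer ({t} : Set G)).subtype := by
      obtain ⟨a, ha, ha1, haz⟩ : ∃ a ∈ A, a ≠ 1 ∧ a ≠ z := by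
        by_contra hcon
        push Not at hcon
        have hsub : (A : Set G) ⊆ {1, z} := fun b hb => by
          by_cases hb1 : b = 1
          · exact Or.inl hb1
          · exact Or.inr (hcon b hb hb1)
        have := Set.ncard_le_ncard hsub
        rw [← Nat.card_coe_set_eq, SetLike.coe_sort_coe, h.cardA, Set.ncard_pair h.z_ne.symm] at this
        omega
      have hzE := h.A_le h.z_mem
      have haz1 : a * z ≠ 1 := fun e => haz (by
        rw [eq_inv_of_mul_eq_one_left e, inv_eq_of_mul_eq_one_right (h.sqE z hzE)])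
      have h1 := hcl a ha ha1
      have h2 := hcl _ (A.mul_mem ha h.z_mem) haz1
      rw [mul_assoc, h.sqE z hzE, mul_one] at h2
      have := Subgroup.mul_mem _ h2 h1
      rwa [← mul_assoc, h.sqE a (h.A_le ha), one_mul] at this
    intro a ha
    by_cases ha1 : a = 1
    · rw [ha1]; exact one_mem _
    · have := Subgroup.mul_mem _ (hcl a ha ha1) (Subgroup.inv_mem _ hzK)
      simpa using this

end Local

end Cfsg.Agent.H59.HJ
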