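import Cfsg.Agent.H59.HJ.Model

/-!
Products of five pairwise anticommuting involutions: the normal form map from the model.
-/

set_option autoImplicit false

namespace Cfsg.Agent.H59.HJ

variable {G : Type*} [Group G]

/-- The data of four involutions whose pairwise commutators are one central involution. -/
structure Quad (u : Fin 4 → G) (z : G) : Prop where
  sq : ∀ i, u i * u i = 1
  zsq : z * z = 1
  zc : ∀ i, z * u i = u i * z
  rel : ∀ i j, i ≠ j → u j * u i = u i * (u j * z)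

/-- The normal form. -/
def nf (u : Fin 4 → G) (z : G) (x : Q0) : G :=
  u 0 ^ bit x 0 * (u 1 ^ bit x 1 * (u 2 ^ bit x 2 * (u 3 ^ bit x 3 * z ^ bit x 4)))

variable {u : Fin 4 → G} {z : G}

theorem nf_mul_gen (h : Quad u z) (x : Q0) :
    nf u z x * u 0 = nf u z (mulQ x (gen 0)) ∧ nf u z x * u 1 = nf u z (mulQ x (gen 1)) ∧
    nf u z x * u 2 = nf u z (mulQ x (gen 2)) ∧ nf u z x * u 3 = nf u z (mulQ x (gen 3)) ∧
    nf u z x * z = nf u z (mulQ x zQ) := by
  obtain ⟨e0, e1, e2, e3, e4⟩ := gen_bits x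
  rw [e0, e1, e2, e3, e4]
  obtain ⟨l0, l1, l2, l3, l4⟩ := bit_lt x
  have sqc : ∀ i w, u i * (u i * w) = w := fun i w => by rw [← mul_assoc, h.sq, one_mul]
  have zzc : ∀ w, z * (z * w) = w := fun w => by rw [← mul_assoc, h.zsq, one_mul]
  have zcc : ∀ i w, z * (u i * w) = u i * (z * w) := fun i w => by
    rw [← mul_assoc, h.zc, mul_assoc]
  have r10 := h.rel 0 1 (by decide)
  have r20 := h.rel 0 2 (by decide)
  have r30 := h.rel 0 3 (by decide)
  have r21 := h.rel 1 2 (by decide)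
  have r31 := h.rel 1 3 (by decide)
  have r32 := h.rel 2 3 (by decide)
  have s10 : ∀ w, u 1 * (u 0 * w) = u 0 * (u 1 * (z * w)) := fun w => by
    rw [← mul_assoc, r10, mul_assoc, mul_assoc]
  have s20 : ∀ w, u 2 * (u 0 * w) = u 0 * (u 2 * (z * w)) := fun w => by
    rw [← mul_assoc, r20, mul_assoc, mul_assoc]
  have s30 : ∀ w, u 3 * (u 0 * w) = u 0 * (u 3 * (z * w)) := fun w => by
    rw [← mul_assoc, r30, mul_assoc, mul_assoc]
  have s21 : ∀ w, u 2 * (u 1 * w) = u 1 * (u 2 * (z * w)) := fun w => by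
    rw [← mul_assoc, r21, mul_assoc, mul_assoc]
  have s31 : ∀ w, u 3 * (u 1 * w) = u 1 * (u 3 * (z * w)) := fun w => by
    rw [← mul_assoc, r31, mul_assoc, mul_assoc]
  have s32 : ∀ w, u 3 * (u 2 * w) = u 2 * (u 3 * (z * w)) := fun w => by
    rw [← mul_assoc, r32, mul_assoc, mul_assoc]
  generalize ha : bit x 0 = a at *
  generalize hb : bit x 1 = b at *
  generalize hc : bit x 2 = c at *
  generalize hd : bit x 3 = d at *
  generalize he : bit x 4 = e at *
  simp only [nf, ha, hb, hc, hd, he]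
  interval_cases a <;> interval_cases b <;> interval_cases c <;> interval_cases d <;>
    interval_cases e <;>
    simp [bit, mul_assoc, h.sq, h.zsq, h.zc, sqc, zzc, zcc, r10, r20, r30, r21, r31, r32, s10, s20,
      s30, s21, s31, s32]

theorem nf_mul (h : Quad u z) (x y : Q0) : nf u z (mulQ x y) = nf u z x * nf u z y := by
  have step : ∀ (k : ℕ) (w : G) (g : Q0), k < 2 → (∀ a, nf u z a * w = nf u z (mulQ a g)) →
      ∀ a, nf u z (stepQ k g a) = nf u z a * w ^ k := by
    intro k w g hk hw a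
    interval_cases k <;> simp [stepQ, hw]
  obtain ⟨l0, l1, l2, l3, l4⟩ := bit_lt y
  rw [← step_all x y, step _ _ _ l4 (fun a => (nf_mul_gen h a).2.2.2.2),
    step _ _ _ l3 (fun a => (nf_mul_gen h a).2.2.2.1),
    step _ _ _ l2 (fun a => (nf_mul_gen h a).2.2.1), step _ _ _ l1 (fun a => (nf_mul_gen h a).2.1),
    step _ _ _ l0 (fun a => (nf_mul_gen h a).1)]
  simp [nf, mul_assoc]

theorem nf_one : nf u z 0 = 1 := by simp [nf, bit]

theorem nf_zQ : nf u z zQ = z := by simp [nf, bit, zQ]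

theorem nf_gen_zero : nf u z (gen 0) = u 0 := by simp [nf, bit, gen]

theorem nf_gen_one : nf u z (gen 1) = u 1 := by simp [nf, bit, gen]

theorem nf_gen_two : nf u z (gen 2) = u 2 := by simp [nf, bit, gen]

theorem nf_gen_three : nf u z (gen 3) = u 3 := by simp [nf, bit, gen]

theorem nf_gen_four : nf u z (gen 4) = u 0 * (u 1 * (u 2 * u 3)) := by simp [nf, bit, gen]

end Cfsg.Agent.H59.HJ
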