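import Cfsg.Prelude
import Cfsg.Agent.H24.Extraspecial
import Cfsg.Agent.H24.PGroupBasic
import Cfsg.Agent.H59.HJ.NormalForm

/-!
An extraspecial group of order 32 containing its centraliser, with quotient `A₅`: five pairwise
anticommuting involutions and the normal form.
-/

set_option autoImplicit false
set_option linter.style.haveILetI false

namespace Cfsg.Agent.H59.HJ

open Subgroup
open scoped commutatorElement

variable {H : Type*} [Group H] [Finite H]

/-- Data inside the centraliser. -/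
structure Inner (Q : Subgroup H) (z : H) : Prop where
  norm : Q.Normal
  cent : centralizer (Q : Set H) ≤ Q
  hQ : Cfsg.IsExtraspecial 2 Q
  hcard : Nat.card Q = 32
  zc : ∀ x : H, x * z = z * x
  z1 : z ≠ 1
  zz : z * z = 1

variable {Q : Subgroup H} {z : H}

theorem Inner.zmem (h : Inner Q z) : z ∈ Q := h.cent (mem_centralizer_iff.2 fun x _ => h.zc x)

theorem Inner.center (h : Inner Q z) {x : H} (hx : x ∈ Q) (hc : ∀ y ∈ Q, x * y = y * x) :
    x = 1 ∨ x = z := by
  classical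
  have hzm : (⟨z, h.zmem⟩ : Q) ∈ Subgroup.center Q := mem_center_iff.2 fun y => Subtype.ext (h.zc y)
  have hxm : (⟨x, hx⟩ : Q) ∈ Subgroup.center Q :=
    mem_center_iff.2 fun y => Subtype.ext (hc y y.2).symm
  by_contra hcon
  push Not at hcon
  have h3 : ({(1 : Subgroup.center Q), ⟨_, hzm⟩, ⟨_, hxm⟩} : Finset (Subgroup.center Q)).card = 3 :=
    Finset.card_eq_three.2 ⟨1, ⟨_, hzm⟩, ⟨_, hxm⟩, fun e => h.z1 (by
      simpa using (congrArg (fun a : Subgroup.center Q => ((a : Q) : H)) e).symm),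
      fun e => hcon.1 (by simpa using (congrArg (fun a : Subgroup.center Q => ((a : Q) : H)) e).symm),
      fun e => hcon.2 (by simpa using (congrArg (fun a : Subgroup.center Q => ((a : Q) : H)) e).symm),
      rfl⟩
  haveI := Fintype.ofFinite (Subgroup.center Q)
  have h4 := Finset.card_le_univ
    ({(1 : Subgroup.center Q), ⟨_, hzm⟩, ⟨_, hxm⟩} : Finset (Subgroup.center Q))
  rw [h3, ← Nat.card_eq_fintype_card, h.hQ.2] at h4
  omega

theorem Inner.comm (h : Inner Q z) {x : H} (hx : x ∈ Q) {y : H} (hy : y ∈ Q) :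
    y * x = x * y ∨ y * x = x * (y * z) := by
  have hm := H24.espec_comm_mem h.hQ ⟨y, hy⟩ ⟨x, hx⟩
  have : ⁅y, x⁆ = 1 ∨ ⁅y, x⁆ = z := by
    refine h.center ?_ fun w hw => ?_
    · exact (⁅(⟨y, hy⟩ : Q), (⟨x, hx⟩ : Q)⁆).2
    · exact (congrArg Subtype.val (mem_center_iff.1 hm ⟨w, hw⟩)).symm
  rcases this with e | e
  · exact Or.inl (commutatorElement_eq_one_iff_mul_comm.1 e)
  · refine Or.inr ?_
    rw [← mul_assoc, h.zc, ← e, commutatorElement_def]
    group

/-- An element of order five fixes only the centre. -/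
theorem Inner.fix_five (h : Inner Q z) {g : H} (hg : orderOf g = 5) {x : H} (hx : x ∈ Q)
    (hgx : g * x * g⁻¹ = x) : x = 1 ∨ x = z := by
  classical
  haveI := h.norm
  haveI : Fact (Nat.Prime 5) := ⟨by norm_num⟩
  have hgQ : g ∉ Q := fun hgQ => by
    have h5 := orderOf_dvd_natCard (⟨g, hgQ⟩ : Q)
    rw [Subgroup.orderOf_mk, hg, h.hcard] at h5
    norm_num at h5
  set X := Q ⊓ centralizer ({g} : Set H) with hX
  have hXx : x ∈ X := ⟨hx, mem_centralizer_singleton_iff.2 (mul_inv_eq_iff_eq_mul.1 hgx).symm⟩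
  by_contra hcon
  have hP : IsPGroup 5 (zpowers g) :=
    IsPGroup.of_card (n := 1) (by rw [Nat.card_zpowers, hg, pow_one])
  letI : MulAction (zpowers g) Q :=
    MulAction.compHom Q ((MulAut.conjNormal (H := Q)).comp (zpowers g).subtype)
  have hmod := hP.card_modEq_card_fixedPoints (α := Q)
  have hfp : ∀ y : Q, y ∈ MulAction.fixedPoints (zpowers g) Q ↔ (y : H) ∈ X := by
    intro y
    constructor
    · intro hy
      have := congrArg Subtype.val (hy ⟨g, mem_zpowers g⟩)
      change ((MulAut.conjNormal g y : Q) : H) = y at this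
      rw [MulAut.conjNormal_apply] at this
      exact ⟨y.2, mem_centralizer_singleton_iff.2 (mul_inv_eq_iff_eq_mul.1 this).symm⟩
    · intro hy a
      apply Subtype.ext
      show ((MulAut.conjNormal (a : H) y : Q) : H) = y
      rw [MulAut.conjNormal_apply, mul_inv_eq_iff_eq_mul]
      have h1 : zpowers g ≤ centralizer ({(y : H)} : Set H) := zpowers_le.2
        (mem_centralizer_singleton_iff.2 (mem_centralizer_singleton_iff.1 hy.2).symm)
      exact mem_centralizer_singleton_iff.1 (h1 a.2)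
  have hcX : Nat.card (MulAction.fixedPoints (zpowers g) Q) = Nat.card X :=
    Nat.card_congr { toFun := fun y => ⟨y.1.1, (hfp _).1 y.2⟩
                     invFun := fun y => ⟨⟨y.1, y.2.1⟩, (hfp _).2 y.2⟩
                     left_inv := fun y => rfl
                     right_inv := fun y => rfl }
  rw [hcX, h.hcard] at hmod
  obtain ⟨d, hd, hXd⟩ := (Nat.dvd_prime_pow Nat.prime_two).1
    (show Nat.card X ∣ 2 ^ 5 from (Subgroup.card_dvd_of_le (inf_le_left : X ≤ Q)).trans
      (by rw [h.hcard]; norm_num))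
  have h3 : 3 ≤ Nat.card X := by
    have hz' : z ∈ X := ⟨h.zmem, mem_centralizer_singleton_iff.2 (h.zc g).symm⟩
    haveI := Fintype.ofFinite X
    have h3 : ({(1 : X), ⟨z, hz'⟩, ⟨x, hXx⟩} : Finset X).card = 3 :=
      Finset.card_eq_three.2 ⟨1, ⟨z, hz'⟩, ⟨x, hXx⟩, fun e => h.z1 (congrArg Subtype.val e).symm,
        fun e => hcon (Or.inl (congrArg Subtype.val e).symm),
        fun e => hcon (Or.inr (congrArg Subtype.val e).symm), rfl⟩
    rw [← h3, Nat.card_eq_fintype_card]
    exact Finset.card_le_univ _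
  rw [hXd] at hmod h3
  have htop : X = Q := by
    refine eq_of_le_of_card_ge inf_le_left ?_
    rw [hXd, h.hcard]
    interval_cases d <;> simp_all [Nat.ModEq]
  exact hgQ (h.cent (mem_centralizer_iff.2 fun y hy =>
    (mem_centralizer_singleton_iff.1 (htop.symm ▸ hy : y ∈ X).2)))

/-- Powers of an element of order five fix only the central cosets. -/
theorem Inner.fix_pow (h : Inner Q z) {g : H} (hg : orderOf g = 5) {k : ℕ} (hk : ¬ 5 ∣ k) {x : H}
    (hx : x ∈ Q) (hh : g ^ k * x * (g ^ k)⁻¹ = x ∨ g ^ k * x * (g ^ k)⁻¹ = x * z) :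
    x = 1 ∨ x = z := by
  refine h.fix_five hg hx ?_
  have h2 : g ^ (2 * k) ∈ centralizer ({x} : Set H) := by
    refine mem_centralizer_singleton_iff.2 (mul_inv_eq_iff_eq_mul.1 ?_)
    rw [two_mul, pow_add, mul_inv_rev, show g ^ k * g ^ k * x * ((g ^ k)⁻¹ * (g ^ k)⁻¹) =
      g ^ k * (g ^ k * x * (g ^ k)⁻¹) * (g ^ k)⁻¹ by group]
    rcases hh with hh | hh
    · rw [hh, hh]
    · rw [hh, ← mul_assoc (g ^ k), mul_assoc (g ^ k * x), ← h.zc (g ^ k)⁻¹, ← mul_assoc, hh,
        mul_assoc, h.zz, mul_one]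
  have h5 : g ∈ centralizer ({x} : Set H) := by
    have hcop : Nat.Coprime (orderOf g) (2 * k) := by
      rw [hg, Nat.Prime.coprime_iff_not_dvd (by norm_num)]
      omega
    have : g ∈ zpowers (g ^ (2 * k)) := by
      obtain ⟨m, hm⟩ := exists_pow_eq_self_of_coprime hcop.symm
      exact ⟨(m : ℤ), by simpa using hm⟩
    exact zpowers_le.2 h2 this
  exact mul_inv_eq_iff_eq_mul.2 (mem_centralizer_singleton_iff.1 h5)

/-- The square of the product of four cyclically related involutions. -/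
theorem sq_product {v : Fin 4 → H} (hv2 : ∀ i, v i * v i = 1) (hzz : z * z = 1)
    (hzv : ∀ i, z * v i = v i * z) {a b : ℕ}
    (ha : a < 2) (hb : b < 2) (r10 : v 1 * v 0 = v 0 * (v 1 * z ^ a))
    (r21 : v 2 * v 1 = v 1 * (v 2 * z ^ a)) (r32 : v 3 * v 2 = v 2 * (v 3 * z ^ a))
    (r20 : v 2 * v 0 = v 0 * (v 2 * z ^ b)) (r31 : v 3 * v 1 = v 1 * (v 3 * z ^ b))
    (r30 : v 3 * v 0 = v 0 * (v 3 * z ^ b)) :
    v 0 * (v 1 * (v 2 * v 3)) * (v 0 * (v 1 * (v 2 * v 3))) = z ^ (a + b) := by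
  have zcv : ∀ i w, z * (v i * w) = v i * (z * w) := fun i w => by
    rw [← mul_assoc, hzv, mul_assoc]
  have zzc : ∀ w, z * (z * w) = w := fun w => by rw [← mul_assoc, hzz, one_mul]
  have sqc : ∀ i w, v i * (v i * w) = w := fun i w => by rw [← mul_assoc, hv2, one_mul]
  have s10 : ∀ w, v 1 * (v 0 * w) = v 0 * (v 1 * (z ^ a * w)) := fun w => by
    rw [← mul_assoc, r10, mul_assoc, mul_assoc]
  have s20 : ∀ w, v 2 * (v 0 * w) = v 0 * (v 2 * (z ^ b * w)) := fun w => by
    rw [← mul_assoc, r20, mul_assoc, mul_assoc]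
  have s30 : ∀ w, v 3 * (v 0 * w) = v 0 * (v 3 * (z ^ b * w)) := fun w => by
    rw [← mul_assoc, r30, mul_assoc, mul_assoc]
  have s21 : ∀ w, v 2 * (v 1 * w) = v 1 * (v 2 * (z ^ a * w)) := fun w => by
    rw [← mul_assoc, r21, mul_assoc, mul_assoc]
  have s31 : ∀ w, v 3 * (v 1 * w) = v 1 * (v 3 * (z ^ b * w)) := fun w => by
    rw [← mul_assoc, r31, mul_assoc, mul_assoc]
  have s32 : ∀ w, v 3 * (v 2 * w) = v 2 * (v 3 * (z ^ a * w)) := fun w => by
    rw [← mul_assoc, r32, mul_assoc, mul_assoc]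
  interval_cases a <;> interval_cases b <;>
    simp [mul_assoc, pow_two, hzz, hv2, sqc, zzc, zcv, hzv, s10, s20, s30, s21, s31, s32] at *

/-- A subgroup of `Q` invariant under an element of order five. -/
theorem Inner.invariant (h : Inner Q z) {g : H} (hg : orderOf g = 5) {X : Subgroup H} (hXQ : X ≤ Q)
    (hzX : z ∈ X) (hX : ∀ x ∈ X, g * x * g⁻¹ ∈ X) {u : H} (huX : u ∈ X) (hu1 : u ≠ 1)
    (huz : u ≠ z) : X = Q := by
  classical
  haveI : Fact (Nat.Prime 5) := ⟨by norm_num⟩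
  have hP : IsPGroup 5 (zpowers g) :=
    IsPGroup.of_card (n := 1) (by rw [Nat.card_zpowers, hg, pow_one])
  have hnorm : zpowers g ≤ normalizer (X : Set H) := by
    rw [zpowers_le]
    exact mem_normalizer_fintype hX
  letI : MulAction (zpowers g) X :=
    { smul := fun a x => ⟨a * x * (a : H)⁻¹, (mem_normalizer_iff.1 (hnorm a.2) x).1 x.2⟩
      one_smul := fun x => Subtype.ext (by show (1 : H) * x * (1 : H)⁻¹ = x; simp)
      mul_smul := fun a b x => Subtype.ext (by
        show (a * b : H) * x * (a * b : H)⁻¹ = a * (b * x * (b : H)⁻¹) * (a : H)⁻¹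
        group) }
  have hmod := hP.card_modEq_card_fixedPoints (α := X)
  have hfp : MulAction.fixedPoints (zpowers g) X = {(1 : X), ⟨z, hzX⟩} := by
    ext x
    constructor
    · intro hx
      rcases h.fix_five hg (hXQ x.2) (congrArg Subtype.val (hx ⟨g, mem_zpowers g⟩)) with e | e
      · exact Or.inl (Subtype.ext e)
      · exact Or.inr (Subtype.ext e)
    · intro hx a
      apply Subtype.ext
      show (a : H) * x * (a : H)⁻¹ = x
      rcases hx with rfl | rfl
      · simp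
      · rw [h.zc, mul_inv_cancel_right]
  have hne : (1 : X) ≠ ⟨z, hzX⟩ := fun e => h.z1 (congrArg Subtype.val e).symm
  rw [Nat.card_coe_set_eq (MulAction.fixedPoints (zpowers g) X), hfp, Set.ncard_pair hne] at hmod
  obtain ⟨d, hd, hXd⟩ := (Nat.dvd_prime_pow Nat.prime_two).1
    (show Nat.card X ∣ 2 ^ 5 from (Subgroup.card_dvd_of_le hXQ).trans (by rw [h.hcard]; norm_num))
  have h3 : 3 ≤ Nat.card X := by
    haveI := Fintype.ofFinite X
    have h3 : ({(1 : X), ⟨z, hzX⟩, ⟨u, huX⟩} : Finset X).card = 3 :=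
      Finset.card_eq_three.2 ⟨1, _, _, hne, fun e => hu1 (congrArg Subtype.val e).symm,
        fun e => huz (congrArg Subtype.val e).symm, rfl⟩
    rw [← h3, Nat.card_eq_fintype_card]
    exact Finset.card_le_univ _
  rw [hXd] at hmod h3
  refine eq_of_le_of_card_ge hXQ ?_
  rw [hXd, h.hcard]
  interval_cases d <;> simp_all [Nat.ModEq]

/-- The orbit of an involution under an element of order five gives a normal form. -/
theorem Inner.exists_quad (h : Inner Q z) {g : H} (hg : orderOf g = 5) {u₀ : H} (hu : u₀ ∈ Q)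
    (hu2 : u₀ * u₀ = 1) (hu1 : u₀ ≠ 1) (huz : u₀ ≠ z) :
    ∃ u : Fin 4 → H, Quad u z ∧ u 0 = u₀ ∧ (∀ x, x ∈ Q ↔ ∃ y, nf u z y = x) ∧
      Function.Injective (nf u z) := by
  classical
  haveI := h.norm
  have hg5 : g ^ 5 = 1 := by rw [← hg, pow_orderOf_eq_one]
  set v : ℕ → H := fun i => g ^ i * u₀ * (g ^ i)⁻¹ with hv
  have hv0 : v 0 = u₀ := by simp [hv]
  have hvQ : ∀ i, v i ∈ Q := fun i => Normal.conj_mem inferInstance _ hu _
  have hv2 : ∀ i, v i * v i = 1 := fun i => by simp only [hv]; rw [conj_mul, hu2]; group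
  have hvs : ∀ i j, g ^ i * v j * (g ^ i)⁻¹ = v (i + j) := fun i j => by
    simp only [hv, pow_add]; group
  have hg1 : ∀ j, g * v j * g⁻¹ = v (1 + j) := fun j => by simpa using hvs 1 j
  have hv5 : ∀ i, v (i + 5) = v i := fun i => by simp only [hv, pow_add, hg5, mul_one]
  have hzv : ∀ i, z * v i = v i * z := fun i => (h.zc _).symm
  -- the product of the five
  set P := v 0 * (v 1 * (v 2 * v 3)) with hPdef
  have hPQ : P ∈ Q := Q.mul_mem (hvQ 0) (Q.mul_mem (hvQ 1) (Q.mul_mem (hvQ 2) (hvQ 3)))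
  have hP4 : P = v 4 ∨ P = v 4 * z := by
    have e : g * (P * v 4) * g⁻¹ = v 0 * (P * v 4) * (v 0)⁻¹ := by
      have e1 : g * (P * v 4) * g⁻¹ = v 1 * (v 2 * (v 3 * (v 4 * v 0))) := by
        simp only [hPdef, ← conj_mul, hg1]
        rw [show v (1 + 4) = v 0 from hv5 0]
        group
      rw [e1, hPdef, inv_eq_of_mul_eq_one_right (hv2 0)]
      rw [show (v 0 : H) * (v 0 * (v 1 * (v 2 * v 3)) * v 4) * v 0 =
        v 0 * v 0 * (v 1 * (v 2 * (v 3 * (v 4 * v 0)))) by group, hv2, one_mul]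
    have hm : P * v 4 ∈ Q := Q.mul_mem hPQ (hvQ 4)
    have hS : g ^ 1 * (P * v 4) * (g ^ 1)⁻¹ = P * v 4 ∨
        g ^ 1 * (P * v 4) * (g ^ 1)⁻¹ = P * v 4 * z := by
      rw [pow_one, e]
      rcases h.comm hm (hvQ 0) with e' | e'
      · rw [e', mul_inv_cancel_right]; exact Or.inl rfl
      · rw [e', h.zc (v 0), ← mul_assoc, mul_inv_cancel_right]; exact Or.inr rfl
    rcases h.fix_pow hg (by norm_num) hm hS with e' | e'
    · exact Or.inl (by rw [eq_inv_of_mul_eq_one_left e', inv_eq_of_mul_eq_one_right (hv2 4)])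
    · refine Or.inr ?_
      calc P = P * v 4 * v 4 := by rw [mul_assoc, hv2, mul_one]
        _ = z * v 4 := by rw [e']
        _ = v 4 * z := hzv 4
  have hPP : P * P = 1 := by
    rcases hP4 with e | e <;> rw [e]
    · exact hv2 4
    · rw [mul_assoc, ← mul_assoc z, hzv, mul_assoc (v 4), h.zz, mul_one, hv2]
  have hk : ∀ k, ∃ c : ℕ, c < 2 ∧ ∀ i, v (i + k) * v i = v i * (v (i + k) * z ^ c) := by
    intro k
    obtain ⟨c, hc, hck⟩ : ∃ c : ℕ, c < 2 ∧ v k * v 0 = v 0 * (v k * z ^ c) := by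
      rcases h.comm (hvQ 0) (hvQ k) with e | e
      · exact ⟨0, by norm_num, by rw [pow_zero, mul_one]; exact e⟩
      · exact ⟨1, by norm_num, by rw [pow_one]; exact e⟩
    refine ⟨c, hc, fun i => ?_⟩
    have := congrArg (fun x => g ^ i * x * (g ^ i)⁻¹) hck
    simp only [← conj_mul, hvs, add_zero] at this
    have hzp : g ^ i * z ^ c * (g ^ i)⁻¹ = z ^ c := by
      rw [mul_inv_eq_iff_eq_mul]
      exact (Commute.pow_right (h.zc (g ^ i)) c)
    rwa [hzp] at this
  obtain ⟨a, ha, hA⟩ := hk 1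
  obtain ⟨b, hb, hB⟩ := hk 2
  have r30 : v 3 * v 0 = v 0 * (v 3 * z ^ b) := by
    have h1 : v 0 * v 3 = v 3 * (v 0 * z ^ b) := by have := hB 3; rwa [hv5 0] at this
    rw [← mul_assoc (v 0), h1, mul_assoc (v 3), mul_assoc (v 0), ← pow_add]
    interval_cases b <;> simp [pow_two, h.zz]
  have hz2 : z ^ 2 = 1 := by rw [pow_two, h.zz]
  have hone : a = b := by
    have e := sq_product (v := fun i : Fin 4 => v i) (fun i => hv2 _) h.zz (fun i => hzv _) ha hb
      (hA 0) (hA 1) (hA 2) (hB 0) (hB 1) r30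
    rw [show ((fun i : Fin 4 => v i) 0 * ((fun i : Fin 4 => v i) 1 * ((fun i : Fin 4 => v i) 2 *
      (fun i : Fin 4 => v i) 3))) = P from rfl, hPP] at e
    have hz1 := h.z1
    interval_cases a <;> interval_cases b <;>
      first
        | rfl
        | exact absurd (by simpa using e.symm) hz1
  subst hone
  have hmem5 : ∀ (X : Subgroup H), v 0 ∈ X → v 1 ∈ X → v 2 ∈ X → v 3 ∈ X → v 4 ∈ X →
      ∀ j, v j ∈ X := by
    intro X a0 a1 a2 a3 a4 j
    have : v j = v (j % 5) := by simp only [hv]; rw [← hg, pow_mod_orderOf]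
    rw [this]
    have := Nat.mod_lt j (show 5 > 0 by norm_num)
    interval_cases (j % 5) <;> assumption
  have hv4 : v 4 = P ∨ v 4 = P * z := hP4.imp Eq.symm fun e => by rw [e, mul_assoc, h.zz, mul_one]
  -- all five do not commute
  obtain rfl : a = 1 := by
    by_contra hcon
    obtain rfl : a = 0 := by omega
    set X := closure ({v 0, v 1, v 2, v 3, z} : Set H) with hXdef
    have hzX : z ∈ X := subset_closure (by simp)
    have hall : ∀ j, v j ∈ X := hmem5 X (subset_closure (by simp)) (subset_closure (by simp))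
      (subset_closure (by simp)) (subset_closure (by simp)) (by
        have hP' : P ∈ X := by
          refine X.mul_mem ?_ (X.mul_mem ?_ (X.mul_mem ?_ ?_)) <;> exact subset_closure (by simp)
        rcases hv4 with e | e <;> rw [e]
        exacts [hP', X.mul_mem hP' hzX])
    have hXQ : X ≤ Q := by
      rw [hXdef, closure_le]
      simp only [Set.insert_subset_iff, Set.singleton_subset_iff]
      exact ⟨hvQ 0, hvQ 1, hvQ 2, hvQ 3, h.zmem⟩
    have hinv : X ≤ X.comap (MulAut.conj g).toMonoidHom := by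
      rw [hXdef, closure_le]
      simp only [Set.insert_subset_iff, Set.singleton_subset_iff]
      refine ⟨?_, ?_, ?_, ?_, ?_⟩ <;> show g * _ * g⁻¹ ∈ X
      all_goals first
        | (rw [hg1]; exact hall _)
        | (rw [h.zc, mul_inv_cancel_right]; exact hzX)
    have he := h.invariant hg hXQ hzX (fun x hx => hinv hx) (hall 0) (by rwa [hv0]) (by rwa [hv0])
    have hc : X ≤ centralizer ({v 0} : Set H) := by
      rw [hXdef, closure_le]
      simp only [Set.insert_subset_iff, Set.singleton_subset_iff, SetLike.mem_coe,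
        mem_centralizer_singleton_iff]
      refine ⟨trivial, ?_, ?_, ?_, hzv 0⟩
      · simpa using hA 0
      · simpa using hB 0
      · simpa using r30
    rcases h.center (hvQ 0) (fun y hy =>
      (mem_centralizer_singleton_iff.1 (hc (he.symm ▸ hy : y ∈ X))).symm) with e | e
    · exact hu1 (hv0 ▸ e)
    · exact huz (hv0 ▸ e)
  simp only [pow_one] at hA hB r30
  set u : Fin 4 → H := ![v 0, v 1, v 2, v 3] with hudef
  have hquad : Quad u z := by
    refine ⟨?_, h.zz, fun i => (h.zc _).symm, ?_⟩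
    · intro i; fin_cases i <;> exact hv2 _
    · intro i j hij
      have hflip : ∀ x y : H, y * x = x * (y * z) → x * y = y * (x * z) := fun x y e => by
        rw [← mul_assoc y, e, mul_assoc x, mul_assoc y, h.zz, mul_one]
      fin_cases i <;> fin_cases j <;> simp [hudef] at hij ⊢ <;>
        first
          | exact hA 0 | exact hA 1 | exact hA 2 | exact hB 0 | exact hB 1 | exact r30
          | exact hflip _ _ (hA 0) | exact hflip _ _ (hA 1) | exact hflip _ _ (hA 2)
          | exact hflip _ _ (hB 0) | exact hflip _ _ (hB 1) | exact hflip _ _ r30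
  set θ : Q0 → H := nf u z with hθ
  let R : Subgroup H :=
    { carrier := Set.range θ
      mul_mem' := fun {x y} hx hy => by
        obtain ⟨x, rfl⟩ := hx; obtain ⟨y, rfl⟩ := hy; exact ⟨_, nf_mul hquad x y⟩
      one_mem' := ⟨0, nf_one⟩
      inv_mem' := fun {x} hx => by
        obtain ⟨x, rfl⟩ := hx
        obtain ⟨y, hy⟩ := (mulQ_cancel x).2
        refine ⟨y, ?_⟩
        rw [eq_inv_iff_mul_eq_one, hθ, ← nf_mul hquad, hy, nf_one] }
  have hzR : z ∈ R := ⟨Cfsg.Agent.H59.HJ.zQ, nf_zQ⟩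
  have hvR : ∀ j, v j ∈ R := hmem5 R ⟨gen 0, nf_gen_zero⟩ ⟨gen 1, nf_gen_one⟩ ⟨gen 2, nf_gen_two⟩
    ⟨gen 3, nf_gen_three⟩ (by
      rcases hv4 with e | e <;> rw [e]
      exacts [⟨gen 4, nf_gen_four⟩, R.mul_mem ⟨gen 4, nf_gen_four⟩ hzR])
  have hle : R ≤ Q := by
    rintro _ ⟨x, rfl⟩
    have hu' : ∀ i, u i ∈ Q := fun i => by fin_cases i <;> exact hvQ _
    exact Q.mul_mem (Q.pow_mem (hu' 0) _) (Q.mul_mem (Q.pow_mem (hu' 1) _)
      (Q.mul_mem (Q.pow_mem (hu' 2) _) (Q.mul_mem (Q.pow_mem (hu' 3) _) (Q.pow_mem h.zmem _))))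
  have hinv : ∀ x ∈ R, g * x * g⁻¹ ∈ R := by
    rintro _ ⟨x, rfl⟩
    have hu' : ∀ i, g * u i * g⁻¹ ∈ R := fun i => by
      fin_cases i <;> simp [hudef, hg1] <;> exact hvR _
    have hz' : g * z * g⁻¹ ∈ R := by rw [h.zc, mul_inv_cancel_right]; exact hzR
    show g * nf u z x * g⁻¹ ∈ R
    simp only [nf, ← conj_mul, ← conj_pow]
    exact R.mul_mem (R.pow_mem (hu' 0) _) (R.mul_mem (R.pow_mem (hu' 1) _)
      (R.mul_mem (R.pow_mem (hu' 2) _) (R.mul_mem (R.pow_mem (hu' 3) _) (R.pow_mem hz' _))))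
  have hRQ := h.invariant hg hle hzR hinv (hvR 0) (by rwa [hv0]) (by rwa [hv0])
  have hθmem : ∀ x, x ∈ Q ↔ ∃ y, θ y = x := fun x => by rw [← hRQ]; exact Iff.rfl
  refine ⟨u, hquad, hv0, hθmem, ?_⟩
  have hs : Function.Surjective (fun y : Q0 => (⟨θ y, (hθmem _).2 ⟨y, rfl⟩⟩ : Q)) := fun x =>
    ((hθmem x.1).1 x.2).imp fun y hy => Subtype.ext hy
  have hb := hs.bijective_of_nat_card_le (by rw [h.hcard, Nat.card_eq_fintype_card, Fintype.card_fin])
  exact fun x y e => hb.1 (Subtype.ext e)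

end Cfsg.Agent.H59.HJ
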