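import Cfsg.Prelude
import Cfsg.Agent.H19.Gaschutz
import Cfsg.Agent.H59.HJ.InnerForm

/-!
The centraliser of the central involution in a group of Hall-Janko type is the model.
-/

set_option autoImplicit false
set_option linter.style.haveILetI false

namespace Cfsg.Agent.H59.HJ

open Subgroup

variable {H : Type*} [Group H] [Finite H] {Q : Subgroup H} {z : H}

theorem gen_sq : ∀ i : Fin 5, mulQ (gen i) (gen i) = 0 := by decide +kernel

theorem gen_ne : ∀ i : Fin 5, gen i ≠ 0 ∧ gen i ≠ zQ := by decide +kernel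

theorem gen_distinct : ∀ j k : Fin 5, gen j = gen k ∨ gen j = mulQ (gen k) zQ → j = k := by
  decide +kernel

/-- The action on the five cosets. -/
theorem Inner.exists_perm (h : Inner Q z) [Q.Normal] (e : H ⧸ Q ≃* A5) {g : H} (hg : orderOf g = 5)
    (θ : Q0 → H) (hinj : Function.Injective θ) (hmul : ∀ x y, θ (mulQ x y) = θ x * θ y)
    (h0 : θ 0 = 1) (hz : θ zQ = z) (hmem : ∀ x, x ∈ Q ↔ ∃ y, θ y = x) :
    ∃ ρ : H →* A5, ρ.ker = Q ∧ Function.Surjective ρ ∧ ∀ c i,
      c * θ (gen i) * c⁻¹ = θ (gen (((ρ c : A5) : Equiv.Perm (Fin 5)) i)) ∨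
      c * θ (gen i) * c⁻¹ = θ (gen (((ρ c : A5) : Equiv.Perm (Fin 5)) i)) * z := by
  classical
  have hzc := h.zc
  have hzz := h.zz
  set w : Fin 5 → H := fun i => θ (gen i) with hw
  have hwQ : ∀ i, w i ∈ Q := fun i => (hmem _).2 ⟨_, rfl⟩
  have hperm0 : ∀ (x : H) (i : Fin 5),
      ∃ j : Fin 5, x * w i * x⁻¹ = w j ∨ x * w i * x⁻¹ = w j * z := by
    intro x i
    obtain ⟨y, hy⟩ := (hmem _).1 (Normal.conj_mem (inferInstance : Q.Normal) (w i) (hwQ i) x)
    have hy2 : mulQ y y = 0 := hinj (by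
      rw [hmul, hy, conj_mul, ← hmul, gen_sq, h0, mul_one, mul_inv_cancel])
    rcases invol_inner y hy2 with rfl | rfl | ⟨j, rfl | rfl⟩
    · exact absurd (hinj (((conj_eq_one_iff (a := x)).1 (hy.symm.trans h0)).trans h0.symm))
        (gen_ne i).1
    · rw [hz] at hy
      have e' : w i = z := by
        have := hy.symm; rw [mul_inv_eq_iff_eq_mul, ← hzc] at this; exact mul_left_cancel this
      exact absurd (hinj (e'.trans hz.symm)) (gen_ne i).2
    · exact ⟨j, Or.inl hy.symm⟩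
    · refine ⟨j, Or.inr ?_⟩
      rw [← hy, hmul, hz]
  have huniq : ∀ j k : Fin 5, w j = w k ∨ w j = w k * z → j = k := by
    intro j k hjk
    refine gen_distinct j k (hjk.imp (fun e => hinj e) fun e => hinj ?_)
    rw [hmul, hz]; exact e
  have hsym : ∀ x y : H, x = y * z → y = x * z := fun x y e => by rw [e, mul_assoc, hzz, mul_one]
  choose pj hpj using hperm0
  have hpmul : ∀ c d i, pj (c * d) i = pj c (pj d i) := by
    intro c d i
    apply huniq
    have e1 := hpj (c * d) i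
    have e2 := hpj c (pj d i)
    have key : c * d * w i * (c * d)⁻¹ = w (pj c (pj d i)) ∨
        c * d * w i * (c * d)⁻¹ = w (pj c (pj d i)) * z := by
      rw [show c * d * w i * (c * d)⁻¹ = c * (d * w i * d⁻¹) * c⁻¹ by group]
      rcases hpj d i with e3 | e3 <;> rw [e3]
      · exact e2
      · have : c * (w (pj d i) * z) * c⁻¹ = c * w (pj d i) * c⁻¹ * z := by
          rw [← mul_assoc c, mul_assoc (c * w (pj d i)), ← hzc, ← mul_assoc]
        rw [this]
        rcases e2 with e2 | e2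
        · exact Or.inr (by rw [e2])
        · exact Or.inl (by rw [e2, mul_assoc, hzz, mul_one])
    rcases e1 with e1 | e1 <;> rcases key with e3 | e3
    · exact Or.inl (e1.symm.trans e3)
    · exact Or.inr (e1.symm.trans e3)
    · exact Or.inr (hsym _ _ (e3.symm.trans e1))
    · exact Or.inl (mul_right_cancel (e1.symm.trans e3))
  have hpone : ∀ i, pj 1 i = i := fun i => (huniq _ _ (by
    have hh := hpj 1 i
    simp only [one_mul, inv_one, mul_one] at hh
    rcases hh with hh | hh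
    · exact Or.inl hh.symm
    · exact Or.inr (hsym _ _ hh)))
  let ψ : H →* Equiv.Perm (Fin 5) := MonoidHom.mk' (fun c =>
    ⟨pj c, pj c⁻¹, fun i => by rw [← hpmul, inv_mul_cancel, hpone],
      fun i => by rw [← hpmul, mul_inv_cancel, hpone]⟩) (fun c d => Equiv.ext (hpmul c d))
  have hQker : Q ≤ ψ.ker := by
    intro q hq
    refine MonoidHom.mem_ker.2 (Equiv.ext fun i => ?_)
    show pj q i = i
    apply huniq
    have hh := hpj q i
    rcases h.comm (hwQ i) hq with hc | hc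
    · rw [hc, mul_inv_cancel_right] at hh
      rcases hh with hh | hh
      · exact Or.inl hh.symm
      · exact Or.inr (hsym _ _ hh)
    · have e' : q * w i * q⁻¹ = w i * z := by
        rw [hc, hzc q, ← mul_assoc, mul_inv_cancel_right]
      rw [e'] at hh
      rcases hh with hh | hh
      · exact Or.inr hh.symm
      · exact Or.inl (mul_right_cancel hh).symm
  set π : H →* A5 := e.toMonoidHom.comp (QuotientGroup.mk' Q) with hπ
  have hπker : π.ker = Q := by
    ext x
    rw [MonoidHom.mem_ker]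
    simp [hπ]
  let ψ' : A5 →* Equiv.Perm (Fin 5) := (QuotientGroup.lift Q ψ hQker).comp e.symm.toMonoidHom
  have hψ' : ∀ x, ψ' (π x) = ψ x := fun x => by simp [ψ', hπ]
  have hgmove : ψ g 0 ≠ 0 := by
    intro h0'
    have h1 := hpj g 0
    rw [show pj g 0 = 0 from h0'] at h1
    rcases h.fix_pow hg (k := 1) (by norm_num) (hwQ 0) (by simpa using h1) with e' | e'
    · exact (gen_ne 0).1 (hinj (e'.trans h0.symm))
    · exact (gen_ne 0).2 (hinj (e'.trans hz.symm))
  have hψ'inj : Function.Injective ψ' := by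
    rw [← MonoidHom.ker_eq_bot_iff]
    refine ((MonoidHom.normal_ker ψ').eq_bot_or_eq_top).resolve_right fun hk => hgmove ?_
    rw [← hψ', MonoidHom.mem_ker.1 (hk ▸ mem_top (π g))]
    rfl
  have hrange : ψ'.range = alternatingGroup (Fin 5) := by
    refine Equiv.Perm.eq_alternatingGroup_of_index_eq_two ?_
    have h1 : Nat.card ψ'.range = 60 := by
      rw [← Nat.card_congr (MonoidHom.ofInjective hψ'inj).toEquiv, card_A5]
    have h2 := ψ'.range.card_mul_index
    rw [h1, Nat.card_perm, Nat.card_eq_fintype_card, Fintype.card_fin] at h2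
    norm_num [Nat.factorial] at h2
    omega
  have hψmem : ∀ x, ψ x ∈ alternatingGroup (Fin 5) := fun x => hrange ▸ ⟨π x, hψ' x⟩
  refine ⟨ψ.codRestrict _ hψmem, ?_, ?_, fun c i => hpj c i⟩
  · rw [MonoidHom.ker_codRestrict]
    refine le_antisymm (fun x hx => ?_) hQker
    rw [← hπker, MonoidHom.mem_ker]
    apply hψ'inj
    rw [hψ', map_one]
    exact hx
  · intro σ
    obtain ⟨a', ha'⟩ := (hrange.ge σ.2 : (σ : Equiv.Perm (Fin 5)) ∈ ψ'.range)
    obtain ⟨x, hx⟩ := (e.surjective.comp (QuotientGroup.mk'_surjective Q)) a'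
    refine ⟨x, Subtype.ext ?_⟩
    show ψ x = _
    rw [← ha', ← hψ']
    exact congrArg ψ' hx

/-- The elements permuting the five involutions exactly. -/
def exactStab (θ : Q0 → H) (ρ : H →* A5) : Subgroup H where
  carrier := {c | ∀ i, c * θ (gen i) * c⁻¹ = θ (gen (((ρ c : A5) : Equiv.Perm (Fin 5)) i))}
  one_mem' := fun i => by simp
  mul_mem' := fun {c d} hc hd i => by
    rw [map_mul, Subgroup.coe_mul, Equiv.Perm.mul_apply, ← hc, ← hd]
    group
  inv_mem' := fun {c} hc i => by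
    have e := hc (((ρ c⁻¹ : A5) : Equiv.Perm (Fin 5)) i)
    rw [← Equiv.Perm.mul_apply, ← Subgroup.coe_mul, ← map_mul, mul_inv_cancel, map_one,
      Subgroup.coe_one, Equiv.Perm.one_apply] at e
    rw [← e]
    group

/-- A model of the whole group, given that some involution lies outside `Q`. -/
theorem Inner.exists_frame (h : Inner Q z) [Q.Normal] (e : H ⧸ Q ≃* A5) {u₀ : H} (hu : u₀ ∈ Q)
    (hu2 : u₀ * u₀ = 1) (hu1 : u₀ ≠ 1) (huz : u₀ ≠ z)
    (hfuse : (∀ x : H, x * x = 1 → x ≠ 1 →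
      x = z ∨ IsConj x u₀) → False) :
    ∃ Φ : Q0 × A5 → H, Function.Bijective Φ ∧ (∀ a b, Φ (pm a b) = Φ a * Φ b) ∧ Φ (zQ, 1) = z ∧
      Φ (gen 0, 1) = u₀ ∧ ∀ x, x ∈ Q ↔ ∃ y, Φ (y, 1) = x := by
  classical
  haveI : Fact (Nat.Prime 5) := ⟨by norm_num⟩
  have hcardH : Nat.card H = 1920 := by
    rw [Q.card_eq_card_quotient_mul_card_subgroup, Nat.card_congr e.toEquiv, card_A5, h.hcard]
  obtain ⟨g, hg⟩ := exists_prime_orderOf_dvd_card' (G := H) 5 (by rw [hcardH]; norm_num)
  obtain ⟨u, hquad, hu0, hmem, hinj⟩ := h.exists_quad hg hu hu2 hu1 huz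
  set θ : Q0 → H := nf u z with hθ
  have hmul : ∀ x y, θ (mulQ x y) = θ x * θ y := nf_mul hquad
  have h0 : θ 0 = 1 := nf_one
  have hzQ : θ zQ = z := nf_zQ
  have hθ0 : θ (gen 0) = u₀ := nf_gen_zero.trans hu0
  obtain ⟨ρ, hker, hsurj, hperm⟩ := h.exists_perm e hg θ hinj hmul h0 hzQ hmem
  have hρQ : ∀ x, ρ x = 1 ↔ x ∈ Q := fun x => by rw [← hker, MonoidHom.mem_ker]
  set K' := exactStab θ ρ with hK'
  have hact : ∀ c ∈ K', ∀ x, c * θ x * c⁻¹ = θ (actQ (ρ c) x) := by
    intro c hc x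
    have hstep : ∀ (k : ℕ) (g : Q0) (a : Q0), k < 2 → θ (stepQ k g a) = θ a * θ g ^ k := by
      intro k g a hk
      interval_cases k <;> simp [stepQ, hmul]
    obtain ⟨l0, l1, l2, l3, l4⟩ := bit_lt x
    rw [actQ, hstep _ _ _ l4, hstep _ _ _ l3, hstep _ _ _ l2, hstep _ _ _ l1, hstep _ _ _ l0, h0,
      one_mul, ← hc 0, ← hc 1, ← hc 2, ← hc 3, hθ]
    rw [nf_gen_zero, nf_gen_one, nf_gen_two, nf_gen_three, nf_zQ, conj_pow, conj_pow, conj_pow,
      conj_pow]
    have hcz : c * z ^ bit x 4 = z ^ bit x 4 * c := (Commute.pow_right (h.zc c) _).eq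
    have hcz' : z ^ bit x 4 * c⁻¹ = c⁻¹ * z ^ bit x 4 :=
      ((Commute.inv_left (show Commute c (z ^ bit x 4) from hcz)).eq).symm
    simp only [nf, mul_assoc, hcz']
    group
  have hzK : z ∈ K' := fun i => by
    rw [(hρQ z).2 h.zmem, ← h.zc, mul_inv_cancel_right]
    rfl
  have hlift : ∀ σ : A5, ∃ c ∈ K', ρ c = σ := by
    intro σ
    obtain ⟨c₀, hc₀⟩ := hsurj σ
    have hcorr : ∀ i : Fin 4, ∃ b : Bool, c₀ * θ (gen i.castSucc) * c₀⁻¹ =
        θ (gen ((σ : Equiv.Perm (Fin 5)) i.castSucc)) * (if b then z else 1) := by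
      intro i
      rw [← hc₀]
      rcases hperm c₀ i.castSucc with e' | e'
      · exact ⟨false, by simpa using e'⟩
      · exact ⟨true, by simpa using e'⟩
    choose ε hε using hcorr
    obtain ⟨q, hq⟩ := sign_pattern ε
    set c := c₀ * θ q with hcdef
    have hρc : ρ c = σ := by rw [map_mul, (hρQ _).2 ((hmem _).2 ⟨q, rfl⟩), mul_one, hc₀]
    have h4 : ∀ i : Fin 4, c * θ (gen i.castSucc) * c⁻¹ =
        θ (gen ((σ : Equiv.Perm (Fin 5)) i.castSucc)) := by
      intro i
      have e1 := congrArg θ (hq i)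
      rw [hmul, hmul] at e1
      have e2 : θ q * θ (gen i.castSucc) * (θ q)⁻¹ =
          θ (gen i.castSucc) * (if ε i then z else 1) := by
        rw [mul_inv_eq_iff_eq_mul, e1]
        cases ε i
        · simp
        · simp [hmul, hzQ]
      rw [hcdef, mul_inv_rev, show c₀ * θ q * θ (gen i.castSucc) * ((θ q)⁻¹ * c₀⁻¹) =
        c₀ * (θ q * θ (gen i.castSucc) * (θ q)⁻¹) * c₀⁻¹ by group, e2, ← conj_mul, hε]
      cases ε i
      · simp
      · simp only [if_true]
        rw [h.zc c₀, mul_inv_cancel_right, mul_assoc, h.zz, mul_one]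
    refine ⟨c, fun i => ?_, hρc⟩
    rw [hρc]
    induction i using Fin.lastCases with
    | cast i => exact h4 i
    | last =>
      have e4 : θ (gen (Fin.last 4)) =
          θ (gen (0 : Fin 4).castSucc) * (θ (gen (1 : Fin 4).castSucc) *
            (θ (gen (2 : Fin 4).castSucc) * θ (gen (3 : Fin 4).castSucc))) := by
        simp only [← hmul]
        exact congrArg θ (by decide +kernel)
      rw [e4, ← conj_mul, ← conj_mul, ← conj_mul, h4, h4, h4, h4]
      simp only [← hmul]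
      have key : ∀ σ : A5, mulQ (gen ((σ : Equiv.Perm (Fin 5)) (0 : Fin 4).castSucc))
          (mulQ (gen ((σ : Equiv.Perm (Fin 5)) (1 : Fin 4).castSucc))
            (mulQ (gen ((σ : Equiv.Perm (Fin 5)) (2 : Fin 4).castSucc))
              (gen ((σ : Equiv.Perm (Fin 5)) (3 : Fin 4).castSucc)))) =
          gen ((σ : Equiv.Perm (Fin 5)) (Fin.last 4)) := by decide +kernel
      exact congrArg θ (key σ)
  have hKQ : ∀ c ∈ K', ρ c = 1 → c = 1 ∨ c = z := by
    intro c hc hρc
    obtain ⟨x, rfl⟩ := (hmem _).1 ((hρQ c).1 hρc)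
    have hx : ∀ i : Fin 4, mulQ x (gen i.castSucc) = mulQ (gen i.castSucc) x := fun i => hinj (by
      have e' := hc i.castSucc
      rw [hρc, Subgroup.coe_one, Equiv.Perm.one_apply, mul_inv_eq_iff_eq_mul] at e'
      rw [hmul, hmul, e'])
    rcases (center_iff x).1 hx with rfl | rfl
    · exact Or.inl h0
    · exact Or.inr hzQ
  have hsq : ∀ c ∈ K', ρ c * ρ c = 1 → c * c = 1 ∨ c * c = z := fun c hc hh =>
    hKQ _ (K'.mul_mem hc hc) (by rw [map_mul, hh])
  -- some outer element of `K'` is an involution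
  obtain ⟨c₁, hc₁K, hc₁2, hc₁ne⟩ : ∃ c ∈ K', c * c = 1 ∧ ρ c ≠ 1 := by
    by_contra hcon
    push Not at hcon
    refine hfuse fun x hx hx1 => ?_
    obtain ⟨c, hcK, hρc⟩ := hlift (ρ x)
    by_cases hρx : ρ x = 1
    · obtain ⟨y, rfl⟩ := (hmem _).1 ((hρQ x).1 hρx)
      have hy : mulQ y y = 0 := hinj (by rw [hmul, hx, h0])
      have hgc : ∀ i, IsConj (θ (gen i)) u₀ := by
        intro i
        obtain ⟨σ, hσ⟩ := five_transitive i
        obtain ⟨d, hdK, hρd⟩ := hlift σ
        refine (isConj_iff.2 ⟨d, ?_⟩).symm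
        rw [← hθ0, hdK 0, hρd, hσ]
      rcases invol_inner y hy with rfl | rfl | ⟨i, rfl | rfl⟩
      · exact absurd h0 hx1
      · exact Or.inl hzQ
      · exact Or.inr (hgc i)
      · obtain ⟨q, hq⟩ := gen_conj i
        refine Or.inr (IsConj.trans ?_ (hgc i))
        refine (isConj_iff.2 ⟨θ q, ?_⟩).symm
        rw [mul_inv_eq_iff_eq_mul, ← hmul, ← hmul, hq]
    · exfalso
      obtain ⟨y, hy⟩ : ∃ y, θ y = c⁻¹ * x := (hmem _).1 ((hρQ _).1 (by
        rw [map_mul, map_inv, hρc, inv_mul_cancel]))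
      have hxe : x = c * θ y := by rw [hy, mul_inv_cancel_left]
      have hc2 : c * c = z := (hsq c hcK (by rw [hρc, ← map_mul, hx, map_one])).resolve_left
        fun hh => hρx (hρc ▸ hcon c hcK hh)
      refine invol_square (ρ c) (by rw [hρc, ← map_mul, hx, map_one]) (hρc ▸ hρx) y (hinj ?_)
      rw [hmul, ← hact c hcK y, hzQ]
      have e1 : c * θ y * (c * θ y) = 1 := hxe ▸ hx
      calc c * θ y * c⁻¹ * θ y = c * θ y * (c * (c * c)⁻¹) * θ y := by group
        _ = c * θ y * (c * θ y) * z := by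
            rw [hc2, inv_eq_of_mul_eq_one_right h.zz, ← mul_assoc, mul_assoc (c * θ y * c),
              ← h.zc (θ y), ← mul_assoc, mul_assoc (c * θ y) c]
        _ = z := by rw [e1, one_mul]
  have hc₁σ : ρ c₁ * ρ c₁ = 1 := by rw [← map_mul, hc₁2, map_one]
  -- all of them
  have hall : ∀ c ∈ K', ρ c * ρ c = 1 → c * c = 1 := by
    intro c hc hh
    by_cases hc1 : ρ c = 1
    · rcases hKQ c hc hc1 with rfl | rfl
      · exact one_mul 1
      · exact h.zz
    obtain ⟨τ, hτ⟩ := invol_conj (ρ c) hh hc1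
    obtain ⟨τ₁, hτ₁⟩ := invol_conj (ρ c₁) hc₁σ hc₁ne
    obtain ⟨d, hd, hρd⟩ := hlift (τ₁ * τ⁻¹)
    have hρ : ρ (d * c * d⁻¹) = ρ c₁ := by
      rw [map_mul, map_mul, map_inv, hρd]
      calc τ₁ * τ⁻¹ * ρ c * (τ₁ * τ⁻¹)⁻¹ = τ₁ * τ⁻¹ * (ρ c * τ) * τ₁⁻¹ := by group
        _ = τ₁ * sig0 * τ₁⁻¹ := by rw [← hτ]; group
        _ = ρ c₁ := by rw [hτ₁, mul_inv_cancel_right]
    have hx := hKQ (c₁⁻¹ * (d * c * d⁻¹)) (K'.mul_mem (K'.inv_mem hc₁K)
      (K'.mul_mem (K'.mul_mem hd hc) (K'.inv_mem hd))) (by rw [map_mul, map_inv, hρ, inv_mul_cancel])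
    have hsqd : (d * c * d⁻¹) * (d * c * d⁻¹) = 1 := by
      have e2 : d * c * d⁻¹ = c₁ * (c₁⁻¹ * (d * c * d⁻¹)) := by group
      rw [e2]
      rcases hx with e' | e' <;> rw [e']
      · rw [mul_one, hc₁2]
      · rw [mul_assoc, ← mul_assoc z, ← h.zc, mul_assoc c₁ z, h.zz, mul_one, hc₁2]
    rw [conj_mul] at hsqd
    exact conj_eq_one_iff.1 hsqd
  -- a complement to the centre in `K'`
  let ρ' : K' →* A5 := ρ.comp K'.subtype
  have hρ'surj : Function.Surjective ρ' := fun σ => by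
    obtain ⟨c, hc, hρc⟩ := hlift σ
    exact ⟨⟨c, hc⟩, hρc⟩
  let Z' : Subgroup K' := ρ'.ker
  haveI : Z'.Normal := MonoidHom.normal_ker _
  have hZmem : ∀ c : K', c ∈ Z' ↔ c = 1 ∨ c = ⟨z, hzK⟩ := by
    intro c
    rw [MonoidHom.mem_ker]
    constructor
    · intro hc
      exact (hKQ c c.2 hc).imp (fun e' => Subtype.ext e') fun e' => Subtype.ext e'
    · rintro (rfl | rfl)
      · exact map_one _
      · exact (hρQ z).2 h.zmem
  have hZ2 : Nat.card Z' = 2 := by
    have hset : (Z' : Set K') = {(1 : K'), ⟨z, hzK⟩} := by ext c; exact hZmem c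
    show Nat.card ((Z' : Set K')) = 2
    rw [hset, Nat.card_coe_set_eq, Set.ncard_pair fun e' => h.z1 (congrArg Subtype.val e').symm]
  haveI hZc : IsMulCommutative Z' := by
    refine ⟨⟨fun a b => Subtype.ext ?_⟩⟩
    rcases (hZmem _).1 a.2 with e' | e' <;> rcases (hZmem _).1 b.2 with e'' | e'' <;>
      simp [e', e'']
  let U : Subgroup K' := (centralizer ({sig0} : Set A5)).comap ρ'
  have hU2 : ∀ c ∈ U, c * c = 1 := fun c hc => Subtype.ext (hall c c.2
    (cent_sig0 _ (mem_centralizer_singleton_iff.1 hc)))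
  have hUcomm : ∀ a ∈ U, ∀ b ∈ U, a * b = b * a := by
    intro a ha b hb
    have e1 := hU2 _ (U.mul_mem ha hb)
    rw [eq_inv_of_mul_eq_one_left e1, mul_inv_rev, inv_eq_of_mul_eq_one_right (hU2 a ha),
      inv_eq_of_mul_eq_one_right (hU2 b hb)]
  have hUidx : U.index = 15 := by
    rw [index_comap_of_surjective _ hρ'surj]
    have h1 := (centralizer ({sig0} : Set A5)).card_mul_index
    have h4 : Nat.card (centralizer ({sig0} : Set A5)) = 4 := by
      rw [← cent_sig0_card]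
      exact Nat.card_congr (Equiv.subtypeEquivRight fun σ => mem_centralizer_singleton_iff)
    rw [h4, card_A5] at h1
    omega
  obtain ⟨σ₁, hσ₁, hσ₁ne, hσ₁1, hgenU⟩ : ∃ σ₁ : A5, σ₁ * sig0 = sig0 * σ₁ ∧ σ₁ ≠ sig0 ∧ σ₁ ≠ 1 ∧
      ∀ σ : A5, σ * sig0 = sig0 * σ → σ = 1 ∨ σ = sig0 ∨ σ = σ₁ ∨ σ = sig0 * σ₁ := by
    decide +kernel
  obtain ⟨ca, hca⟩ := hρ'surj sig0
  obtain ⟨cb, hcb⟩ := hρ'surj σ₁
  have hcaU : ca ∈ U := by
    show ρ' ca ∈ centralizer ({sig0} : Set A5)
    rw [hca]; exact mem_centralizer_singleton_iff.2 rfl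
  have hcbU : cb ∈ U := by
    show ρ' cb ∈ centralizer ({sig0} : Set A5)
    rw [hcb]; exact mem_centralizer_singleton_iff.2 hσ₁
  have hσ1ne : σ₁ ≠ 1 := hσ₁1
  have hne3 : sig0 ≠ 1 ∧ σ₁ * sig0 ≠ 1 := ⟨by decide +kernel, fun e' => hσ₁ne (by
    rw [eq_inv_of_mul_eq_one_left e', inv_eq_of_mul_eq_one_right (by decide +kernel : sig0 * sig0 = 1)])⟩
  let A : Subgroup K' :=
    { carrier := {1, ca, cb, ca * cb}
      one_mem' := Or.inl rfl
      mul_mem' := fun {x y} hx hy => by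
        have ea := hU2 _ hcaU
        have eb := hU2 _ hcbU
        have ec : cb * ca = ca * cb := hUcomm _ hcbU _ hcaU
        have ea' : ∀ w, ca * (ca * w) = w := fun w => by rw [← mul_assoc, ea, one_mul]
        have ec' : ∀ w, cb * (ca * w) = ca * (cb * w) := fun w => by
          rw [← mul_assoc, ec, mul_assoc]
        simp only [Set.mem_insert_iff, Set.mem_singleton_iff] at hx hy ⊢
        rcases hx with rfl | rfl | rfl | rfl <;> rcases hy with rfl | rfl | rfl | rfl <;>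
          simp [mul_assoc, ea, eb, ec, ea', ec']
      inv_mem' := fun {x} hx => by
        have hxU : x ∈ U := by
          simp only [Set.mem_insert_iff, Set.mem_singleton_iff] at hx
          rcases hx with rfl | rfl | rfl | rfl
          exacts [U.one_mem, hcaU, hcbU, U.mul_mem hcaU hcbU]
        rwa [inv_eq_of_mul_eq_one_right (hU2 x hxU)] }
  have hAU : A ≤ U := by
    rintro x (rfl | rfl | rfl | rfl)
    exacts [U.one_mem, hcaU, hcbU, U.mul_mem hcaU hcbU]
  have hZU : Z' ≤ U := fun c hc => by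
    show ρ' c ∈ centralizer ({sig0} : Set A5)
    rw [MonoidHom.mem_ker.1 hc]; exact Subgroup.one_mem _
  have hAZ : A ⊓ Z' = ⊥ := by
    rw [eq_bot_iff]
    rintro x ⟨hxA, hxZ⟩
    rw [mem_bot]
    have hx : ρ' x = 1 := hxZ
    rcases hxA with rfl | rfl | rfl | rfl
    · rfl
    · exact absurd (hca.symm.trans hx) hne3.1
    · exfalso
      exact hσ1ne (hcb.symm.trans hx)
    · exfalso
      rw [map_mul, hca, hcb] at hx
      exact hne3.2 (by rw [hσ₁]; exact hx)
  have hZA : Z' ⊔ A = U := by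
    refine le_antisymm (sup_le hZU hAU) fun c hc => ?_
    have key : ∀ a ∈ A, ρ' c = ρ' a → c ∈ Z' ⊔ A := by
      intro a ha e'
      rw [show c = (c * a⁻¹) * a by group]
      refine (Z' ⊔ A).mul_mem (mem_sup_left ?_) (mem_sup_right ha)
      rw [MonoidHom.mem_ker, map_mul, map_inv, e', mul_inv_cancel]
    rcases hgenU (ρ' c) (mem_centralizer_singleton_iff.1 hc) with e' | e' | e' | e'
    · exact key 1 A.one_mem (by rw [e', map_one])
    · exact key ca (by right; left; rfl) (by rw [e', hca])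
    · exact key cb (by right; right; left; rfl) (by rw [e', hcb])
    · exact key (ca * cb) (by right; right; right; rfl) (by rw [e', map_mul, hca, hcb])
  obtain ⟨K, hK⟩ := H19.gaschutz_exists (K := Z') hZU (by rw [hUidx, hZ2]; norm_num) hAZ hZA
  have hKinj : Function.Injective (ρ'.comp K.subtype) := by
    rw [← MonoidHom.ker_eq_bot_iff, eq_bot_iff]
    intro k hk
    have : (k : K') ∈ Z' ⊓ K := ⟨hk, k.2⟩
    rw [disjoint_iff.1 hK.disjoint, mem_bot] at this
    exact Subgroup.mem_bot.2 (Subtype.ext this)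
  have hKsurj : Function.Surjective (ρ'.comp K.subtype) := by
    intro σ
    obtain ⟨c, hc⟩ := hρ'surj σ
    obtain ⟨⟨a, k⟩, hak⟩ := hK.2 c
    refine ⟨k, ?_⟩
    rw [← hc, ← hak, map_mul, MonoidHom.mem_ker.1 a.2, one_mul]
    rfl
  let E : K ≃* A5 := MulEquiv.ofBijective (ρ'.comp K.subtype) ⟨hKinj, hKsurj⟩
  let s : A5 →* H := (K'.subtype.comp K.subtype).comp E.symm.toMonoidHom
  have hsK : ∀ σ, s σ ∈ K' := fun σ => ((E.symm σ : K) : K').2
  have hρs : ∀ σ, ρ (s σ) = σ := fun σ => E.apply_symm_apply σ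
  refine ⟨fun a => θ a.1 * s a.2, ⟨?_, ?_⟩, ?_, by simp [hzQ], by simp [hθ0], ?_⟩
  · rintro ⟨x, σ⟩ ⟨y, τ⟩ e'
    simp only at e'
    have hστ : σ = τ := by
      have := congrArg ρ e'
      rwa [map_mul, map_mul, (hρQ _).2 ((hmem _).2 ⟨x, rfl⟩), (hρQ _).2 ((hmem _).2 ⟨y, rfl⟩),
        one_mul, one_mul, hρs, hρs] at this
    subst hστ
    exact Prod.ext (hinj (mul_right_cancel e')) rfl
  · intro c
    obtain ⟨x, hx⟩ : ∃ x, θ x = c * (s (ρ c))⁻¹ := (hmem _).1 ((hρQ _).1 (by
      rw [map_mul, map_inv, hρs, mul_inv_cancel]))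
    exact ⟨(x, ρ c), by simp only; rw [hx, inv_mul_cancel_right]⟩
  · intro a b
    simp only [pm]
    have e' := hact (s a.2) (hsK _) b.1
    rw [hρs] at e'
    rw [hmul, ← e', map_mul]
    group
  · intro x
    rw [hmem]
    simp

variable {G : Type*} [Group G] [Finite G]

/-- The hypotheses: the centraliser of `z` is an extension of an extraspecial group of order 32
containing its centraliser by `A₅`, another conjugate of `z` lies in the extraspecial group and
there is more than one class of involutions. -/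
structure Hyp (z : G) (Q : Subgroup (centralizer ({z} : Set G))) [Q.Normal] : Prop where
  hz : orderOf z = 2
  cent : centralizer (Q : Set (centralizer ({z} : Set G))) ≤ Q
  hQ : Cfsg.IsExtraspecial 2 Q
  hcard : Nat.card Q = 32
  quot : Nonempty ((centralizer ({z} : Set G)) ⧸ Q ≃* A5)
  nwc : ∃ g : G, (∃ hq : g * z * g⁻¹ ∈ centralizer ({z} : Set G),
      (⟨g * z * g⁻¹, hq⟩ : centralizer ({z} : Set G)) ∈ Q) ∧ g * z * g⁻¹ ≠ z
  cl : ∃ x y : G, orderOf x = 2 ∧ orderOf y = 2 ∧ ¬ IsConj x y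

/-- The model mapped onto the centraliser. -/
structure Frame (z : G) (Φ : Q0 × A5 → G) : Prop where
  inj : Function.Injective Φ
  range : ∀ g, g ∈ centralizer ({z} : Set G) ↔ ∃ a, Φ a = g
  mul : ∀ a b, Φ (pm a b) = Φ a * Φ b
  zmap : Φ (Cfsg.Agent.H59.HJ.zQ, 1) = z
  conjz : IsConj (Φ (gen 0, 1)) z
  sylow : ∃ S : Sylow 2 G, (S : Subgroup G) ≤ centralizer ({z} : Set G)
  cl : ∃ x y : G, orderOf x = 2 ∧ orderOf y = 2 ∧ ¬ IsConj x y

theorem exists_frame {z : G} {Q : Subgroup (centralizer ({z} : Set G))} [Q.Normal] (h : Hyp z Q) :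
    ∃ Φ : Q0 × A5 → G, Frame z Φ := by
  obtain ⟨hz, hcent, hQ, hcard, ⟨e⟩, ⟨g₁, ⟨hq, hqQ⟩, hne⟩, hcl⟩ := h
  haveI : Fact (Nat.Prime 2) := ⟨Nat.prime_two⟩
  have hz1 : z ≠ 1 := fun e => by simp [e] at hz
  set zH : centralizer ({z} : Set G) := ⟨z, mem_centralizer_singleton_iff.2 rfl⟩ with hzH
  set u₀ : centralizer ({z} : Set G) := ⟨g₁ * z * g₁⁻¹, hq⟩ with hu₀
  have hI : Inner Q zH :=
    ⟨inferInstance, hcent, hQ, hcard, fun x => Subtype.ext (mem_centralizer_singleton_iff.1 x.2),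
      fun e => hz1 (congrArg Subtype.val e),
      Subtype.ext (show z * z = 1 by rw [← pow_two, ← hz, pow_orderOf_eq_one])⟩
  -- a Sylow subgroup of `G` inside the centraliser
  obtain ⟨S, hS⟩ := (IsPGroup.map hQ.1.1 (centralizer ({z} : Set G)).subtype).exists_le_sylow
  have hSC : (S : Subgroup G) ≤ centralizer ({z} : Set G) := by
    have hQne : (Q.map (centralizer ({z} : Set G)).subtype) ≠ ⊥ := by
      intro e'
      have := Subgroup.mem_map_of_mem (centralizer ({z} : Set G)).subtype hI.zmem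
      rw [e', mem_bot] at this
      exact hz1 this
    have hSnt : Nontrivial (S : Subgroup G) := by
      rw [nontrivial_iff_ne_bot]
      exact fun e' => hQne (le_bot_iff.1 (e' ▸ hS))
    haveI := hSnt
    haveI : Nontrivial (center (S : Subgroup G)) := S.isPGroup'.center_nontrivial
    obtain ⟨c, hc⟩ := exists_ne (1 : center (S : Subgroup G)) |>.imp fun c hc => hc
    have hcomm : ∀ y ∈ (S : Subgroup G), ((c : (S : Subgroup G)) : G) * y = y * c := fun y hy =>
      (congrArg Subtype.val (mem_center_iff.1 c.2 ⟨y, hy⟩)).symm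
    have hcH : ((c : (S : Subgroup G)) : G) ∈ centralizer ({z} : Set G) :=
      mem_centralizer_singleton_iff.2 (hcomm z (hS ⟨zH, hI.zmem, rfl⟩))
    have hcQ : (⟨_, hcH⟩ : centralizer ({z} : Set G)) ∈ Q := hcent (mem_centralizer_iff.2
      fun y hy => Subtype.ext (hcomm y (hS ⟨y, hy, rfl⟩)).symm)
    have hcz : ((c : (S : Subgroup G)) : G) = z := by
      rcases hI.center hcQ (fun y hy => Subtype.ext (hcomm y (hS ⟨y, hy, rfl⟩))) with e' | e'
      · exact absurd (Subtype.ext (Subtype.ext (by simpa using congrArg Subtype.val e'))) hc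
      · exact congrArg Subtype.val e'
    intro y hy
    exact mem_centralizer_singleton_iff.2 (hcz ▸ hcomm y hy).symm
  obtain ⟨Φ, hbij, hmul, hzm, hu, -⟩ := hI.exists_frame e (u₀ := u₀) hqQ
    (Subtype.ext (by
      show g₁ * z * g₁⁻¹ * (g₁ * z * g₁⁻¹) = 1
      rw [conj_mul, ← pow_two, ← hz, pow_orderOf_eq_one]; group))
    (fun e => hz1 (conj_eq_one_iff.1 (congrArg Subtype.val e)))
    (fun e => hne (congrArg Subtype.val e))
    (fun hall => by
      obtain ⟨x, y, hx, hy, hxy⟩ := hcl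
      have key : ∀ a : G, orderOf a = 2 → IsConj a z := by
        intro a ha
        have hP : IsPGroup 2 (zpowers a) :=
          IsPGroup.of_card (n := 1) (by rw [Nat.card_zpowers, ha, pow_one])
        obtain ⟨T, hT⟩ := hP.exists_le_sylow
        obtain ⟨g, hg⟩ := MulAction.exists_smul_eq G T S
        have ha' : g * a * g⁻¹ ∈ (S : Subgroup G) := by
          rw [← hg]
          exact ⟨a, hT (mem_zpowers a), rfl⟩
        set b : centralizer ({z} : Set G) := ⟨g * a * g⁻¹, hSC ha'⟩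
        have hb : b * b = 1 := Subtype.ext (by
          show g * a * g⁻¹ * (g * a * g⁻¹) = 1
          rw [conj_mul, ← pow_two, ← ha, pow_orderOf_eq_one]; group)
        have hb1 : b ≠ 1 := fun e' => by
          have := conj_eq_one_iff.1 (congrArg Subtype.val e')
          simp [this] at ha
        refine (isConj_iff.2 ⟨g, rfl⟩ : IsConj a (b : G)).trans ?_
        rcases hall b hb hb1 with e' | e'
        · rw [e']
        · obtain ⟨c, hc⟩ := isConj_iff.1 e'
          exact (isConj_iff.2 ⟨(c : G), congrArg Subtype.val hc⟩).trans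
            (isConj_iff.2 ⟨g₁, rfl⟩ : IsConj z (u₀ : G)).symm
      exact hxy ((key x hx).trans (key y hy).symm))
  refine ⟨fun a => (Φ a : G), ⟨Subtype.val_injective.comp hbij.1, ?_, fun a b => ?_, ?_, ?_,
    ⟨S, hSC⟩, hcl⟩⟩
  · intro g
    refine ⟨fun hg => (hbij.2 ⟨g, hg⟩).imp fun a ha => congrArg Subtype.val ha, ?_⟩
    rintro ⟨a, rfl⟩
    exact (Φ a).2
  · rw [hmul]; rfl
  · rw [hzm]
  · rw [hu]
    exact (isConj_iff.2 ⟨g₁, rfl⟩).symm

end Cfsg.Agent.H59.HJ
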