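import Cfsg.Agent.H59.HJ.CentralizerT

/-!
Groups of Hall-Janko type: an element of order five in the centraliser of `z`, and the impossibility
of the small case for the centraliser of `t`.
-/

set_option autoImplicit false
set_option linter.style.haveILetI false
set_option linter.constructorNameAsVariable false

namespace Cfsg.Agent.H59.HJ

open Subgroup

variable {G : Type*} [Group G] [Finite G] {z t : G} {E A : Subgroup G}

/-- The element of order five of the model. -/
structure FiveData (z t f k : G) : Prop where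
  ordf : orderOf f = 5
  fC : f ∈ centralizer ({z} : Set G)
  cardCf : Nat.card ↥(centralizer ({z} : Set G) ⊓ centralizer ({f} : Set G)) = 10
  kC : k ∈ centralizer ({z} : Set G)
  k2 : k * k = 1
  kt : IsConj k t
  kzt : IsConj (k * z) t
  kf : k * f * k⁻¹ = f⁻¹
  nsq : ∀ c ∈ centralizer ({z} : Set G), c * f * c⁻¹ ≠ f ^ 2

theorem model_five : pm (0, sigF) (0, sigF) ≠ (0, 1) ∧ ppow (0, sigF) 5 = (0, 1) ∧
    (0, sigF) ≠ ((0, 1) : Q0 × A5) ∧
    ∃ k : A5, pm (0, k) (0, k) = (0, 1) ∧ k ≠ 1 ∧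
      pm (0, k) (0, sigF) = pm (ppow (0, sigF) 4) (0, k) ∧
      pm (pm (0, k) (zQ, 1)) (pm (0, k) (zQ, 1)) = (0, 1) := by decide +kernel

theorem model_five_nsq : ∀ c : Q0 × A5,
    pm c (0, sigF) ≠ pm (ppow (0, sigF) 2) c := by decide +kernel

theorem exists_five {Φ : Q0 × A5 → G} (F : Frame z Φ) {E A : Subgroup G} (h : Local z t E A) :
    ∃ f k, FiveData z t f k := by
  classical
  obtain ⟨-, h5, hne, κ, hκ2, hκ1, hκf, hκz2⟩ := model_five
  haveI : Fact (Nat.Prime 5) := ⟨by norm_num⟩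
  have hf5 : Φ (0, sigF) ^ 5 = 1 := by rw [← F.ppow_map, h5, F.one]
  have hord : orderOf (Φ (0, sigF)) = 5 :=
    orderOf_eq_prime hf5 fun e => hne (F.inj (e.trans F.one.symm))
  have hinv : (Φ (0, sigF))⁻¹ = Φ (0, sigF) ^ 4 :=
    inv_eq_of_mul_eq_one_right (by rw [← pow_succ', hf5])
  have hout : ∀ a : Q0 × A5, pm a a = (0, 1) → a.2 ≠ 1 → IsConj (Φ a) t := by
    intro a ha h1
    have ho : orderOf (Φ a) = 2 :=
      orderOf_two ((F.sq_iff a).2 ha) fun e => h1 (by rw [F.inj (e.trans F.one.symm)])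
    refine (h.cases _ ho).resolve_left fun hz => ?_
    exact h1 ((F.inner_iff ha).1 (Or.inr hz))
  refine ⟨Φ (0, sigF), Φ (0, κ), ⟨hord, (F.range _).2 ⟨_, rfl⟩, ?_, (F.range _).2 ⟨_, rfl⟩,
    (F.sq_iff _).2 hκ2, hout _ hκ2 hκ1, ?_, ?_, ?_⟩⟩
  · rw [← cent_five_card, ← Fintype.card_coe, ← Nat.card_eq_fintype_card]
    symm
    refine Nat.card_congr (Equiv.ofBijective (fun a => ⟨Φ a.1, (F.range _).2 ⟨_, rfl⟩,
      mem_centralizer_singleton_iff.2 ((F.comm_iff _ _).2 (Finset.mem_filter.1 a.2).2.symm)⟩)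
      ⟨fun a b e => Subtype.ext (F.inj (congrArg Subtype.val e)), fun g => ?_⟩)
    obtain ⟨a, ha⟩ := (F.range g.1).1 g.2.1
    refine ⟨⟨a, Finset.mem_filter.2 ⟨Finset.mem_univ _, ?_⟩⟩, Subtype.ext ha⟩
    exact ((F.comm_iff _ _).1 (ha ▸ (mem_centralizer_singleton_iff.1 g.2.2))).symm
  · have e : Φ (0, κ) * z = Φ (pm (0, κ) (zQ, 1)) := by rw [F.mul, F.zmap]
    rw [e]
    refine hout _ hκz2 ?_
    simpa [pm] using hκ1
  · rw [mul_inv_eq_iff_eq_mul, hinv, ← F.ppow_map, ← F.mul, ← F.mul, hκf]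
  · intro c hc e
    obtain ⟨a, rfl⟩ := (F.range c).1 hc
    rw [mul_inv_eq_iff_eq_mul, ← F.ppow_map, ← F.mul, ← F.mul] at e
    exact model_five_nsq a (F.inj e)

/-- A bound for an abelian group inverted by `z` and normalised by an involution commuting with `z`. -/
theorem inverted_bound {R : Subgroup G} {k : G} (hodd : Odd (Nat.card R))
    (hinv : ∀ r ∈ R, z * r * z⁻¹ = r⁻¹) (hk : ∀ r ∈ R, k * r * k⁻¹ ∈ R) (hk2 : k * k = 1) :
    Nat.card R ≤ Nat.card ↥(R ⊓ centralizer ({k} : Set G)) *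
      Nat.card ↥(R ⊓ centralizer ({k * z} : Set G)) := by
  have hcomm : ∀ a ∈ R, ∀ b ∈ R, a * b = b * a := by
    intro a ha b hb
    have e := hinv _ (R.mul_mem ha hb)
    rw [← conj_mul, hinv a ha, hinv b hb, ← mul_inv_rev] at e
    exact (inv_injective e).symm
  have hkk : ∀ r, k * (k * r * k⁻¹) * k⁻¹ = r := fun r => by
    rw [show k * (k * r * k⁻¹) * k⁻¹ = k * k * r * (k * k)⁻¹ by group, hk2]; group
  let F : R → ↥(R ⊓ centralizer ({k} : Set G)) × ↥(R ⊓ centralizer ({k * z} : Set G)) := fun r =>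
    (⟨r * (k * r * k⁻¹), R.mul_mem r.2 (hk r r.2), mem_centralizer_singleton_iff.2 (by
        rw [eq_comm, ← mul_inv_eq_iff_eq_mul, ← conj_mul, hkk, hcomm _ (hk r r.2) _ r.2])⟩,
     ⟨r * (k * r * k⁻¹)⁻¹, R.mul_mem r.2 (R.inv_mem (hk r r.2)), mem_centralizer_singleton_iff.2 (by
        rw [eq_comm, ← mul_inv_eq_iff_eq_mul]
        calc k * z * ((r : G) * (k * r * k⁻¹)⁻¹) * (k * z)⁻¹
            = k * (z * ((r : G) * (k * r * k⁻¹)⁻¹) * z⁻¹) * k⁻¹ := by group
          _ = k * ((r : G) * (k * r * k⁻¹)⁻¹)⁻¹ * k⁻¹ := by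
            rw [hinv _ (R.mul_mem r.2 (R.inv_mem (hk r r.2)))]
          _ = k * (k * r * k⁻¹) * k⁻¹ * (k * r * k⁻¹)⁻¹ := by group
          _ = _ := by rw [hkk])⟩)
  rw [← Nat.card_prod]
  refine Nat.card_le_card_of_injective F fun r s e => ?_
  have e1 : (r : G) * (k * r * k⁻¹) = s * (k * s * k⁻¹) := congrArg (fun p => (p.1 : G)) e
  have e2 : (r : G) * (k * r * k⁻¹)⁻¹ = s * (k * s * k⁻¹)⁻¹ := congrArg (fun p => (p.2 : G)) e
  have key : ∀ x : R, (x : G) * (k * x * k⁻¹) * ((x : G) * (k * x * k⁻¹)⁻¹) = (x : G) ^ 2 := by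
    intro x
    rw [hcomm _ x.2 _ (hk x x.2), mul_assoc, ← mul_assoc (x : G), ← pow_two,
      hcomm _ (R.pow_mem x.2 2) _ (R.inv_mem (hk x x.2)), mul_inv_cancel_left]
  have e3 : (r : G) ^ 2 = (s : G) ^ 2 := by rw [← key r, ← key s, e1, e2]
  exact (powCoprime (Nat.coprime_two_right.2 hodd)).injective (Subtype.ext (by simpa using e3))

/-- The odd part of the centraliser of `f`; `f` is not conjugate to its square. -/
theorem five_local (h : Local z t E A) {f k : G} (d : FiveData z t f k) :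
    ∃ O : Subgroup G, (∀ x : G, x ∈ O ↔ x ∈ centralizer ({f} : Set G) ∧ Odd (orderOf x)) ∧
      Nat.card (centralizer ({f} : Set G)) = 2 * Nat.card O ∧ Odd (Nat.card O) ∧
      ∀ y : G, y * f * y⁻¹ ≠ f ^ 2 := by
  classical
  haveI : Fact (Nat.Prime 2) := ⟨Nat.prime_two⟩
  have hz2 : z * z = 1 := by rw [← pow_two, ← h.hz, pow_orderOf_eq_one]
  have hzf : z * f = f * z := (mem_centralizer_singleton_iff.1 d.fC).symm
  have hzCf : z ∈ centralizer ({f} : Set G) := mem_centralizer_singleton_iff.2 hzf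
  let zC : centralizer ({f} : Set G) := ⟨z, hzCf⟩
  have hzC : orderOf zC = 2 := by rw [Subgroup.orderOf_mk, h.hz]
  -- the Sylow 2-subgroup of the centraliser of `f`
  obtain ⟨S, hS⟩ : ∃ S : Sylow 2 (centralizer ({f} : Set G)),
      (S : Subgroup (centralizer ({f} : Set G))) = zpowers zC := by
    refine sylow_of_normalizer (IsPGroup.of_card (n := 1) (by rw [Nat.card_zpowers, hzC, pow_one]))
      fun u hu ⟨m, hm⟩ => ?_
    have huz : u * zC * u⁻¹ = zC := by
      have := (mem_normalizer_iff.1 hu zC).1 (mem_zpowers _)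
      obtain ⟨i, hi⟩ := mem_zpowers_iff.1 this
      rcases Int.even_or_odd i with ⟨j, rfl⟩ | ⟨j, rfl⟩
      · exfalso
        rw [← two_mul, zpow_mul, zpow_ofNat, ← hzC, pow_orderOf_eq_one, one_zpow, eq_comm,
          conj_eq_one_iff] at hi
        rw [hi, orderOf_one] at hzC; norm_num at hzC
      · rw [← hi, zpow_add, zpow_mul, zpow_ofNat, ← hzC, pow_orderOf_eq_one, one_zpow, one_mul,
          zpow_one]
    -- inside the cyclic group of order ten
    have huC : (u : G) ∈ centralizer ({z} : Set G) :=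
      mem_centralizer_singleton_iff.2 (mul_inv_eq_iff_eq_mul.1 (congrArg Subtype.val huz))
    set D := centralizer ({z} : Set G) ⊓ centralizer ({f} : Set G) with hD
    have hzf' : orderOf (z * f) = 10 := by
      rw [(show Commute z f from hzf).orderOf_mul_eq_mul_orderOf_of_coprime
        (by rw [h.hz, d.ordf]; norm_num), h.hz, d.ordf]
    have hDz : D = zpowers (z * f) := by
      refine (eq_of_le_of_card_ge ?_ (by rw [Nat.card_zpowers, hzf', d.cardCf])).symm
      rw [zpowers_le]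
      exact D.mul_mem ⟨mem_centralizer_singleton_iff.2 rfl, hzCf⟩
        ⟨d.fC, mem_centralizer_singleton_iff.2 rfl⟩
    obtain ⟨i, hi⟩ := mem_zpowers_iff.1 (hDz.le (⟨huC, u.2⟩ : (u : G) ∈ D))
    refine mem_zpowers_iff.2 ⟨i, Subtype.ext ?_⟩
    show z ^ i = (u : G)
    rw [← hi, (show Commute z f from hzf).mul_zpow]
    -- the five-part vanishes
    have hu2 : (u : G) ^ 2 ^ m = 1 := by simpa using congrArg Subtype.val hm
    have h5 : (f ^ i) ^ 2 ^ (m + 1) = 1 := by
      have h1 : ((u : G) ^ 2 ^ m) ^ 2 = 1 := by rw [hu2, one_pow]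
      rw [← pow_mul, ← pow_succ, ← hi, (show Commute z f from hzf).mul_zpow,
        ((show Commute z f from hzf).zpow_zpow i i).mul_pow] at h1
      have hz' : (z ^ i) ^ 2 ^ (m + 1) = 1 := by
        rw [pow_succ', pow_mul, ← zpow_natCast (z ^ i) 2, ← zpow_mul, mul_comm, zpow_mul,
          zpow_natCast, pow_two, hz2, one_zpow, one_pow]
      rwa [hz', one_mul] at h1
    have hfi : f ^ i = 1 := by
      have hd : orderOf (f ^ i) ∣ 5 := by
        rw [orderOf_dvd_iff_pow_eq_one, ← zpow_natCast, ← zpow_mul, mul_comm, zpow_mul,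
          zpow_natCast, ← d.ordf, pow_orderOf_eq_one, one_zpow]
      have hd2 := orderOf_dvd_of_pow_eq_one h5
      exact orderOf_eq_one_iff.1 (Nat.eq_one_of_dvd_coprimes
        (Nat.Coprime.pow_right (m + 1) (by norm_num : Nat.Coprime 5 2)) hd hd2)
    rw [hfi, mul_one]
  have hnc : normalizer ((S : Subgroup (centralizer ({f} : Set G))) : Set (centralizer ({f} : Set G))) ≤
      centralizer ((S : Subgroup (centralizer ({f} : Set G))) : Set (centralizer ({f} : Set G))) :=
    haveI : IsCyclic (S : Subgroup (centralizer ({f} : Set G))) := by rw [hS]; infer_instance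
    IsCyclic.normalizer_le_centralizer (p := 2) (P := S) (by
      refine (Nat.minFac_eq_two_iff _).2 ?_
      rw [← hzC]; exact orderOf_dvd_natCard zC) this
  set O₁ := (MonoidHom.transferSylow S hnc).ker with hO₁
  have hcompl := MonoidHom.ker_transferSylow_isComplement' S hnc
  have hS2 : Nat.card (S : Subgroup (centralizer ({f} : Set G))) = 2 := by
    rw [hS, Nat.card_zpowers, hzC]
  have hidx : O₁.index = 2 := by rw [hcompl.symm.index_eq_card, hS2]
  have hcardC : Nat.card (centralizer ({f} : Set G)) = 2 * Nat.card O₁ := by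
    rw [← O₁.index_mul_card, hidx]
  have hOodd : Odd (Nat.card O₁) := Nat.odd_iff.2 (Nat.two_dvd_ne_zero.1
    (MonoidHom.not_dvd_card_ker_transferSylow S hnc))
  set O : Subgroup G := O₁.map (centralizer ({f} : Set G)).subtype with hO
  have hOmem : ∀ x : G, x ∈ O ↔ x ∈ centralizer ({f} : Set G) ∧ Odd (orderOf x) := by
    intro x
    constructor
    · rintro ⟨y, hy, rfl⟩
      refine ⟨y.2, Odd.of_dvd_nat hOodd ?_⟩
      show orderOf ((y : centralizer ({f} : Set G)) : G) ∣ _
      rw [Subgroup.orderOf_coe, ← Subgroup.orderOf_mk y hy]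
      exact orderOf_dvd_natCard _
    · rintro ⟨hx, hodd⟩
      refine ⟨⟨x, hx⟩, ?_, rfl⟩
      haveI : O₁.Normal := MonoidHom.normal_ker _
      have h1 := sq_mem_of_index_two hidx ⟨x, hx⟩
      obtain ⟨j, hj⟩ := hodd
      have e : (⟨x, hx⟩ : centralizer ({f} : Set G)) ^ orderOf x = 1 := Subtype.ext (by simp [pow_orderOf_eq_one])
      rw [hj, pow_succ, pow_mul, mul_eq_one_iff_eq_inv] at e
      exact O₁.inv_mem_iff.1 (e ▸ O₁.pow_mem h1 j)
  have hOcard : Nat.card O = Nat.card O₁ :=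
    (Nat.card_congr (O₁.equivMapOfInjective _ (subtype_injective _)).toEquiv).symm
  refine ⟨O, hOmem, by rw [hOcard, hcardC], by rw [hOcard]; exact hOodd, ?_⟩
  intro y e
  have hzy : y * z * y⁻¹ ∈ centralizer ({f} : Set G) := by
    rw [mem_centralizer_singleton_iff]
    have h1 : y * (z * f ^ 2) * y⁻¹ = y * (f ^ 2 * z) * y⁻¹ := by
      rw [(Commute.pow_right (show Commute z f from hzf) 2).eq]
    have e2 : y * f ^ 2 * y⁻¹ = f ^ 4 := by rw [← conj_pow, e, ← pow_mul]
    rw [← conj_mul, ← conj_mul, e2] at h1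
    have h3 : Commute (y * z * y⁻¹) ((f ^ 4) ^ 4) := (Commute.pow_right h1 4)
    rwa [← pow_mul, show 4 * 4 = 5 * 3 + 1 from rfl, pow_succ, pow_mul, ← d.ordf,
      pow_orderOf_eq_one, one_pow, one_mul] at h3
  let w : centralizer ({f} : Set G) := ⟨y * z * y⁻¹, hzy⟩
  have hw : orderOf w = 2 := by rw [Subgroup.orderOf_mk, orderOf_conj, h.hz]
  obtain ⟨T, hT'⟩ := (IsPGroup.of_card (n := 1) (by rw [Nat.card_zpowers, hw, pow_one]) :
    IsPGroup 2 (zpowers w)).exists_le_sylow
  obtain ⟨g, hg⟩ := MulAction.exists_smul_eq (centralizer ({f} : Set G)) T S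
  have hgw : g * w * g⁻¹ ∈ (S : Subgroup (centralizer ({f} : Set G))) := by
    rw [← hg]
    exact ⟨w, hT' (mem_zpowers w), rfl⟩
  rw [hS] at hgw
  obtain ⟨i, hi⟩ := mem_zpowers_iff.1 hgw
  have hgwz : g * w * g⁻¹ = zC := by
    rcases Int.even_or_odd i with ⟨j, rfl⟩ | ⟨j, rfl⟩
    · exfalso
      rw [← two_mul, zpow_mul, zpow_ofNat, ← hzC, pow_orderOf_eq_one, one_zpow, eq_comm,
        conj_eq_one_iff] at hi
      rw [hi, orderOf_one] at hw; norm_num at hw
    · rw [← hi, zpow_add, zpow_mul, zpow_ofNat, ← hzC, pow_orderOf_eq_one, one_zpow, one_mul,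
        zpow_one]
  refine d.nsq ((g : G) * y) ?_ ?_
  · rw [mem_centralizer_singleton_iff, ← mul_inv_eq_iff_eq_mul]
    have := congrArg Subtype.val hgwz
    simpa [w, zC, mul_assoc] using this
  · rw [mul_inv_rev, show (g : G) * y * f * (y⁻¹ * (g : G)⁻¹) = g * (y * f * y⁻¹) * (g : G)⁻¹ by
      group, e, (Commute.pow_right (mem_centralizer_singleton_iff.1 g.2 : Commute (g : G) f) 2).eq,
      mul_inv_cancel_right]

/-- The small case is impossible. -/
theorem small_impossible (h : Local z t E A) {f k : G} (d : FiveData z t f k)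
    (hT : Nat.card (centralizer ({t} : Set G)) = 48) (hG : Nat.card G = 51840) : False := by
  classical
  haveI : Fact (Nat.Prime 5) := ⟨by norm_num⟩
  haveI : Fact (Nat.Prime 3) := ⟨Nat.prime_three⟩
  obtain ⟨O, hOmem, hcardC, hOodd, hnsq'⟩ := five_local h d
  have hz2 : z * z = 1 := by rw [← pow_two, ← h.hz, pow_orderOf_eq_one]
  have hzf : z * f = f * z := (mem_centralizer_singleton_iff.1 d.fC).symm
  have hzCf : z ∈ centralizer ({f} : Set G) := mem_centralizer_singleton_iff.2 hzf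
  have hfO : f ∈ O := (hOmem f).2 ⟨mem_centralizer_singleton_iff.2 rfl, by rw [d.ordf]; decide⟩
  have hconjO : ∀ u, (∀ x, x ∈ centralizer ({f} : Set G) → u * x * u⁻¹ ∈ centralizer ({f} : Set G)) →
      ∀ x ∈ O, u * x * u⁻¹ ∈ O := fun u hu x hx =>
    (hOmem _).2 ⟨hu x ((hOmem x).1 hx).1, by rw [orderOf_conj]; exact ((hOmem x).1 hx).2⟩
  -- the normaliser of `⟨f⟩`
  set P := zpowers f with hP
  have hPcard : Nat.card P = 5 := by rw [hP, Nat.card_zpowers, d.ordf]
  have hnorm : ∀ y ∈ normalizer (P : Set G), y * f * y⁻¹ = f ∨ y * f * y⁻¹ = f⁻¹ := by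
    intro y hy
    have hnsq : ∀ y ∈ normalizer (P : Set G), y * f * y⁻¹ ≠ f ^ 2 := fun y _ => hnsq' y
    have hmem := (mem_normalizer_iff.1 hy f).1 (mem_zpowers f)
    obtain ⟨i, hi⟩ := (mem_powers_iff_mem_zpowers.2 hmem)
    have hi' : y * f * y⁻¹ = f ^ (i % 5) := by
      rw [← d.ordf, pow_mod_orderOf]; exact hi.symm
    have := Nat.mod_lt i (show 5 > 0 by norm_num)
    have hf5 : f ^ 5 = 1 := by rw [← d.ordf, pow_orderOf_eq_one]
    interval_cases hh : i % 5
    · rw [pow_zero, conj_eq_one_iff] at hi'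
      have := d.ordf; rw [hi', orderOf_one] at this; norm_num at this
    · exact Or.inl (by rw [hi', pow_one])
    · exact absurd hi' (hnsq y hy)
    · refine absurd ?_ (hnsq y⁻¹ (Subgroup.inv_mem _ hy))
      have e : y * f ^ 2 * y⁻¹ = f := by
        rw [← conj_pow, hi', ← pow_mul, show 3 * 2 = 5 + 1 from rfl, pow_succ, hf5, one_mul]
      calc y⁻¹ * f * y⁻¹⁻¹ = y⁻¹ * (y * f ^ 2 * y⁻¹) * y⁻¹⁻¹ := by rw [e]
        _ = f ^ 2 := by group
    · exact Or.inr (by rw [hi', eq_inv_iff_mul_eq_one, ← pow_succ, hf5])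
  have hkN : k ∈ normalizer (P : Set G) := by
    refine mem_normalizer_fintype fun x hx => ?_
    obtain ⟨i, rfl⟩ := mem_zpowers_iff.1 hx
    rw [← conj_zpow, d.kf]
    exact P.zpow_mem (P.inv_mem (mem_zpowers f)) i
  have hfne : f⁻¹ ≠ f := fun e => by
    have h1 : f ^ 2 = 1 := by rw [pow_two]; nth_rewrite 1 [← e]; exact inv_mul_cancel f
    have := orderOf_dvd_of_pow_eq_one h1
    rw [d.ordf] at this; norm_num at this
  have hNcard : Nat.card (normalizer (P : Set G)) = 4 * Nat.card O := by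
    have hCN : centralizer ({f} : Set G) ≤ normalizer (P : Set G) := by
      refine fun x hx => mem_normalizer_fintype fun w hw => ?_
      have hwc : P ≤ centralizer ({x} : Set G) := zpowers_le.2
        (mem_centralizer_singleton_iff.2 (mem_centralizer_singleton_iff.1 hx).symm)
      rwa [← mem_centralizer_singleton_iff.1 (hwc hw), mul_inv_cancel_right]
    have hi2 : ((centralizer ({f} : Set G)).subgroupOf (normalizer (P : Set G))).index = 2 := by
      rw [index_eq_two_iff]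
      refine ⟨⟨k, hkN⟩, fun b => ?_⟩
      simp only [mem_subgroupOf, Subgroup.coe_mul, mem_centralizer_singleton_iff,
        ← mul_inv_eq_iff_eq_mul]
      have e : (b : G) * k * f * ((b : G) * k)⁻¹ = ((b : G) * f * (b : G)⁻¹)⁻¹ := by
        rw [mul_inv_rev, show (b : G) * k * f * (k⁻¹ * (b : G)⁻¹) = b * (k * f * k⁻¹) * (b : G)⁻¹ by
          group, d.kf]
        group
      rw [e]
      rcases hnorm b b.2 with hb | hb <;> rw [hb]
      · exact Or.inr ⟨rfl, hfne⟩
      · exact Or.inl ⟨inv_inv f, hfne⟩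
    have := ((centralizer ({f} : Set G)).subgroupOf (normalizer (P : Set G))).index_mul_card
    rw [hi2, Nat.card_congr (subgroupOfEquivOfLe hCN).toEquiv, hcardC] at this
    omega
  -- Sylow's theorem
  have hdiv5 : ∀ n : ℕ, n ∣ 51840 → n.factorization 5 ≤ 1 := by
    intro n hn
    by_contra hcon
    push Not at hcon
    have h25 : 25 ∣ n := (pow_dvd_pow 5 hcon).trans (Nat.ordProj_dvd n 5)
    exact absurd (h25.trans hn) (by norm_num)
  let P5 : Sylow 5 G := Sylow.ofCard P (by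
    rw [hPcard, hG]
    have h1 := hdiv5 51840 dvd_rfl
    have h2 : 1 ≤ (51840 : ℕ).factorization 5 :=
      Nat.Prime.factorization_pos_of_dvd (by norm_num) (by norm_num) (by norm_num)
    rw [show (51840 : ℕ).factorization 5 = 1 by omega, pow_one])
  have hn5 := card_sylow_modEq_one 5 G
  rw [P5.card_eq_index_normalizer] at hn5
  have hidx5 : (normalizer (P : Set G)).index * (4 * Nat.card O) = 51840 := by
    rw [← hNcard, index_mul_card, hG]
  have hn5' : (normalizer (P : Set G)).index ≡ 1 [MOD 5] := hn5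
  have h5O : 5 ∣ Nat.card O := by
    rw [← d.ordf, ← Subgroup.orderOf_mk f hfO]; exact orderOf_dvd_natCard _
  obtain ⟨m, hm⟩ := h5O
  have hOdd' : Odd m := by rw [hm] at hOodd; exact (Nat.odd_mul.1 hOodd).2
  rw [hm] at hidx5
  have hm27 : m = 27 := by
    have hp : (normalizer (P : Set G)).index * m = 2592 := by nlinarith
    have hmdvd : m ∣ 81 := by
      have : m ∣ 2 ^ 5 * 81 := Dvd.intro_left (normalizer (P : Set G)).index (by rw [hp]; norm_num)
      exact (Nat.Coprime.pow_right 5 (Nat.coprime_two_right.2 hOdd')).dvd_of_dvd_mul_left this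
    have hle := Nat.le_of_dvd (by norm_num) hmdvd
    obtain ⟨j, hj, rfl⟩ := (Nat.dvd_prime_pow Nat.prime_three).1 (show m ∣ 3 ^ 4 from hmdvd)
    unfold Nat.ModEq at hn5'
    interval_cases j <;> omega
  subst hm27
  -- a subgroup of order 27
  have hR : ∃ R : Subgroup G, Nat.card R = 27 ∧ ∀ x, x ∈ R ↔ x ∈ O ∧ x ^ 27 = 1 := by
    let R₀ : Sylow 3 O := default
    have hR0 : Nat.card (R₀ : Subgroup O) = 27 := by
      rw [R₀.card_eq_multiplicity, hm, show (5 * 27 : ℕ) = 5 * 3 ^ 3 from rfl,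
        Nat.factorization_mul (by norm_num) (by norm_num), Finsupp.add_apply,
        Nat.factorization_eq_zero_of_not_dvd (by norm_num : ¬ 3 ∣ 5),
        Nat.Prime.factorization_pow Nat.prime_three, Finsupp.single_eq_same]
      rfl
    have hn3 := card_sylow_modEq_one 3 O
    have hn3d := R₀.card_dvd_index
    have hidx : (R₀ : Subgroup O).index = 5 := by
      have := (R₀ : Subgroup O).card_mul_index
      rw [hR0, hm] at this
      omega
    rw [hidx] at hn3d
    have h1 : Nat.card (Sylow 3 O) = 1 := by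
      rcases (Nat.dvd_prime (by norm_num)).1 hn3d with h' | h'
      · exact h'
      · rw [h'] at hn3; exact absurd hn3 (by decide)
    refine ⟨(R₀ : Subgroup O).map O.subtype, ?_, fun x => ⟨?_, ?_⟩⟩
    · rw [← hR0]
      exact (Nat.card_congr ((R₀ : Subgroup O).equivMapOfInjective _ (subtype_injective _)).toEquiv).symm
    · rintro ⟨y, hy, rfl⟩
      refine ⟨y.2, ?_⟩
      have hy27 := congrArg Subtype.val (congrArg Subtype.val
        (pow_card_eq_one' (x := (⟨y, hy⟩ : (R₀ : Subgroup O)))))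
      rw [hR0] at hy27
      simpa using hy27
    · rintro ⟨hx, hx27⟩
      refine ⟨⟨x, hx⟩, ?_, rfl⟩
      have hd : orderOf (⟨x, hx⟩ : O) ∣ 3 ^ 3 :=
        orderOf_dvd_of_pow_eq_one (Subtype.ext (by simpa using hx27))
      obtain ⟨j, -, hj⟩ := (Nat.dvd_prime_pow Nat.prime_three).1 hd
      have hp : IsPGroup 3 (zpowers (⟨x, hx⟩ : O)) :=
        IsPGroup.of_card (n := j) (by rw [Nat.card_zpowers, hj])
      obtain ⟨R', hR'⟩ := hp.exists_le_sylow
      haveI : Subsingleton (Sylow 3 O) := (Nat.card_eq_one_iff_unique.1 h1).1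
      exact Subsingleton.elim R' R₀ ▸ hR' (mem_zpowers _)
  obtain ⟨R, hR27, hRmem⟩ := hR
  have hRinv : ∀ u, (∀ x, x ∈ centralizer ({f} : Set G) → u * x * u⁻¹ ∈ centralizer ({f} : Set G)) →
      ∀ x ∈ R, u * x * u⁻¹ ∈ R := fun u hu x hx =>
    (hRmem _).2 ⟨hconjO u hu x ((hRmem x).1 hx).1, by rw [conj_pow, ((hRmem x).1 hx).2]; group⟩
  have hzR : ∀ x ∈ R, z * x * z⁻¹ ∈ R := hRinv z fun x hx =>
    (centralizer ({f} : Set G)).mul_mem ((centralizer ({f} : Set G)).mul_mem hzCf hx)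
      ((centralizer ({f} : Set G)).inv_mem hzCf)
  have hinv : ∀ r ∈ R, z * r * z⁻¹ = r⁻¹ := by
    let φ : R →* R :=
      { toFun := fun x => ⟨z * x * z⁻¹, hzR x x.2⟩
        map_one' := Subtype.ext (by simp)
        map_mul' := fun a b => Subtype.ext (by simp) }
    have hfix : MonoidHom.FixedPointFree φ := by
      intro x hx
      have e : z * (x : G) * z⁻¹ = x := congrArg Subtype.val hx
      have hxD : (x : G) ∈ centralizer ({z} : Set G) ⊓ centralizer ({f} : Set G) :=
        ⟨mem_centralizer_singleton_iff.2 (mul_inv_eq_iff_eq_mul.1 e).symm,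
          ((hOmem _).1 ((hRmem _).1 x.2).1).1⟩
      have h10 := orderOf_dvd_natCard (⟨(x : G), hxD⟩ : ↥(centralizer ({z} : Set G) ⊓ centralizer ({f} : Set G)))
      rw [Subgroup.orderOf_mk, d.cardCf] at h10
      have h27 := orderOf_dvd_of_pow_eq_one ((hRmem _).1 x.2).2
      exact Subtype.ext (orderOf_eq_one_iff.1 (Nat.eq_one_of_dvd_coprimes (by norm_num) h10 h27))
    have hiv : Function.Involutive φ := fun x => Subtype.ext (by
      show z * (z * (x : G) * z⁻¹) * z⁻¹ = x
      rw [show z * (z * (x : G) * z⁻¹) * z⁻¹ = z * z * x * (z * z)⁻¹ by group, hz2]; group)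
    intro r hr
    exact congrArg Subtype.val (congrFun (hfix.coe_eq_inv_of_involutive hiv) ⟨r, hr⟩)
  have hkCf : ∀ x, x ∈ centralizer ({f} : Set G) → k * x * k⁻¹ ∈ centralizer ({f} : Set G) := by
    intro x hx
    rw [mem_centralizer_singleton_iff]
    have h1 : k * (x * f⁻¹) * k⁻¹ = k * (f⁻¹ * x) * k⁻¹ := by
      rw [(Commute.inv_right (mem_centralizer_singleton_iff.1 hx : Commute x f)).eq]
    have e : k * f⁻¹ * k⁻¹ = f := by
      rw [show k * f⁻¹ * k⁻¹ = (k * f * k⁻¹)⁻¹ by group, d.kf, inv_inv]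
    rwa [← conj_mul, ← conj_mul, e] at h1
  have hbound := inverted_bound (k := k) (by rw [hR27]; decide) hinv (hRinv k hkCf) d.k2
  have hsmall : ∀ w : G, IsConj w t → Nat.card ↥(R ⊓ centralizer ({w} : Set G)) ≤ 3 := by
    intro w hw
    obtain ⟨g, hg⟩ := isConj_iff.1 hw
    have h48 : Nat.card (centralizer ({w} : Set G)) = 48 := by
      rw [← hT, ← hg]
      exact Nat.card_congr
        { toFun := fun x => ⟨g * x * g⁻¹, mem_centralizer_singleton_iff.2 (by
            rw [conj_mul, conj_mul, mem_centralizer_singleton_iff.1 x.2])⟩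
          invFun := fun x => ⟨g⁻¹ * x * g, mem_centralizer_singleton_iff.2 (by
            have := mem_centralizer_singleton_iff.1 x.2
            calc g⁻¹ * (x : G) * g * w = g⁻¹ * ((x : G) * (g * w * g⁻¹)) * g := by group
              _ = g⁻¹ * ((g * w * g⁻¹) * x) * g := by rw [this]
              _ = w * (g⁻¹ * x * g) := by group)⟩
          left_inv := fun x => Subtype.ext (by group)
          right_inv := fun x => Subtype.ext (by group) }
    have h1 : Nat.card ↥(R ⊓ centralizer ({w} : Set G)) ∣ Nat.gcd 27 48 :=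
      Nat.dvd_gcd (hR27 ▸ card_dvd_of_le inf_le_left) (h48 ▸ card_dvd_of_le inf_le_right)
    exact Nat.le_of_dvd (by norm_num) h1
  have := Nat.mul_le_mul (hsmall k d.kt) (hsmall (k * z) d.kzt)
  omega

end Cfsg.Agent.H59.HJ
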