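import Cfsg.Agent.H28.BrauerFowler
import Cfsg.Agent.H33.HJPattern
import Cfsg.Agent.H59.HJ.CentralizerZ
import Cfsg.Agent.H59.HJ.ModelCount

/-!
Groups of Hall-Janko type: the facts read off from the model of the involution centraliser.
-/

set_option autoImplicit false
set_option linter.style.haveILetI false
set_option linter.constructorNameAsVariable false

namespace Cfsg.Agent.H59.HJ

open Subgroup

variable {G : Type*} [Group G] [Finite G]

omit [Finite G] in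
theorem orderOf_two {g : G} (h : g * g = 1) (h1 : g ≠ 1) : orderOf g = 2 :=
  orderOf_eq_prime (by rw [pow_two]; exact h) h1

omit [Finite G] in
theorem orderOf_conj (g a : G) : orderOf (g * a * g⁻¹) = orderOf a := by
  rw [show g * a * g⁻¹ = MulAut.conj g a from rfl, MulEquiv.orderOf_eq]

/-- The involution classes and the common centraliser of two commuting involutions `z`, `t` of
different classes. -/
structure Local (z t : G) (E A : Subgroup G) : Prop where
  hz : orderOf z = 2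
  ht : orderOf t = 2
  nc : ¬ IsConj t z
  cases : ∀ x : G, orderOf x = 2 → IsConj x z ∨ IsConj x t
  fuse : ∀ x ∈ centralizer ({z} : Set G), IsConj x t →
    ∃ c ∈ centralizer ({z} : Set G), c * x * c⁻¹ = t
  tz : t ∈ centralizer ({z} : Set G)
  memE : ∀ x, x ∈ E ↔ x ∈ centralizer ({z} : Set G) ∧ x * t = t * x
  cardE : Nat.card E = 16
  sqE : ∀ x ∈ E, x * x = 1
  memA : ∀ x, x ∈ A ↔ x ∈ E ∧ (x = 1 ∨ IsConj x z)
  cardA : Nat.card A = 4
  cardC : Nat.card (centralizer ({z} : Set G)) = 1920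
  countz : Nat.card {p : G × G // IsConj z p.1 ∧ IsConj t p.2 ∧
    z ∈ Subgroup.zpowers (p.1 * p.2)} = 960

variable {z : G} {Φ : Q0 × A5 → G}

namespace Frame

theorem one (F : Frame z Φ) : Φ (0, 1) = 1 := by
  have := F.mul (0, 1) (0, 1)
  rw [(pm_one (0, 1)).1] at this
  exact mul_eq_left.1 this.symm

theorem comm_iff (F : Frame z Φ) (a b : Q0 × A5) :
    Φ a * Φ b = Φ b * Φ a ↔ pm a b = pm b a := by
  rw [← F.mul, ← F.mul]
  exact ⟨fun h => F.inj h, fun h => congrArg Φ h⟩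

theorem sq_iff (F : Frame z Φ) (a : Q0 × A5) : Φ a * Φ a = 1 ↔ pm a a = (0, 1) := by
  rw [← F.mul, ← F.one]
  exact ⟨fun h => F.inj h, fun h => congrArg Φ h⟩

theorem inner_mul (F : Frame z Φ) (x y : Q0) : Φ (x, 1) * Φ (y, 1) = Φ (mulQ x y, 1) := by
  rw [← F.mul, pm, actQ_one, one_mul]

theorem z_two (F : Frame z Φ) : orderOf z = 2 := by
  refine orderOf_two ?_ ?_
  · rw [← F.zmap, F.sq_iff]; decide +kernel
  · rw [← F.zmap, ← F.one]
    exact fun h => absurd (congrArg Prod.fst (F.inj h)) (by decide +kernel)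

/-- The inner involutions are conjugate to `z`. -/
theorem inner_conj (F : Frame z Φ) {x : Q0} (hx : mulQ x x = 0) (hx0 : x ≠ 0) :
    IsConj (Φ (x, 1)) z := by
  have hgen : ∀ i, IsConj (Φ (gen i, 1)) z := by
    intro i
    obtain ⟨σ, hσ⟩ := five_transitive i
    refine IsConj.trans (isConj_iff.2 ⟨Φ (0, σ), ?_⟩).symm F.conjz
    rw [mul_inv_eq_iff_eq_mul, ← F.mul, ← F.mul]
    congr 1
    simp only [pm, actQ_gen, hσ, mul_one, one_mul, actQ_one]
    exact Prod.ext ((mulQ_cancel _).1.trans (by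
      have key : ∀ y : Q0, mulQ y 0 = y := by decide +kernel
      exact (key _).symm)) rfl
  rcases invol_inner x hx with rfl | rfl | ⟨i, rfl | rfl⟩
  · exact absurd rfl hx0
  · rw [F.zmap]
  · exact hgen i
  · obtain ⟨q, hq⟩ := gen_conj i
    refine IsConj.trans (isConj_iff.2 ⟨Φ (q, 1), ?_⟩).symm (hgen i)
    rw [mul_inv_eq_iff_eq_mul, F.inner_mul, F.inner_mul, hq]

/-- The outer involutions are conjugate in the centraliser. -/
theorem outer_conj (F : Frame z Φ) {a : Q0 × A5} (ha : pm a a = (0, 1)) (h1 : a.2 ≠ 1) :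
    ∃ c ∈ centralizer ({z} : Set G), c * Φ a * c⁻¹ = Φ (0, sig0) := by
  obtain ⟨x, σ⟩ := a
  obtain ⟨τ, -, y, hy⟩ := invol_outer σ (congrArg Prod.snd ha) h1 x (congrArg Prod.fst ha)
  refine ⟨Φ (y, τ), (F.range _).2 ⟨_, rfl⟩, ?_⟩
  rw [mul_inv_eq_iff_eq_mul, ← F.mul, ← F.mul, hy]

theorem sylow_conj (F : Frame z Φ) {x : G} (hx : orderOf x = 2) :
    ∃ a : Q0 × A5, IsConj x (Φ a) ∧ pm a a = (0, 1) ∧ a ≠ (0, 1) := by
  haveI : Fact (Nat.Prime 2) := ⟨Nat.prime_two⟩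
  obtain ⟨S, hS⟩ := F.sylow
  have hP : IsPGroup 2 (zpowers x) :=
    IsPGroup.of_card (n := 1) (by rw [Nat.card_zpowers, hx, pow_one])
  obtain ⟨T, hT⟩ := hP.exists_le_sylow
  obtain ⟨g, hg⟩ := MulAction.exists_smul_eq G T S
  obtain ⟨a, ha⟩ := (F.range _).1 (hS (hg ▸ ⟨x, hT (mem_zpowers x), rfl⟩ :
    g * x * g⁻¹ ∈ (S : Subgroup G)))
  have hy : orderOf (Φ a) = 2 := by rw [ha, orderOf_conj, hx]
  refine ⟨a, isConj_iff.2 ⟨g, ha.symm⟩, ?_, fun h => ?_⟩
  · rw [← F.sq_iff, ← pow_two, ← hy, pow_orderOf_eq_one]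
  · rw [h, F.one] at hy; simp at hy

theorem class_cases (F : Frame z Φ) {x : G} (hx : orderOf x = 2) :
    IsConj x z ∨ IsConj x (Φ (0, sig0)) := by
  obtain ⟨⟨y, σ⟩, hc, hsq, hne⟩ := F.sylow_conj hx
  by_cases hσ : σ = 1
  · subst hσ
    refine Or.inl (hc.trans (F.inner_conj ?_ fun h => hne (by rw [h])))
    have := congrArg Prod.fst hsq
    simpa [pm, actQ_one] using this
  · obtain ⟨c, -, hc'⟩ := F.outer_conj hsq hσ
    exact Or.inr (hc.trans (isConj_iff.2 ⟨c, hc'⟩))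

theorem not_conj (F : Frame z Φ) : ¬ IsConj (Φ (0, sig0)) z := by
  intro h
  obtain ⟨x, y, hx, hy, hxy⟩ := F.cl
  have key : ∀ w : G, orderOf w = 2 → IsConj w z := fun w hw =>
    (F.class_cases hw).elim id fun h' => h'.trans h
  exact hxy ((key x hx).trans (key y hy).symm)

theorem outer_iff (F : Frame z Φ) {a : Q0 × A5} (ha : pm a a = (0, 1)) :
    IsConj (Φ a) (Φ (0, sig0)) ↔ a.2 ≠ 1 := by
  refine ⟨fun hc h1 => ?_, fun h1 => ?_⟩
  · obtain ⟨x, σ⟩ := a
    subst h1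
    have hx : mulQ x x = 0 := by simpa [pm, actQ_one] using congrArg Prod.fst ha
    by_cases hx0 : x = 0
    · subst hx0
      rw [F.one, isConj_one_right, ← F.one] at hc
      exact absurd (congrArg Prod.snd (F.inj hc)) (by decide +kernel)
    · exact F.not_conj (hc.symm.trans (F.inner_conj hx hx0))
  · obtain ⟨c, -, hc'⟩ := F.outer_conj ha h1
    exact isConj_iff.2 ⟨c, hc'⟩

theorem inner_iff (F : Frame z Φ) {a : Q0 × A5} (ha : pm a a = (0, 1)) :
    (a = (0, 1) ∨ IsConj (Φ a) z) ↔ a.2 = 1 := by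
  refine ⟨?_, fun h1 => ?_⟩
  · rintro (rfl | h)
    · rfl
    · by_contra h1
      exact F.not_conj (((F.outer_iff ha).2 h1).symm.trans h)
  · obtain ⟨x, σ⟩ := a
    subst h1
    by_cases hx0 : x = 0
    · exact Or.inl (by rw [hx0])
    · exact Or.inr (F.inner_conj (by simpa [pm, actQ_one] using congrArg Prod.fst ha) hx0)

theorem ppow_map (F : Frame z Φ) (a : Q0 × A5) (n : ℕ) : Φ (ppow a n) = Φ a ^ n := by
  induction n with
  | zero => rw [ppow, F.one, pow_zero]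
  | succ n ih => rw [ppow, F.mul, ih, pow_succ]

theorem countz (F : Frame z Φ) : Nat.card {p : G × G // IsConj z p.1 ∧ IsConj (Φ (0, sig0)) p.2 ∧
    z ∈ Subgroup.zpowers (p.1 * p.2)} = 960 := by
  classical
  rw [← count_pairs]
  rw [← Fintype.card_coe, ← Nat.card_eq_fintype_card]
  symm
  refine Nat.card_congr (Equiv.ofBijective (fun p => ⟨(Φ p.1.1, Φ p.1.2), ?_⟩) ⟨?_, ?_⟩)
  · obtain ⟨⟨a, b⟩, hp⟩ := p
    simp only [Finset.mem_filter, Finset.mem_product, Finset.mem_univ, true_and] at hp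
    obtain ⟨⟨⟨ha1, ha2, ha3⟩, hb1, hb2⟩, k, hk⟩ := hp
    obtain ⟨x, σ⟩ := a
    dsimp only at ha1 ha2 ha3
    subst ha1
    refine ⟨(F.inner_conj ha2 ha3).symm, ((F.outer_iff hb2).2 hb1).symm, ?_⟩
    refine ⟨((k : ℕ) : ℤ), ?_⟩
    show (Φ (x, 1) * Φ b) ^ ((k : ℕ) : ℤ) = z
    rw [zpow_natCast, ← F.mul, ← F.ppow_map, hk, F.zmap]
  · intro p q h
    simp only [Subtype.mk.injEq, Prod.mk.injEq] at h
    exact Subtype.ext (Prod.ext (F.inj h.1) (F.inj h.2))
  · rintro ⟨⟨u, v⟩, hu, hv, hmem⟩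
    dsimp only at hu hv hmem
    have hu2 : orderOf u = 2 := by
      obtain ⟨g, hg⟩ := isConj_iff.1 hu; rw [← hg, orderOf_conj, F.z_two]
    have hv2 : orderOf v = 2 := by
      obtain ⟨g, hg⟩ := isConj_iff.1 hv
      rw [← hg, orderOf_conj]
      refine orderOf_two ((F.sq_iff _).2 (by decide +kernel)) fun h => ?_
      rw [← F.one] at h
      exact absurd (congrArg Prod.snd (F.inj h)) (by decide +kernel)
    have hu1 : u * u = 1 := by rw [← pow_two, ← hu2, pow_orderOf_eq_one]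
    have hv1 : v * v = 1 := by rw [← pow_two, ← hv2, pow_orderOf_eq_one]
    have hz1 : z * z = 1 := by rw [← pow_two, ← F.z_two, pow_orderOf_eq_one]
    obtain ⟨huC, hvC⟩ := H33.HJ.mem_centralizer_of_zpowers hu1 hv1 hz1 hmem
    obtain ⟨a, rfl⟩ := (F.range _).1 huC
    obtain ⟨b, rfl⟩ := (F.range _).1 hvC
    have ha := (F.sq_iff a).1 hu1
    have hb := (F.sq_iff b).1 hv1
    have ha1 : a.2 = 1 := (F.inner_iff ha).1 (Or.inr hu.symm)
    have hb1 : b.2 ≠ 1 := (F.outer_iff hb).1 hv.symm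
    obtain ⟨k, hk⟩ : ∃ k : Fin 13, ppow (pm a b) k = (zQ, 1) := by
      obtain ⟨m, hm⟩ := ppow_period (pm a b)
      rw [← F.mul] at hmem
      obtain ⟨j, hj⟩ := mem_powers_iff_mem_zpowers.2 hmem
      have hlt : j % ((m : ℕ) + 1) < 13 := by
        have := Nat.mod_lt j (Nat.succ_pos (m : ℕ))
        have := m.isLt
        rw [Nat.succ_eq_add_one] at *
        omega
      refine ⟨⟨j % ((m : ℕ) + 1), hlt⟩, F.inj ?_⟩
      rw [F.ppow_map, F.zmap, ← hj]
      show Φ (pm a b) ^ (j % ((m : ℕ) + 1)) = Φ (pm a b) ^ j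
      have e : Φ (pm a b) ^ ((m : ℕ) + 1) = 1 := by rw [← F.ppow_map, hm, F.one]
      conv_rhs => rw [← Nat.mod_add_div j ((m : ℕ) + 1), pow_add, pow_mul, e, one_pow, mul_one]
    obtain ⟨x, σ⟩ := a
    dsimp only at ha1
    subst ha1
    refine ⟨⟨((x, 1), b), ?_⟩, rfl⟩
    simp only [Finset.mem_filter, Finset.mem_product, Finset.mem_univ, true_and]
    refine ⟨⟨⟨by simpa [pm, actQ_one] using congrArg Prod.fst ha, fun h => ?_⟩, hb1, hb⟩, k, hk⟩
    subst h
    rw [F.one] at hu2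
    simp at hu2

end Frame

theorem exists_local (F : Frame z Φ) : ∃ t E A, Local z t E A := by
  classical
  set t := Φ (0, sig0) with htdef
  have hst : pm ((0, sig0) : Q0 × A5) (0, sig0) = (0, 1) := by decide +kernel
  have ht : orderOf t = 2 := by
    refine orderOf_two ((F.sq_iff _).2 hst) fun h => ?_
    rw [htdef, ← F.one] at h
    exact absurd (congrArg Prod.snd (F.inj h)) (by decide +kernel)
  let E : Subgroup G := centralizer ({z} : Set G) ⊓ centralizer ({t} : Set G)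
  have memE : ∀ x, x ∈ E ↔ x ∈ centralizer ({z} : Set G) ∧ x * t = t * x := fun x =>
    and_congr_right fun _ => mem_centralizer_singleton_iff
  have hE : ∀ a, Φ a ∈ E ↔ pm (0, sig0) a = pm a (0, sig0) := fun a => by
    rw [memE, F.comm_iff]
    exact ⟨fun h => h.2.symm, fun h => ⟨(F.range _).2 ⟨a, rfl⟩, h.symm⟩⟩
  let A : Subgroup G :=
    { carrier := {g | g ∈ E ∧ ∃ x : Q0, Φ (x, 1) = g}
      one_mem' := ⟨E.one_mem, 0, F.one⟩
      mul_mem' := fun {g g'} hg hg' => by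
        obtain ⟨hgE, x, rfl⟩ := hg
        obtain ⟨hgE', y, rfl⟩ := hg'
        exact ⟨E.mul_mem hgE hgE', _, (F.inner_mul x y).symm⟩
      inv_mem' := fun {g} hg => by
        obtain ⟨hgE, x, rfl⟩ := hg
        obtain ⟨y, hy⟩ := (mulQ_cancel x).2
        exact ⟨E.inv_mem hgE, y, by rw [eq_inv_iff_mul_eq_one, F.inner_mul, hy, F.one]⟩ }
  refine ⟨t, E, A, ⟨F.z_two, ht, F.not_conj, fun x hx => F.class_cases hx, ?_,
    (F.range _).2 ⟨_, rfl⟩, memE, ?_, ?_, ?_, ?_, ?_, F.countz⟩⟩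
  · intro x hx hxt
    obtain ⟨a, rfl⟩ := (F.range _).1 hx
    have hsq : pm a a = (0, 1) := by
      rw [← F.sq_iff, ← pow_two]
      obtain ⟨g, hg⟩ := isConj_iff.1 hxt.symm
      rw [← hg, conj_pow, ← ht, pow_orderOf_eq_one]; group
    exact F.outer_conj hsq ((F.outer_iff hsq).1 hxt)
  · rw [← cent_invol_card.1, ← Fintype.card_coe, ← Nat.card_eq_fintype_card]
    symm
    refine Nat.card_congr (Equiv.ofBijective (fun a => ⟨Φ a.1, (hE _).2 (Finset.mem_filter.1 a.2).2⟩)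
      ⟨fun a b h => Subtype.ext (F.inj (congrArg Subtype.val h)), fun g => ?_⟩)
    obtain ⟨a, ha⟩ := (F.range g.1).1 ((memE _).1 g.2).1
    exact ⟨⟨a, Finset.mem_filter.2 ⟨Finset.mem_univ _, (hE _).1 (ha ▸ g.2)⟩⟩, Subtype.ext ha⟩
  · intro x hx
    obtain ⟨a, rfl⟩ := (F.range x).1 ((memE _).1 hx).1
    exact (F.sq_iff a).2 (cent_invol a ((hE a).1 hx))
  · intro g
    constructor
    · rintro ⟨hgE, x, rfl⟩
      refine ⟨hgE, ?_⟩
      by_cases hx : x = 0
      · exact Or.inl (by rw [hx, F.one])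
      · exact Or.inr (F.inner_conj (cent_inner_sq x ((hE _).1 hgE)) hx)
    · rintro ⟨hgE, hg⟩
      refine ⟨hgE, ?_⟩
      obtain ⟨⟨x, σ⟩, rfl⟩ := (F.range g).1 ((memE _).1 hgE).1
      have hsq := cent_invol _ ((hE _).1 hgE)
      have : σ = 1 := (F.inner_iff hsq).1 (hg.imp (fun h => F.inj (h.trans F.one.symm)) id)
      exact ⟨x, by rw [this]⟩
  · rw [← cent_invol_card.2, ← Fintype.card_coe, ← Nat.card_eq_fintype_card]
    symm
    refine Nat.card_congr (Equiv.ofBijective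
      (fun x => ⟨Φ (x.1, 1), (hE _).2 (Finset.mem_filter.1 x.2).2, x.1, rfl⟩)
      ⟨fun a b h => Subtype.ext (congrArg Prod.fst (F.inj (congrArg Subtype.val h))), fun g => ?_⟩)
    obtain ⟨hgE, x, hx⟩ := g.2
    exact ⟨⟨x, Finset.mem_filter.2 ⟨Finset.mem_univ _, (hE _).1 (hx ▸ hgE)⟩⟩, Subtype.ext hx⟩
  · have hb : Function.Bijective (fun a : Q0 × A5 =>
        (⟨Φ a, (F.range _).2 ⟨a, rfl⟩⟩ : centralizer ({z} : Set G))) :=
      ⟨fun a b h => F.inj (congrArg Subtype.val h),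
        fun g => ((F.range g.1).1 g.2).imp fun a ha => Subtype.ext ha⟩
    rw [← Nat.card_congr (Equiv.ofBijective _ hb), Nat.card_prod, card_A5, Nat.card_eq_fintype_card,
      Fintype.card_fin]

end Cfsg.Agent.H59.HJ
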