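import Mathlib

/-!
A computational model of the split extension of the extraspecial group of order `32` of minus type
by the alternating group of degree five (the involution centraliser of the Hall-Janko group).
An element of the extraspecial group is coded by its four exponents and the exponent of the
centre; the five involutions `e i` multiply to one and pairwise do not commute.
-/

set_option autoImplicit false

namespace Cfsg.Agent.H59.HJ

/-- The alternating group of degree five. -/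
abbrev A5 := ↥(alternatingGroup (Fin 5))

/-- Codes of the elements of the extraspecial group. -/
abbrev Q0 := Fin 32

/-- The `i`-th exponent of a code. -/
def bit (x : Q0) (i : ℕ) : ℕ := x.val / 2 ^ i % 2

/-- The commutation cocycle. -/
def beta (x y : Q0) : ℕ :=
  bit x 1 * bit y 0 + bit x 2 * (bit y 0 + bit y 1) + bit x 3 * (bit y 0 + bit y 1 + bit y 2)

/-- The product of two codes. -/
def mulQ (x y : Q0) : Q0 :=
  Fin.ofNat 32 ((bit x 0 + bit y 0) % 2 + 2 * ((bit x 1 + bit y 1) % 2) +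
    4 * ((bit x 2 + bit y 2) % 2) + 8 * ((bit x 3 + bit y 3) % 2) +
    16 * ((bit x 4 + bit y 4 + beta x y) % 2))

/-- The five involutions. -/
def gen : Fin 5 → Q0 := ![1, 2, 4, 8, 15]

/-- The central involution. -/
def zQ : Q0 := 16

/-- Multiply on the right by `g` if the exponent is one. -/
def stepQ (e : ℕ) (g : Q0) (x : Q0) : Q0 := if e = 0 then x else mulQ x g

/-- The automorphism attached to a permutation of the five involutions. -/
def actQ (σ : A5) (x : Q0) : Q0 :=
  stepQ (bit x 4) zQ (stepQ (bit x 3) (gen ((σ : Equiv.Perm (Fin 5)) 3))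
    (stepQ (bit x 2) (gen ((σ : Equiv.Perm (Fin 5)) 2))
      (stepQ (bit x 1) (gen ((σ : Equiv.Perm (Fin 5)) 1))
        (stepQ (bit x 0) (gen ((σ : Equiv.Perm (Fin 5)) 0)) 0))))

/-- The product in the split extension. -/
def pm (a b : Q0 × A5) : Q0 × A5 := (mulQ a.1 (actQ a.2 b.1), a.2 * b.2)

def sig0 : A5 := ⟨Equiv.swap 0 1 * Equiv.swap 2 3, Equiv.Perm.mem_alternatingGroup.2 (by decide +kernel)⟩

def sigH : A5 := ⟨Equiv.swap 0 1 * Equiv.swap 1 2, Equiv.Perm.mem_alternatingGroup.2 (by decide +kernel)⟩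

def sigF : A5 := ⟨Equiv.swap 0 1 * Equiv.swap 1 2 * Equiv.swap 2 3 * Equiv.swap 3 4, Equiv.Perm.mem_alternatingGroup.2 (by decide +kernel)⟩

theorem step_all : ∀ x y : Q0,
    stepQ (bit y 4) zQ (stepQ (bit y 3) (gen 3) (stepQ (bit y 2) (gen 2)
      (stepQ (bit y 1) (gen 1) (stepQ (bit y 0) (gen 0) x)))) = mulQ x y := by decide +kernel

theorem bit_inj : ∀ x y : Q0, bit x 0 = bit y 0 → bit x 1 = bit y 1 → bit x 2 = bit y 2 →
    bit x 3 = bit y 3 → bit x 4 = bit y 4 → x = y := by decide +kernel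

theorem bit_lt : ∀ x : Q0, bit x 0 < 2 ∧ bit x 1 < 2 ∧ bit x 2 < 2 ∧ bit x 3 < 2 ∧ bit x 4 < 2 := by
  decide +kernel

theorem actQ_one : ∀ x : Q0, actQ 1 x = x := by decide +kernel

theorem mulQ_cancel : ∀ x : Q0, mulQ 0 x = x ∧ ∃ y, mulQ y x = 0 := by decide +kernel

theorem center_iff : ∀ x : Q0, (∀ i : Fin 4, mulQ x (gen i.castSucc) = mulQ (gen i.castSucc) x) ↔
    (x = 0 ∨ x = zQ) := by decide +kernel

theorem sign_pattern : ∀ e : Fin 4 → Bool, ∃ x : Q0, ∀ i : Fin 4,
    mulQ x (gen i.castSucc) =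
      mulQ (if e i then mulQ (gen i.castSucc) zQ else gen i.castSucc) x := by decide +kernel

theorem square_cases : ∀ x : Q0, mulQ x x = 0 ∨ mulQ x x = zQ := by decide +kernel

theorem commutator_cases : ∀ x y : Q0, mulQ x y = mulQ y x ∨ mulQ x y = mulQ zQ (mulQ y x) := by
  decide +kernel

/-- The involutions of the extraspecial group. -/
theorem invol_inner : ∀ x : Q0, mulQ x x = 0 →
    x = 0 ∨ x = zQ ∨ ∃ i : Fin 5, x = gen i ∨ x = mulQ (gen i) zQ := by decide +kernel

theorem gen_conj : ∀ i : Fin 5, ∃ q : Q0, mulQ q (gen i) = mulQ (mulQ (gen i) zQ) q := by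
  decide +kernel

theorem five_transitive : ∀ i : Fin 5, ∃ σ : A5, (σ : Equiv.Perm (Fin 5)) 0 = i := by
  decide +kernel

/-- If an involution lifts to an element of square `z`, the square is always `z`. -/
theorem invol_square : ∀ σ : A5, σ * σ = 1 → σ ≠ 1 → ∀ x : Q0,
    mulQ (actQ σ x) x ≠ zQ := by decide +kernel

/-- All outer involutions are conjugate. -/
theorem invol_outer : ∀ σ : A5, σ * σ = 1 → σ ≠ 1 → ∀ x : Q0, mulQ x (actQ σ x) = 0 →
    ∃ τ : A5, τ * σ = sig0 * τ ∧ ∃ y : Q0, pm (y, τ) (x, σ) = pm (0, sig0) (y, τ) := by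
  decide +kernel

/-- The centraliser of the outer involution is elementary abelian. -/
theorem cent_invol : ∀ b : Q0 × A5, pm (0, sig0) b = pm b (0, sig0) → pm b b = (0, 1) := by
  decide +kernel

theorem cent_invol_card :
    ((Finset.univ : Finset (Q0 × A5)).filter fun b => pm (0, sig0) b = pm b (0, sig0)).card = 16 ∧
    ((Finset.univ : Finset Q0).filter fun x => pm (0, sig0) (x, 1) = pm (x, 1) (0, sig0)).card = 4 := by
  decide +kernel

theorem cent_three_card :
    ((Finset.univ : Finset (Q0 × A5)).filter fun b => pm (0, sigH) b = pm b (0, sigH)).card = 24 := by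
  decide +kernel

theorem cent_three_nonabelian : ∃ x y : Q0, actQ sigH x = x ∧ actQ sigH y = y ∧
    mulQ x y ≠ mulQ y x := by decide +kernel

theorem three_inverted : ∃ τ : A5, τ * sigH = sigH * sigH * τ := by decide +kernel

theorem cent_five_card :
    ((Finset.univ : Finset (Q0 × A5)).filter fun b => pm (0, sigF) b = pm b (0, sigF)).card = 10 := by
  decide +kernel

theorem five_inverted : ∃ τ : A5, τ * τ = 1 ∧ τ ≠ 1 ∧ τ * sigF * τ = sigF⁻¹ := by decide +kernel

theorem five_not_squared : ∀ τ : A5, τ * sigF ≠ sigF * sigF * τ := by decide +kernel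

/-- The automorphism sends the fifth involution to the fifth image. -/
theorem actQ_gen : ∀ σ : A5, ∀ i : Fin 5, actQ σ (gen i) = gen ((σ : Equiv.Perm (Fin 5)) i) := by
  decide +kernel

theorem gen_bits : ∀ x : Q0,
    mulQ x (gen 0) = Fin.ofNat 32 ((1 - bit x 0) + 2 * bit x 1 + 4 * bit x 2 + 8 * bit x 3 +
      16 * ((bit x 4 + bit x 1 + bit x 2 + bit x 3) % 2)) ∧
    mulQ x (gen 1) = Fin.ofNat 32 (bit x 0 + 2 * (1 - bit x 1) + 4 * bit x 2 + 8 * bit x 3 +
      16 * ((bit x 4 + bit x 2 + bit x 3) % 2)) ∧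
    mulQ x (gen 2) = Fin.ofNat 32 (bit x 0 + 2 * bit x 1 + 4 * (1 - bit x 2) + 8 * bit x 3 +
      16 * ((bit x 4 + bit x 3) % 2)) ∧
    mulQ x (gen 3) = Fin.ofNat 32 (bit x 0 + 2 * bit x 1 + 4 * bit x 2 + 8 * (1 - bit x 3) +
      16 * bit x 4) ∧
    mulQ x zQ = Fin.ofNat 32 (bit x 0 + 2 * bit x 1 + 4 * bit x 2 + 8 * bit x 3 +
      16 * (1 - bit x 4)) := by decide +kernel

theorem invol_conj : ∀ σ : A5, σ * σ = 1 → σ ≠ 1 → ∃ τ : A5, τ * sig0 = σ * τ := by decide +kernel

theorem cent_sig0 : ∀ σ : A5, σ * sig0 = sig0 * σ → σ * σ = 1 := by decide +kernel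

theorem cent_sig0_card : Nat.card {σ : A5 // σ * sig0 = sig0 * σ} = 4 := by
  rw [Nat.card_eq_fintype_card]; decide +kernel

theorem card_A5 : Nat.card A5 = 60 := by rw [Nat.card_eq_fintype_card]; decide +kernel

end Cfsg.Agent.H59.HJ
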