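import Cfsg.Agent.H59.HJ.Main
import Cfsg.Agent.H19.Cores
import Cfsg.Agent.H72.PCore

/-!
Groups of Hall-Janko type: the normaliser of the four-group in the centraliser of `t`.
-/

set_option autoImplicit false
set_option linter.style.haveILetI false
set_option linter.constructorNameAsVariable false

namespace Cfsg.Agent.H59.HJ

open Subgroup

variable {G : Type*} [Group G] [Finite G] {z t : G} {E A B W : Subgroup G}

omit [Finite G] in
/-- Orbit-stabiliser for conjugation by the elements of a subgroup. -/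
theorem card_orbit {N K : Subgroup G} {a : G} {S : Set G} (hKN : K ≤ N)
    (hK : ∀ g ∈ N, g ∈ K ↔ g * a * g⁻¹ = a) (hS : ∀ x, x ∈ S ↔ ∃ g ∈ N, g * a * g⁻¹ = x) :
    Nat.card N = S.ncard * Nat.card K := by
  let φ : N → S := fun g => ⟨g * a * (g : G)⁻¹, (hS _).2 ⟨g, g.2, rfl⟩⟩
  have hker : ∀ g g' : N, φ g = φ g' ↔ g⁻¹ * g' ∈ K.subgroupOf N := by
    intro g g'
    rw [mem_subgroupOf, hK _ (g⁻¹ * g').2]
    simp only [φ, Subtype.mk.injEq, Subgroup.coe_mul, InvMemClass.coe_inv]
    refine ⟨fun e => ?_, fun e => ?_⟩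
    · rw [mul_inv_rev, inv_inv, show (g : G)⁻¹ * g' * a * ((g' : G)⁻¹ * g) =
        (g : G)⁻¹ * (g' * a * (g' : G)⁻¹) * g by group, ← e]
      group
    · nth_rewrite 1 [← e]
      group
  let ψ : N ⧸ K.subgroupOf N → S :=
    Quotient.lift φ fun g g' e => (hker g g').2 (QuotientGroup.leftRel_apply.1 e)
  have hψ : Function.Bijective ψ := by
    refine ⟨fun p q => ?_, fun x => ?_⟩
    · induction p using QuotientGroup.induction_on with | H g =>
      induction q using QuotientGroup.induction_on with | H g' =>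
      exact fun e => QuotientGroup.eq.2 ((hker g g').1 e)
    · obtain ⟨g, hg, hga⟩ := (hS x.1).1 x.2
      exact ⟨((⟨g, hg⟩ : N) : N ⧸ K.subgroupOf N), Subtype.ext hga⟩
  rw [← (K.subgroupOf N).index_mul_card, Nat.card_congr (subgroupOfEquivOfLe hKN).toEquiv,
    Subgroup.index, Nat.card_congr (Equiv.ofBijective ψ hψ), Nat.card_coe_set_eq]

omit [Finite G] in
theorem card_centralizer_conj (g a : G) :
    Nat.card (centralizer ({g * a * g⁻¹} : Set G)) = Nat.card (centralizer ({a} : Set G)) := by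
  refine Nat.card_congr
    { toFun := fun x => ⟨g⁻¹ * x * g, mem_centralizer_singleton_iff.2 ?_⟩
      invFun := fun x => ⟨g * x * g⁻¹, mem_centralizer_singleton_iff.2 (by
        rw [conj_mul, conj_mul, mem_centralizer_singleton_iff.1 x.2])⟩
      left_inv := fun x => Subtype.ext (by group)
      right_inv := fun x => Subtype.ext (by group) }
  have := mem_centralizer_singleton_iff.1 x.2
  calc g⁻¹ * (x : G) * g * a = g⁻¹ * ((x : G) * (g * a * g⁻¹)) * g := by group
    _ = g⁻¹ * ((g * a * g⁻¹) * x) * g := by rw [this]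
    _ = a * (g⁻¹ * x * g) := by group

namespace Split

variable (s : Split z t E A B W)
include s

omit [Finite G] in
theorem W_le : W ≤ centralizer ({t} : Set G) := s.idp.1

omit [Finite G] in
theorem B_le : B ≤ centralizer ({t} : Set G) := s.idp.2.1

omit [Finite G] in
theorem comm {w b : G} (hw : w ∈ W) (hb : b ∈ B) : w * b = b * w := s.idp.2.2.1 w hw b hb

omit [Finite G] in
theorem disj : W ⊓ B = ⊥ := s.idp.2.2.2.1

omit [Finite G] in
theorem W_conj_t {w : G} (hw : w ∈ W) (hw1 : w ≠ 1) : IsConj w t := by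
  refine s.outB w (s.W_le hw) (orderOf_two (s.sqW w hw) hw1) fun hB => hw1 ?_
  have : w ∈ W ⊓ B := ⟨hw, hB⟩
  rwa [s.disj, mem_bot] at this

/-- The elements moving `t` into `W` normalise the centraliser of `t`. -/
theorem conj_T {g : G} (hg : g * t * g⁻¹ ∈ W) {x : G} (hx : x ∈ centralizer ({t} : Set G)) :
    g * x * g⁻¹ ∈ centralizer ({t} : Set G) := by
  have hle : centralizer ({t} : Set G) ≤ centralizer ({g * t * g⁻¹} : Set G) := fun y hy =>
    mem_centralizer_singleton_iff.2 (((s.memW _).1 hg).2 y hy)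
  rw [eq_of_le_of_card_ge hle (card_centralizer_conj g t).le, mem_centralizer_singleton_iff,
    conj_mul, conj_mul, mem_centralizer_singleton_iff.1 hx]

theorem conj_W {g : G} (hg : g * t * g⁻¹ ∈ W) {w : G} (hw : w ∈ W) : g * w * g⁻¹ ∈ W := by
  refine (s.memW _).2 ⟨s.conj_T hg (s.W_le hw), fun y hy => ?_⟩
  have hinj : Function.Injective (fun x : centralizer ({t} : Set G) =>
      (⟨g * x * g⁻¹, s.conj_T hg x.2⟩ : centralizer ({t} : Set G))) := fun p q e =>
    Subtype.ext (mul_left_cancel (mul_right_cancel (congrArg Subtype.val e)))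
  obtain ⟨x, hx⟩ := Finite.injective_iff_surjective.1 hinj ⟨y, hy⟩
  rw [← show g * (x : G) * g⁻¹ = y from congrArg Subtype.val hx, conj_mul, conj_mul,
    ((s.memW w).1 hw).2 x x.2]

theorem mem_normalizer_W {g : G} : g ∈ normalizer (W : Set G) ↔ g * t * g⁻¹ ∈ W :=
  ⟨fun hg => (mem_normalizer_iff.1 hg t).1 s.tW,
    fun hg => mem_normalizer_fintype fun _ hw => s.conj_W hg hw⟩

theorem T_le_N : centralizer ({t} : Set G) ≤ normalizer (W : Set G) := fun x hx => by
  rw [s.mem_normalizer_W, mem_centralizer_singleton_iff.1 hx, mul_inv_cancel_right]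
  exact s.tW

theorem conj_B {g : G} (hg : g ∈ normalizer (W : Set G)) {x : G} (hx : x ∈ B) : g * x * g⁻¹ ∈ B :=
  s.conjB g (fun _ hy => s.conj_T (s.mem_normalizer_W.1 hg) hy) x hx

theorem card_N : Nat.card (normalizer (W : Set G)) = 720 := by
  rw [card_orbit (a := t) (S := (W : Set G) \ {1}) s.T_le_N, s.cardT,
    Set.ncard_sdiff (by simpa using W.one_mem), Set.ncard_singleton, ← Nat.card_coe_set_eq,
    SetLike.coe_sort_coe, s.cardW]
  · exact fun g _ => by rw [mem_centralizer_singleton_iff, mul_inv_eq_iff_eq_mul]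
  · intro x
    refine ⟨fun hx => ?_, ?_⟩
    · obtain ⟨g, hg⟩ := isConj_iff.1 (s.W_conj_t hx.1 hx.2).symm
      exact ⟨g, s.mem_normalizer_W.2 (hg ▸ hx.1), hg⟩
    · rintro ⟨g, hg, rfl⟩
      refine ⟨s.mem_normalizer_W.1 hg, fun e => ?_⟩
      have ht1 : t = 1 := conj_eq_one_iff.1 e
      haveI : Nontrivial W := Finite.one_lt_card_iff_nontrivial.1 (by rw [s.cardW]; norm_num)
      obtain ⟨⟨w, hw⟩, hw1⟩ := exists_ne (1 : W)
      have hc := s.W_conj_t hw fun e' => hw1 (Subtype.ext e')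
      rw [ht1, isConj_one_left] at hc
      exact hw1 (Subtype.ext hc)

omit [Finite G] in
theorem card_B : Nat.card B = 60 := by
  obtain ⟨e⟩ := s.alt
  exact iso_card e

omit [Finite G] in
theorem conj_in_B {y y' : G} (hy : y ∈ B) (hy2 : orderOf y = 2) (hy' : y' ∈ B) (hy'2 : orderOf y' = 2) :
    ∃ c ∈ B, c * y * c⁻¹ = y' := by
  obtain ⟨e⟩ := s.alt
  have hsq : ∀ {v : B}, orderOf (v : G) = 2 → v * v = 1 ∧ v ≠ 1 := fun {v} hv =>
    ⟨Subtype.ext (by rw [Subgroup.coe_mul, ← pow_two, ← hv, pow_orderOf_eq_one, Subgroup.coe_one]),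
      fun e' => by rw [e'] at hv; simp at hv⟩
  obtain ⟨h1, h1'⟩ := hsq (v := ⟨y, hy⟩) hy2
  obtain ⟨h2, h2'⟩ := hsq (v := ⟨y', hy'⟩) hy'2
  obtain ⟨c, hc⟩ := iso_invol e h1 h1' h2 h2'
  exact ⟨c, c.2, congrArg Subtype.val hc⟩

omit [Finite G] in
theorem center_B {x : G} (hx : x ∈ B) (h : ∀ y ∈ B, y * x = x * y) : x = 1 := by
  obtain ⟨e⟩ := s.alt
  exact congrArg Subtype.val (iso_center e (x := ⟨x, hx⟩) fun y => Subtype.ext (h y y.2))

variable (h : Local z t E A)
include h

theorem inf_Cz : B ⊓ centralizer ({z} : Set G) = A := by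
  refine le_antisymm (fun x hx => ?_) fun a ha => ⟨s.AB ha, mem_centralizer_singleton_iff.2
    (h.commE (h.A_le ha) (h.A_le h.z_mem))⟩
  exact s.infE.le ⟨hx.1, (h.inf_centralizer h.z_mem h.z_ne).le ⟨s.B_le hx.1, hx.2⟩⟩

/-- An element of order three in the normaliser of `W` centralising `B`. -/
theorem exists_outer : ∃ g, orderOf g = 3 ∧ g ∈ normalizer (W : Set G) ∧
    g ∉ centralizer ({t} : Set G) ∧ g ∈ centralizer ({z} : Set G) ∧ ∀ y ∈ B, g * y = y * g := by
  classical
  have hzB := s.AB h.z_mem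
  let Nz := normalizer (W : Set G) ⊓ centralizer ({z} : Set G)
  -- the orbit of `z`
  let S : Set G := {x | x ∈ B ∧ orderOf x = 2}
  have hB : Nat.card B = S.ncard * Nat.card A := by
    refine card_orbit (a := z) s.AB (fun g hg => ?_) fun x => ⟨fun hx => ?_, ?_⟩
    · rw [mul_inv_eq_iff_eq_mul, ← mem_centralizer_singleton_iff, ← s.inf_Cz h, mem_inf]
      exact and_iff_right hg
    · exact s.conj_in_B hzB h.hz hx.1 hx.2
    · rintro ⟨g, hg, rfl⟩
      exact ⟨B.mul_mem (B.mul_mem hg hzB) (B.inv_mem hg), by rw [orderOf_conj, h.hz]⟩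
  have hN : Nat.card (normalizer (W : Set G)) = S.ncard * Nat.card Nz := by
    refine card_orbit (a := z) inf_le_left (fun g hg => ?_) fun x => ⟨fun hx => ?_, ?_⟩
    · rw [mul_inv_eq_iff_eq_mul, ← mem_centralizer_singleton_iff]
      exact and_iff_right hg
    · obtain ⟨c, hc, hcx⟩ := s.conj_in_B hzB h.hz hx.1 hx.2
      exact ⟨c, s.T_le_N (s.B_le hc), hcx⟩
    · rintro ⟨g, hg, rfl⟩
      exact ⟨s.conj_B hg hzB, by rw [orderOf_conj, h.hz]⟩
  rw [s.card_B, h.cardA] at hB
  rw [s.card_N, show S.ncard = 15 by omega] at hN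
  haveI : Fact (Nat.Prime 3) := ⟨Nat.prime_three⟩
  obtain ⟨g₀, hg⟩ := exists_prime_orderOf_dvd_card' (G := Nz) 3 (by omega)
  rw [← Subgroup.orderOf_coe] at hg
  obtain ⟨g, hgN, hgz⟩ := g₀
  have hg3 : g ^ 3 = 1 := by rw [← hg, pow_orderOf_eq_one]
  have hgE : g ∉ E := fun hgE => by
    have := orderOf_dvd_of_pow_eq_one (show g ^ 2 = 1 by rw [pow_two]; exact h.sqE g hgE)
    rw [hg] at this; norm_num at this
  have hgt : g ∉ centralizer ({t} : Set G) := fun hgT =>
    hgE ((h.memE g).2 ⟨hgz, mem_centralizer_singleton_iff.1 hgT⟩)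
  refine ⟨g, hg, hgN, hgt, hgz, ?_⟩
  have hgzz : g * z * g⁻¹ = z := mul_inv_eq_iff_eq_mul.2 (mem_centralizer_singleton_iff.1 hgz)
  have hgA : ∀ a ∈ A, g * a * g⁻¹ ∈ A := fun a ha => by
    rw [← s.inf_Cz h]
    refine ⟨s.conj_B hgN (s.AB ha), mem_centralizer_singleton_iff.2 ?_⟩
    rw [← hgzz, conj_mul, conj_mul, h.commE (h.A_le ha) (h.A_le h.z_mem)]
  -- `g` centralises `A`
  have hgfix : ∀ a ∈ A, g * a * g⁻¹ = a := by
    intro a ha
    · by_cases ha1 : a = 1
      · simp [ha1]
      by_cases haz : a = z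
      · rw [haz, hgzz]
      haveI := Fintype.ofFinite A
      set a' := g * a * g⁻¹ with ha'
      by_contra hne
      have hmemA : ∀ x ∈ A, x = 1 ∨ x = z ∨ x = a ∨ x = a * z := by
        intro x hx
        have hcard : Fintype.card A = 4 := by rw [← Nat.card_eq_fintype_card, h.cardA]
        let Z : A := ⟨z, h.z_mem⟩
        let a₀ : A := ⟨a, ha⟩
        have hset : ({1, Z, a₀, a₀ * Z} : Finset A) = Finset.univ := by
          refine Finset.eq_univ_of_card _ ?_
          rw [hcard, Finset.card_insert_of_notMem, Finset.card_insert_of_notMem,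
            Finset.card_insert_of_notMem, Finset.card_singleton]
          · simp only [Finset.mem_singleton, left_eq_mul]
            exact fun e => h.z_ne (congrArg Subtype.val e)
          · simp only [Finset.mem_insert, Finset.mem_singleton, right_eq_mul, not_or]
            exact ⟨fun e => haz (congrArg Subtype.val e).symm, fun e => ha1 (congrArg Subtype.val e)⟩
          · simp only [Finset.mem_insert, Finset.mem_singleton, not_or]
            refine ⟨fun e => h.z_ne (congrArg Subtype.val e).symm,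
              fun e => ha1 (congrArg Subtype.val e).symm, fun e => haz ?_⟩
            have e1 : (a : G) * z = 1 := (congrArg Subtype.val e).symm
            rw [eq_inv_of_mul_eq_one_left e1,
              inv_eq_of_mul_eq_one_right (h.sqE z (h.A_le h.z_mem))]
        have hm := Finset.mem_univ (⟨x, hx⟩ : A)
        rw [← hset] at hm
        simp only [Finset.mem_insert, Finset.mem_singleton] at hm
        exact hm.imp (congrArg Subtype.val) (Or.imp (congrArg Subtype.val)
          (Or.imp (congrArg Subtype.val) (congrArg Subtype.val)))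
      rcases hmemA a' (hgA a ha) with e | e | e | e
      · exact ha1 (conj_eq_one_iff.1 e)
      · exact haz (mul_left_cancel (mul_right_cancel (e.trans hgzz.symm)))
      · exact hne e
      · have e2 : g * a' * g⁻¹ = a := by
          rw [e, ← conj_mul, ← ha', e, hgzz, mul_assoc, h.sqE z (h.A_le h.z_mem), mul_one]
        have e3 : g * (g * a' * g⁻¹) * g⁻¹ = a := by
          rw [ha', show g * (g * (g * a * g⁻¹) * g⁻¹) * g⁻¹ = g ^ 3 * a * (g ^ 3)⁻¹ by
            simp only [pow_succ, pow_zero, one_mul, mul_inv_rev, mul_assoc], hg3]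
          group
        rw [e2] at e3
        exact hne e3
  obtain ⟨b, hb, hbA, hbz⟩ := s.move
  let ψ : B →* B :=
    { toFun := fun x => ⟨g * x * g⁻¹, s.conj_B hgN x.2⟩
      map_one' := Subtype.ext (by simp)
      map_mul' := fun p q => Subtype.ext (by simp [mul_assoc]) }
  have hgb : g * b * g⁻¹ = b := by
    have hcB : g * b * g⁻¹ * b⁻¹ ∈ B := B.mul_mem (s.conj_B hgN hb) (B.inv_mem hb)
    have hcA : g * b * g⁻¹ * b⁻¹ ∈ A := by
      rw [← s.inf_Cz h]
      refine ⟨hcB, mem_centralizer_singleton_iff.2 ?_⟩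
      -- it fixes every element of `A`
      have hinj : Function.Injective (fun x : A => (⟨b * x * b⁻¹, hbA x x.2⟩ : A)) := fun p q e =>
        Subtype.ext (mul_left_cancel (mul_right_cancel (congrArg Subtype.val e)))
      obtain ⟨a, ha⟩ := Finite.injective_iff_surjective.1 hinj ⟨z, h.z_mem⟩
      have ha' : b * (a : G) * b⁻¹ = z := congrArg Subtype.val ha
      refine mul_inv_eq_iff_eq_mul.1 ?_
      calc g * b * g⁻¹ * b⁻¹ * z * (g * b * g⁻¹ * b⁻¹)⁻¹
          = g * (b * (g⁻¹ * (b⁻¹ * z * b) * g) * b⁻¹) * g⁻¹ := by group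
        _ = g * (b * (g⁻¹ * (g * (a : G) * g⁻¹) * g) * b⁻¹) * g⁻¹ := by
            rw [hgfix a a.2, ← ha']; group
        _ = g * (b * a * b⁻¹) * g⁻¹ := by group
        _ = z := by rw [ha', hgzz]
    set c := g * b * g⁻¹ * b⁻¹ with hc
    have e1 : g * b * g⁻¹ = c * b := by rw [hc]; group
    have hgc := hgfix c hcA
    have hstep : ∀ k : G, g * (k * b) * g⁻¹ = g * k * g⁻¹ * (c * b) := fun k => by
      rw [← e1]; group
    have e3 : g ^ 3 * b * (g ^ 3)⁻¹ = c * c * c * b := by
      rw [show g ^ 3 * b * (g ^ 3)⁻¹ = g * (g * (g * b * g⁻¹) * g⁻¹) * g⁻¹ by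
        simp only [pow_succ, pow_zero, one_mul, mul_inv_rev, mul_assoc], e1, hstep, hgc,
        ← mul_assoc c c b, hstep, ← conj_mul, hgc, ← mul_assoc]
    rw [hg3, h.sqE c (h.A_le hcA)] at e3
    have hc2 : c * b = b := by simpa using e3.symm
    have hc1 : c = 1 := mul_eq_right.1 hc2
    rw [e1, hc1, one_mul]
  intro y hy
  obtain ⟨e⟩ := s.alt
  have := fix_all e ψ (a := ⟨z, hzB⟩) (b := ⟨b, hb⟩) (Subtype.ext (h.sqE z (h.A_le h.z_mem)))
    (fun e' => h.z_ne (congrArg Subtype.val e'))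
    (Subtype.ext (h.commE (h.A_le (hbA z h.z_mem)) (h.A_le h.z_mem)))
    (fun e' => hbz (congrArg Subtype.val e')) (Subtype.ext hgzz) (Subtype.ext hgb) ⟨y, hy⟩
  exact mul_inv_eq_iff_eq_mul.1 (congrArg Subtype.val this)

theorem nonempty_normalizer :
    Nonempty (normalizer (W : Set G) ≃* ↥(alternatingGroup (Fin 4)) × ↥(alternatingGroup (Fin 5))) := by
  classical
  obtain ⟨e⟩ := s.alt
  obtain ⟨g, hg, hgN, hgt, -, hgB⟩ := s.exists_outer h
  set N := normalizer (W : Set G) with hN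
  let K : Subgroup G := N ⊓ centralizer (B : Set G)
  have hWK : W ≤ K := fun w hw => ⟨s.T_le_N (s.W_le hw), mem_centralizer_iff.2 fun y hy => (s.comm hw hy).symm⟩
  have hgK : g ∈ K := ⟨hgN, mem_centralizer_iff.2 fun y hy => (hgB y hy).symm⟩
  let F : K × B →* N := (inclusion inf_le_left).noncommCoprod
    (inclusion (s.B_le.trans s.T_le_N)) fun k b => Subtype.ext ((mem_centralizer_iff.1 k.2.2 b b.2).symm)
  have hF : Function.Injective F := by
    refine (injective_iff_map_eq_one F).2 fun p hp => ?_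
    have h1 : (p.1 : G) * p.2 = 1 := congrArg Subtype.val hp
    have h2 : (p.2 : G) = 1 := by
      refine s.center_B p.2.2 fun y hy => ?_
      rw [eq_inv_of_mul_eq_one_right h1]
      exact (Commute.inv_right (mem_centralizer_iff.1 p.1.2.2 y hy : Commute y (p.1 : G))).eq
    rw [h2, mul_one] at h1
    exact Prod.ext (Subtype.ext h1) (Subtype.ext h2)
  have hK : Nat.card K = 12 := by
    have h1 := Nat.card_le_card_of_injective F hF
    rw [Nat.card_prod, s.card_B, s.card_N] at h1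
    have h4 : 4 ∣ Nat.card K := s.cardW ▸ card_dvd_of_le hWK
    have h3 : 3 ∣ Nat.card K := by
      rw [← hg, ← Subgroup.orderOf_mk g hgK]; exact orderOf_dvd_natCard _
    have hd : 12 ∣ Nat.card K := (show Nat.Coprime 4 3 by norm_num).mul_dvd_of_dvd_of_dvd h4 h3
    have := Nat.le_of_dvd Nat.card_pos hd
    omega
  have hbij : Function.Bijective F := (Nat.bijective_iff_injective_and_card F).2
    ⟨hF, by rw [Nat.card_prod, s.card_B, hK, s.card_N]⟩
  obtain ⟨ε⟩ : Nonempty (K ≃* ↥(alternatingGroup (Fin 4))) := by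
    refine nonempty_alt_four hK (R := (zpowers g).subgroupOf K) ?_ fun hn => hgt ?_
    · rw [Nat.card_congr (subgroupOfEquivOfLe (zpowers_le.2 hgK)).toEquiv, Nat.card_zpowers, hg]
    · have h1 := hn.conj_mem ⟨g, hgK⟩ (mem_subgroupOf.2 (mem_zpowers g)) ⟨t, hWK s.tW⟩
      rw [mem_subgroupOf] at h1
      have h1' : t * g * t⁻¹ ∈ zpowers g := h1
      have hc : t * g * t⁻¹ * g⁻¹ ∈ zpowers g := Subgroup.mul_mem _ h1' (Subgroup.inv_mem _ (mem_zpowers g))
      have hcW : t * g * t⁻¹ * g⁻¹ ∈ W := by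
        rw [show t * g * t⁻¹ * g⁻¹ = t * (g * t * g⁻¹)⁻¹ by group]
        exact W.mul_mem s.tW (W.inv_mem (s.conj_W (s.mem_normalizer_W.1 hgN) s.tW))
      have h2 := orderOf_dvd_natCard (⟨_, hcW⟩ : W)
      have h3 := orderOf_dvd_natCard (⟨_, hc⟩ : zpowers g)
      rw [Subgroup.orderOf_mk, s.cardW] at h2
      rw [Subgroup.orderOf_mk, Nat.card_zpowers, hg] at h3
      have := orderOf_eq_one_iff.1 (Nat.eq_one_of_dvd_coprimes (by norm_num) h2 h3)
      rw [mul_inv_eq_one, mul_inv_eq_iff_eq_mul] at this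
      exact mem_centralizer_singleton_iff.2 this.symm
  exact ⟨(MulEquiv.ofBijective F hbij).symm.trans (ε.prodCongr e)⟩

omit h in
theorem nonempty_centralizer : Nonempty (centralizer ({t} : Set G) ≃*
    (Multiplicative (ZMod 2) × Multiplicative (ZMod 2)) × ↥(alternatingGroup (Fin 5))) := by
  classical
  obtain ⟨e⟩ := s.alt
  obtain ⟨ε⟩ := noncomm_equiv s.W_le s.B_le (fun w hw b hb => s.comm hw hb) s.disj fun x hx => by
    have hx' : x ∈ W ⊔ B := s.idp.2.2.2.2.ge hx
    have hcs : W ≤ centralizer (B : Set G) := fun w hw =>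
      mem_centralizer_iff.2 fun y hy => (s.comm hw hy).symm
    rw [← SetLike.mem_coe, coe_mul_of_left_le_normalizer_right W B
      (hcs.trans (centralizer_le_normalizer _))] at hx'
    obtain ⟨w, hw, y, hy, hwy⟩ := hx'
    exact ⟨w, hw, y, hy, hwy⟩
  haveI : Nontrivial W := Finite.one_lt_card_iff_nontrivial.1 (by rw [s.cardW]; norm_num)
  haveI : IsKleinFour W := ⟨s.cardW, by
    refine (Nat.dvd_prime Nat.prime_two).1 (Monoid.exponent_dvd_of_forall_pow_eq_one fun w => ?_)
      |>.resolve_left fun h1 => not_subsingleton W (Monoid.exp_eq_one_iff.1 h1)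
    exact Subtype.ext (by rw [Subgroup.coe_pow, pow_two]; exact s.sqW w w.2)⟩
  haveI : IsKleinFour (Multiplicative (ZMod 2) × Multiplicative (ZMod 2)) :=
    ⟨by simp, by simp [Monoid.exponent_prod]⟩
  obtain ⟨η⟩ := IsKleinFour.nonempty_mulEquiv (G₁ := W) (G₂ := Multiplicative (ZMod 2) × Multiplicative (ZMod 2))
  exact ⟨ε.symm.trans (η.prodCongr e)⟩

omit h in
theorem pCore_eq : Cfsg.pCoreOf 2 (centralizer ({t} : Set G)) = W := by
  haveI : Fact (Nat.Prime 2) := ⟨Nat.prime_two⟩
  obtain ⟨e⟩ := s.alt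
  refine le_antisymm ?_ (H72.le_pCoreOf s.W_le (fun x hx => s.T_le_N hx)
    (IsPGroup.of_card (n := 2) (by rw [s.cardW]; norm_num)))
  rintro x ⟨⟨c, hc'⟩, hc, rfl⟩
  have hx : c ∈ W ⊔ B := s.idp.2.2.2.2.ge hc'
  have hcs : W ≤ centralizer (B : Set G) := fun w hw =>
    mem_centralizer_iff.2 fun y hy => (s.comm hw hy).symm
  rw [← SetLike.mem_coe, coe_mul_of_left_le_normalizer_right W B
    (hcs.trans (centralizer_le_normalizer _))] at hx
  obtain ⟨w, hw, y, hy, rfl⟩ := hx
  -- the part in `B` lies in a normal 2-subgroup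
  let M : Subgroup B := (Cfsg.pCore 2 (centralizer ({t} : Set G))).comap (inclusion s.B_le)
  haveI : M.Normal := (H19.pCore_normal 2 _).comap _
  have hMp : IsPGroup 2 M := (H19.pCore_isPGroup 2).comap_of_injective _ (inclusion_injective _)
  have hwM : (⟨w, s.W_le hw⟩ : centralizer ({t} : Set G)) ∈ Cfsg.pCore 2 (centralizer ({t} : Set G)) := by
    have := H72.le_pCoreOf (p := 2) s.W_le (fun x hx => s.T_le_N hx)
      (IsPGroup.of_card (n := 2) (by rw [s.cardW]; norm_num)) hw
    obtain ⟨c, hc, hce⟩ := this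
    rwa [show (⟨w, s.W_le hw⟩ : centralizer ({t} : Set G)) = c from Subtype.ext hce.symm]
  have hyM : (⟨y, hy⟩ : B) ∈ M := by
    refine mem_comap.2 ?_
    have := Subgroup.mul_mem _ (Subgroup.inv_mem _ hwM) hc
    convert this using 1
    exact Subtype.ext (by simp)
  haveI : IsSimpleGroup B := e.isSimpleGroup
  rcases Subgroup.Normal.eq_bot_or_eq_top (inferInstance : M.Normal) with hM | hM
  · rw [hM, mem_bot] at hyM
    show w * y ∈ W
    rw [show y = 1 from congrArg Subtype.val hyM, mul_one]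
    exact hw
  · exfalso
    obtain ⟨n, hn⟩ := hMp.exists_card_eq
    rw [hM, card_top, s.card_B] at hn
    have : 3 ∣ 2 ^ n := hn ▸ by norm_num
    exact absurd (Nat.prime_three.dvd_of_dvd_pow this) (by norm_num)

end Split

end Cfsg.Agent.H59.HJ
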