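import Cfsg.Agent.H59.HJ.ThreeSylow

/-!
Groups of Hall-Janko type: the Sylow 7-subgroup.
-/

set_option autoImplicit false
set_option linter.style.haveILetI false
set_option linter.constructorNameAsVariable false

namespace Cfsg.Agent.H59.HJ

open Subgroup
open scoped Pointwise

variable {G : Type*} [Group G] [Finite G] {z t : G} {E A B W : Subgroup G}

/-- A Sylow subgroup of order seven whose centraliser is itself has normaliser of order dividing
forty-two. -/
theorem normalizer_dvd_of_seven {D : Subgroup G} (h7 : Nat.card D = 7)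
    (hC : centralizer (D : Set G) = D) : Nat.card (normalizer (D : Set G)) ∣ 42 := by
  classical
  haveI : Fact (Nat.Prime 7) := ⟨by norm_num⟩
  haveI : IsCyclic D := isCyclic_of_prime_card h7
  let ψ := D.normalizerMonoidHom
  have hker : Nat.card ψ.ker = 7 := by
    rw [show ψ.ker = _ from D.normalizerMonoidHom_ker,
      Nat.card_congr (subgroupOfEquivOfLe (centralizer_le_normalizer _)).toEquiv, hC, h7]
  have himg : Nat.card ψ.range ∣ 6 := by
    refine (Subgroup.card_subgroup_dvd_card ψ.range).trans ?_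
    rw [IsCyclic.card_mulAut, h7]
    rw [Nat.totient_prime (by norm_num)]
  rw [← ψ.ker.index_mul_card, index_ker, hker]
  exact Nat.mul_dvd_mul_right himg 7

namespace Split

variable (s : Split z t E A B W) (h : Local z t E A) {f k : G} (d : FiveData z t f k) {g : G}
  (D : ThreeData z t g B W)
include s h d D

theorem seven_classes {x : G} (hx : orderOf x = 2 ∨ orderOf x = 3 ∨ orderOf x = 5) :
    ¬ 7 ∣ Nat.card (centralizer ({x} : Set G)) := by
  have hconj : ∀ a b : G, IsConj a b →
      Nat.card (centralizer ({a} : Set G)) = Nat.card (centralizer ({b} : Set G)) := by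
    intro a b hab
    obtain ⟨c, rfl⟩ := isConj_iff.1 hab
    exact (card_centralizer_conj c a).symm
  rcases hx with hx | hx | hx
  · rcases h.cases x hx with hc | hc <;> rw [hconj _ _ hc]
    · rw [h.cardC]; norm_num
    · rw [s.cardT]; norm_num
  · haveI : Fact (Nat.Prime 3) := ⟨Nat.prime_three⟩
    obtain ⟨w₀, P, hw₀, -, -, -, hclass⟩ := s.three_classes h d D
    obtain ⟨⟨w, hw⟩, hw3⟩ := exists_prime_orderOf_dvd_card' (G := B) 3 (by rw [s.card_B]; norm_num)
    rw [Subgroup.orderOf_mk] at hw3
    have hw36 := (s.Cw_facts h d D hw hw3).1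
    have h1080 := s.card_Cg h d D
    have key : ∀ y : G, orderOf y = 3 → IsConj y g ∨ IsConj y w₀ := by
      intro y hy
      obtain ⟨P₁, hP₁⟩ := (IsPGroup.of_card (n := 1) (by rw [Nat.card_zpowers, hy, pow_one]) :
        IsPGroup 3 (zpowers y)).exists_le_sylow
      obtain ⟨c, hc⟩ := MulAction.exists_smul_eq G P₁ P
      have hm : c * y * c⁻¹ ∈ (P : Subgroup G) := hc ▸ ⟨y, hP₁ (mem_zpowers y), rfl⟩
      have hyc : IsConj y (c * y * c⁻¹) := isConj_iff.2 ⟨c, rfl⟩
      refine (hclass _ hm fun e => ?_).imp hyc.trans hyc.trans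
      rw [conj_eq_one_iff] at e; rw [e, orderOf_one] at hy; norm_num at hy
    have hwg : ¬ IsConj w g := fun hc => by have := hconj _ _ hc; omega
    have hw0 : Nat.card (centralizer ({w₀} : Set G)) = 36 := by
      rw [← hconj _ _ ((key w hw3).resolve_left hwg), hw36]
    rcases key x hx with hc | hc <;> rw [hconj _ _ hc]
    · rw [h1080]; norm_num
    · rw [hw0]; norm_num
  · haveI : Fact (Nat.Prime 5) := ⟨by norm_num⟩
    obtain ⟨u, P, hu, hu5, -, -, hclass⟩ := s.five_classes h d
    obtain ⟨P₁, hP₁⟩ := (IsPGroup.of_card (n := 1) (by rw [Nat.card_zpowers, hx, pow_one]) :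
      IsPGroup 5 (zpowers x)).exists_le_sylow
    obtain ⟨c, hc⟩ := MulAction.exists_smul_eq G P₁ P
    have hm : c * x * c⁻¹ ∈ (P : Subgroup G) := hc ▸ ⟨x, hP₁ (mem_zpowers x), rfl⟩
    have hne : c * x * c⁻¹ ≠ 1 := fun e => by
      rw [conj_eq_one_iff] at e; rw [e, orderOf_one] at hx; norm_num at hx
    have hxc : IsConj x (c * x * c⁻¹) := isConj_iff.2 ⟨c, rfl⟩
    have h300 := (s.five_quot h hu hu5).1
    rcases hclass _ hm hne with hc | hc | hc | hc <;> rw [hconj _ _ (hxc.trans hc)]
    · rw [h300]; norm_num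
    · rw [centralizer_sq hu5, h300]; norm_num
    · rw [s.f_card h d]; norm_num
    · rw [centralizer_sq d.ordf, s.f_card h d]; norm_num

theorem seven_sylow (S : Sylow 7 G) :
    centralizer ((S : Subgroup G) : Set G) = S ∧
      Nat.card (normalizer ((S : Subgroup G) : Set G)) = 42 := by
  classical
  haveI : Fact (Nat.Prime 7) := ⟨by norm_num⟩
  have hS : Nat.card (S : Subgroup G) = 7 := by
    rw [S.card_eq_multiplicity, s.cardG h,
      factorization_of_mul (k := 1) (m := 86400) (by norm_num) (by norm_num) (by norm_num), pow_one]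
  haveI : IsCyclic (S : Subgroup G) := isCyclic_of_prime_card hS
  have hle : (S : Subgroup G) ≤ centralizer ((S : Subgroup G) : Set G) := fun x hx =>
    mem_centralizer_iff.2 fun y hy => congrArg Subtype.val
      ((IsCyclic.commGroup (α := (S : Subgroup G))).mul_comm ⟨y, hy⟩ ⟨x, hx⟩)
  have hC : centralizer ((S : Subgroup G) : Set G) = S := by
    refine (eq_of_le_of_card_ge hle ?_).symm
    rw [hS]
    -- only the prime seven divides its order
    set C := centralizer ((S : Subgroup G) : Set G) with hCdef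
    have hG : Nat.card C ∣ 604800 := s.cardG h ▸ C.card_subgroup_dvd_card
    have hno : ∀ q : ℕ, q = 2 ∨ q = 3 ∨ q = 5 → ¬ q ∣ Nat.card C := by
      intro q hq hdvd
      haveI : Fact q.Prime := ⟨by rcases hq with rfl | rfl | rfl <;> norm_num⟩
      obtain ⟨⟨x, hx⟩, hxq⟩ := exists_prime_orderOf_dvd_card' (G := C) q hdvd
      rw [Subgroup.orderOf_mk] at hxq
      refine s.seven_classes h d D (x := x) (hxq ▸ hq) ?_
      rw [← hS]
      exact card_dvd_of_le fun y hy =>
        mem_centralizer_singleton_iff.2 (mem_centralizer_iff.1 hx y hy)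
    have h2 := Nat.Prime.coprime_iff_not_dvd (Nat.prime_two) |>.2 (hno 2 (Or.inl rfl))
    have h3 := Nat.Prime.coprime_iff_not_dvd (Nat.prime_three) |>.2 (hno 3 (Or.inr (Or.inl rfl)))
    have h5 := Nat.Prime.coprime_iff_not_dvd (p := 5) (by norm_num) |>.2 (hno 5 (Or.inr (Or.inr rfl)))
    have hcop : Nat.Coprime (Nat.card C) (2 ^ 7 * 3 ^ 3 * 5 ^ 2) :=
      ((h2.symm.pow_right 7).mul_right (h3.symm.pow_right 3)).mul_right (h5.symm.pow_right 2)
    exact Nat.le_of_dvd (by norm_num)
      (hcop.dvd_of_dvd_mul_left (show Nat.card C ∣ 2 ^ 7 * 3 ^ 3 * 5 ^ 2 * 7 by simpa using hG))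
  refine ⟨hC, ?_⟩
  set N := normalizer ((S : Subgroup G) : Set G) with hN
  have h42 : Nat.card N ∣ 42 := normalizer_dvd_of_seven hS hC
  have h7 : 7 ∣ Nat.card N := hS ▸ card_dvd_of_le le_normalizer
  have hidx := N.index_mul_card
  rw [s.cardG h] at hidx
  have hn := card_sylow_modEq_one 7 G
  rw [S.card_eq_index_normalizer] at hn
  replace hn : N.index ≡ 1 [MOD 7] := hn
  unfold Nat.ModEq at hn
  have hle := Nat.le_of_dvd (by norm_num) h42
  obtain ⟨m, hm⟩ := h7
  have hm6 : m ≤ 6 := by omega
  rw [hm] at hidx h42 ⊢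
  interval_cases m <;> omega

end Split

end Cfsg.Agent.H59.HJ
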