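import Cfsg.Agent.H59.HJ.Five
import Cfsg.Agent.H59.HJ.AltFive

/-!
Groups of Hall-Janko type: the centraliser of the second involution and the group order.
-/

set_option autoImplicit false
set_option linter.style.haveILetI false
set_option linter.constructorNameAsVariable false

namespace Cfsg.Agent.H59.HJ

open Subgroup
open scoped commutatorElement

variable {G : Type*} [Group G] [Finite G] {z t : G} {E A : Subgroup G}

/-- The derived subgroup of the centraliser of `t`, inside `G`. -/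
def derT (t : G) : Subgroup G :=
  (_root_.commutator (centralizer ({t} : Set G))).map (centralizer ({t} : Set G)).subtype

omit [Finite G] in
theorem derT_le : derT t ≤ centralizer ({t} : Set G) := map_subtype_le _

omit [Finite G] in
theorem derT_conj {g x : G} (hg : ∀ y, y ∈ centralizer ({t} : Set G) → g * y * g⁻¹ ∈ centralizer ({t} : Set G))
    (hx : x ∈ derT t) : g * x * g⁻¹ ∈ derT t := by
  obtain ⟨c, hc, rfl⟩ := hx
  have hle : _root_.commutator (centralizer ({t} : Set G)) ≤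
      (derT t).comap ((MulAut.conj g).toMonoidHom.comp (centralizer ({t} : Set G)).subtype) := by
    refine commutator_le.2 fun p _ q _ => ⟨⁅(⟨_, hg p p.2⟩ : centralizer ({t} : Set G)), ⟨_, hg q q.2⟩⁆,
      commutator_mem_commutator (mem_top _) (mem_top _), ?_⟩
    simp [commutatorElement_def, mul_assoc]
  exact hle hc

omit [Finite G] in
theorem conj_centralizer {g y : G} (hg : g ∈ centralizer ({t} : Set G))
    (hy : y ∈ centralizer ({t} : Set G)) : g * y * g⁻¹ ∈ centralizer ({t} : Set G) :=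
  Subgroup.mul_mem _ (Subgroup.mul_mem _ hg hy) (Subgroup.inv_mem _ hg)

omit [Finite G] in
theorem noncomm_equiv {W B T : Subgroup G} (hW : W ≤ T) (hB : B ≤ T)
    (hcomm : ∀ w ∈ W, ∀ b ∈ B, w * b = b * w) (hdisj : W ⊓ B = ⊥)
    (hsur : ∀ x ∈ T, ∃ w ∈ W, ∃ b ∈ B, w * b = x) : Nonempty (W × B ≃* T) := by
  let f : W × B →* T := (inclusion hW).noncommCoprod (inclusion hB) fun w b =>
    Subtype.ext (hcomm w w.2 b b.2)
  have hf : ∀ p : W × B, (f p : G) = p.1 * p.2 := fun p => rfl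
  refine ⟨MulEquiv.ofBijective f ⟨(injective_iff_map_eq_one f).2 fun p hp => ?_, fun x => ?_⟩⟩
  · have h : (p.1 : G) * p.2 = 1 := by rw [← hf, hp]; rfl
    have h1 : (p.1 : G) ∈ W ⊓ B := ⟨p.1.2, by rw [eq_inv_of_mul_eq_one_left h]; exact B.inv_mem p.2.2⟩
    rw [hdisj, mem_bot] at h1
    rw [h1, one_mul] at h
    exact Prod.ext (Subtype.ext h1) (Subtype.ext h)
  · obtain ⟨w, hw, b, hb, h⟩ := hsur x x.2
    exact ⟨(⟨w, hw⟩, ⟨b, hb⟩), Subtype.ext h⟩

/-- The structure of the centraliser of `t`. -/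
structure Split (z t : G) (E A B W : Subgroup G) : Prop where
  alt : Nonempty (B ≃* ↥(alternatingGroup (Fin 5)))
  idp : Cfsg.IsInternalDirectProduct W B (centralizer ({t} : Set G))
  memW : ∀ x, x ∈ W ↔ x ∈ centralizer ({t} : Set G) ∧ ∀ y ∈ centralizer ({t} : Set G), y * x = x * y
  sqW : ∀ w ∈ W, w * w = 1
  cardW : Nat.card W = 4
  tW : t ∈ W
  WE : W ≤ E
  AB : A ≤ B
  infE : B ⊓ E = A
  invB : ∀ y ∈ B, orderOf y = 2 → IsConj y z
  outB : ∀ y ∈ centralizer ({t} : Set G), orderOf y = 2 → y ∉ B → IsConj y t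
  conjB : ∀ g, (∀ y, y ∈ centralizer ({t} : Set G) → g * y * g⁻¹ ∈ centralizer ({t} : Set G)) →
    ∀ x ∈ B, g * x * g⁻¹ ∈ B
  cardT : Nat.card (centralizer ({t} : Set G)) = 240
  move : ∃ b ∈ B, (∀ a ∈ A, b * a * b⁻¹ ∈ A) ∧ b * z * b⁻¹ ≠ z

namespace Local

theorem conj_mem_E (h : Local z t E A) {g : G} (hg : g ∈ centralizer ({t} : Set G))
    (hA : ∀ a ∈ A, g * a * g⁻¹ ∈ A) {x : G} (hx : x ∈ E) : g * x * g⁻¹ ∈ E := by
  obtain ⟨⟨a, ha⟩, hga⟩ : ∃ a : A, g * (a : G) * g⁻¹ = z := by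
    have hinj : Function.Injective (fun a : A => (⟨g * (a : G) * g⁻¹, hA a a.2⟩ : A)) := fun p q e =>
      Subtype.ext (mul_left_cancel (mul_right_cancel (congrArg Subtype.val e)))
    obtain ⟨a, ha⟩ := (Finite.injective_iff_surjective.1 hinj) ⟨z, h.z_mem⟩
    exact ⟨a, congrArg Subtype.val ha⟩
  refine (h.memE _).2 ⟨mem_centralizer_singleton_iff.2 ?_,
    mem_centralizer_singleton_iff.1 (conj_centralizer hg (h.le_T hx))⟩
  rw [← hga, conj_mul, conj_mul, h.commE hx (h.A_le ha)]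

omit [Finite G] in
theorem derT_normal (_h : Local z t E A) :
    ∀ g ∈ centralizer ({t} : Set G), ∀ x ∈ derT t, g * x * g⁻¹ ∈ derT t := fun _ hg _ hx =>
  derT_conj (fun _ hy => conj_centralizer hg hy) hx

theorem AB (h : Local z t E A) : A ≤ derT t := fun _ ha => (h.derived_inf.ge ha).1

theorem infE (h : Local z t E A) : derT t ⊓ E = A := h.derived_inf

theorem exists_sylowB (h : Local z t E A) :
    ∃ P : Sylow 2 (derT t), (P : Subgroup (derT t)) = A.subgroupOf (derT t) := by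
  refine sylow_of_normalizer (IsPGroup.of_card (n := 2) ?_) fun u hu hk => ?_
  · rw [Nat.card_congr (subgroupOfEquivOfLe h.AB).toEquiv, h.cardA]; norm_num
  · obtain ⟨k, hk⟩ := hk
    have hA : ∀ a ∈ A, (u : G) * a * (u : G)⁻¹ ∈ A := fun a ha => by
      simpa [mem_subgroupOf] using
        (mem_normalizer_iff.1 hu ⟨a, h.AB ha⟩).1 (mem_subgroupOf.2 ha)
    obtain ⟨a, ha, ha1, hua⟩ := h.two_element_fixed hA (k := k) (by simpa using congrArg Subtype.val hk)
    exact mem_subgroupOf.2 (h.infE.le ⟨u.2, h.fixed_mem (derT_le u.2) ha ha1 hua⟩)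

theorem four_cases (h : Local z t E A) :
    (∀ g ∈ centralizer ({t} : Set G), ∀ a ∈ A, g * a * g⁻¹ ∈ A) ∨
      Nonempty (derT t ≃* ↥(alternatingGroup (Fin 5))) := by
  haveI : Fact (Nat.Prime 2) := ⟨Nat.prime_two⟩
  obtain ⟨P, hP⟩ := h.exists_sylowB
  have h4 : Nat.card (P : Subgroup (derT t)) = 4 := by
    rw [hP, Nat.card_congr (subgroupOfEquivOfLe h.AB).toEquiv, h.cardA]
  have hmem : ∀ x : derT t, x ∈ (P : Subgroup (derT t)) ↔ (x : G) ∈ A := fun x => by
    rw [hP, mem_subgroupOf]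
  rcases four_self_centralizing P h4
    (fun a ha => Subtype.ext (by simpa using h.sqE _ (h.A_le ((hmem a).1 ha))))
    (fun a ha ha1 => by
      ext x
      rw [mem_centralizer_singleton_iff, hmem]
      constructor
      · intro hx
        refine h.infE.le ⟨x.2, (h.inf_centralizer ((hmem a).1 ha) fun e => ha1 (Subtype.ext e)).le
          ⟨derT_le x.2, mem_centralizer_singleton_iff.2 ?_⟩⟩
        simpa using congrArg Subtype.val hx
      · intro hx
        exact Subtype.ext (by simpa using h.commE (h.A_le hx) (h.A_le ((hmem a).1 ha)))) with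
    h1 | ⟨h1, -⟩ | h1
  · refine Or.inl fun g hg a ha => ?_
    exact (hmem ⟨_, h.derT_normal g hg a (h.AB ha)⟩).1 (by rw [h1]; exact mem_top _)
  · refine Or.inl fun g hg a ha => ?_
    haveI := h1
    set u : derT t := ⟨_, h.derT_normal g hg a (h.AB ha)⟩
    have hu : u ^ 2 = 1 := Subtype.ext (by
      rw [Subgroup.coe_pow, conj_pow, pow_two, h.sqE a (h.A_le ha)]; simp)
    have hp : IsPGroup 2 (zpowers u) := by
      rintro ⟨v, hv⟩
      obtain ⟨i, rfl⟩ := mem_zpowers_iff.1 hv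
      refine ⟨1, Subtype.ext ?_⟩
      rw [pow_one, Subgroup.coe_pow, ← zpow_natCast, ← zpow_mul, mul_comm, zpow_mul, zpow_natCast,
        hu, one_zpow, Subgroup.coe_one]
    obtain ⟨R, hR⟩ := hp.exists_le_sylow
    haveI := Sylow.unique_of_normal P h1
    exact (hmem u).1 (Subsingleton.elim R P ▸ hR (mem_zpowers u))
  · exact Or.inr h1

/-- If `A` is normal in the centraliser of `t`, the group is too small. -/
theorem not_small (h : Local z t E A) {f k : G} (d : FiveData z t f k)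
    (hA : ∀ g ∈ centralizer ({t} : Set G), ∀ a ∈ A, g * a * g⁻¹ ∈ A) : False := by
  classical
  have hEn : ∀ g ∈ centralizer ({t} : Set G), ∀ x ∈ E, g * x * g⁻¹ ∈ E := fun g hg x hx =>
    h.conj_mem_E hg (hA g hg) hx
  -- the order of the centraliser
  have hT : Nat.card (centralizer ({t} : Set G)) = 48 := by
    haveI := Fintype.ofFinite A
    let φ : centralizer ({t} : Set G) → {a : A // a ≠ 1} := fun g =>
      ⟨⟨g * z * (g : G)⁻¹, hA g g.2 z h.z_mem⟩, fun e => h.z_ne (conj_eq_one_iff.1 (congrArg Subtype.val e))⟩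
    have hker : ∀ g g' : centralizer ({t} : Set G), φ g = φ g' ↔
        g⁻¹ * g' ∈ E.subgroupOf (centralizer ({t} : Set G)) := by
      intro g g'
      rw [← h.inf_centralizer h.z_mem h.z_ne, mem_subgroupOf, mem_inf,
        mem_centralizer_singleton_iff (g := z), ← mul_inv_eq_iff_eq_mul]
      simp only [φ, Subtype.mk.injEq, Subgroup.coe_mul, InvMemClass.coe_inv]
      refine ⟨fun e => ⟨Subgroup.mul_mem _ (Subgroup.inv_mem _ g.2) g'.2, ?_⟩, fun e => ?_⟩
      · rw [mul_inv_rev, inv_inv, show (g : G)⁻¹ * g' * z * ((g' : G)⁻¹ * g) =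
          (g : G)⁻¹ * (g' * z * (g' : G)⁻¹) * g by group, ← e]
        group
      · have e2 := congrArg (fun x => (g : G) * x * (g : G)⁻¹) e.2
        rw [← e2]; group
    let ψ : centralizer ({t} : Set G) ⧸ E.subgroupOf (centralizer ({t} : Set G)) → {a : A // a ≠ 1} :=
      Quotient.lift φ fun g g' e => (hker g g').2 (QuotientGroup.leftRel_apply.1 e)
    have hψ : Function.Bijective ψ := by
      refine ⟨fun p q => ?_, fun a => ?_⟩
      · induction p using QuotientGroup.induction_on with | H g =>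
        induction q using QuotientGroup.induction_on with | H g' =>
        exact fun e => QuotientGroup.eq.2 ((hker g g').1 e)
      · obtain ⟨g, hg, hga⟩ := h.conj_to_z (h.le_T (h.A_le a.1.2))
          (h.conjA a.1.2 fun e => a.2 (Subtype.ext e))
        refine ⟨((⟨g, hg⟩⁻¹ : centralizer ({t} : Set G)) : _ ⧸ E.subgroupOf _), Subtype.ext (Subtype.ext ?_)⟩
        show g⁻¹ * z * g⁻¹⁻¹ = a.1.1
        rw [← hga]; group
    have h3 : (E.subgroupOf (centralizer ({t} : Set G))).index = 3 := by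
      rw [Subgroup.index, Nat.card_congr (Equiv.ofBijective ψ hψ), Nat.card_eq_fintype_card,
        Fintype.card_subtype_compl, Fintype.card_subtype_eq, ← Nat.card_eq_fintype_card, h.cardA]
    rw [← (E.subgroupOf (centralizer ({t} : Set G))).index_mul_card, h3,
      Nat.card_congr (subgroupOfEquivOfLe h.le_T).toEquiv, h.cardE]
  haveI : Fact (Nat.Prime 2) := ⟨Nat.prime_two⟩
  obtain ⟨S, hS⟩ := h.exists_sylow
  have hin : ∀ x ∈ centralizer ({t} : Set G), orderOf x = 2 → x ∈ E := by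
    intro x hx hx2
    haveI : (S : Subgroup (centralizer ({t} : Set G))).Normal := by
      rw [hS]
      exact ⟨fun y hy g => mem_subgroupOf.2 (hEn g g.2 y (mem_subgroupOf.1 hy))⟩
    haveI := Sylow.unique_of_normal S ‹_›
    have hp : IsPGroup 2 (zpowers (⟨x, hx⟩ : centralizer ({t} : Set G))) :=
      IsPGroup.of_card (n := 1) (by rw [Nat.card_zpowers, Subgroup.orderOf_mk, hx2, pow_one])
    obtain ⟨R, hR⟩ := hp.exists_le_sylow
    exact mem_subgroupOf.1 (hS.le (Subsingleton.elim R S ▸ hR (mem_zpowers _)))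
  have htt : t * t = 1 := h.sqE t h.t_mem
  have hcount : Nat.card {p : G × G // IsConj z p.1 ∧ IsConj t p.2 ∧ t ∈ zpowers (p.1 * p.2)} = 3 := by
    haveI := Fintype.ofFinite A
    have h3 : Nat.card {a : A // a ≠ 1} = 3 := by
      rw [Nat.card_eq_fintype_card, Fintype.card_subtype_compl, Fintype.card_subtype_eq,
        ← Nat.card_eq_fintype_card, h.cardA]
    rw [← h3]
    symm
    refine Nat.card_congr (Equiv.ofBijective (fun a => ⟨(a.1.1, a.1.1 * t), ?_, ?_, ?_⟩) ⟨?_, ?_⟩)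
    · exact (h.conjA a.1.2 fun e => a.2 (Subtype.ext e)).symm
    · refine (h.outside (E.mul_mem (h.A_le a.1.2) h.t_mem) fun e => h.t_notMem ?_).symm
      simpa using A.mul_mem (A.inv_mem a.1.2) e
    · show t ∈ zpowers (a.1.1 * (a.1.1 * t))
      rw [← mul_assoc, h.sqE _ (h.A_le a.1.2), one_mul]
      exact mem_zpowers t
    · intro a a' e
      simp only [Subtype.mk.injEq, Prod.mk.injEq] at e
      exact Subtype.ext (Subtype.ext e.1)
    · rintro ⟨⟨u, v⟩, hu, hv, hmem⟩
      dsimp only at hu hv hmem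
      have hu2 : orderOf u = 2 := (isConj_orderOf hu).symm.trans h.hz
      have hv2 : orderOf v = 2 := (isConj_orderOf hv).symm.trans h.ht
      have hu1 : u * u = 1 := by rw [← pow_two, ← hu2, pow_orderOf_eq_one]
      have hv1 : v * v = 1 := by rw [← pow_two, ← hv2, pow_orderOf_eq_one]
      obtain ⟨huC, hvC⟩ := H33.HJ.mem_centralizer_of_zpowers hu1 hv1 htt hmem
      have huE := hin u huC hu2
      have hvE := hin v hvC hv2
      obtain ⟨i, hi⟩ := mem_zpowers_iff.1 hmem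
      have huv : u * v = t := by
        have hsq := h.sqE _ (E.mul_mem huE hvE)
        rcases Int.even_or_odd i with ⟨j, rfl⟩ | ⟨j, rfl⟩
        · rw [← two_mul, zpow_mul, zpow_ofNat, pow_two, hsq, one_zpow] at hi
          exact absurd hi.symm h.t_ne
        · rwa [zpow_add, zpow_mul, zpow_ofNat, pow_two, hsq, one_zpow, one_mul, zpow_one] at hi
      refine ⟨⟨⟨u, (h.memA u).2 ⟨huE, Or.inr hu.symm⟩⟩, fun e => ?_⟩, Subtype.ext (Prod.ext rfl ?_)⟩
      · have := congrArg Subtype.val e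
        simp only [Subgroup.coe_one] at this
        rw [this, orderOf_one] at hu2; norm_num at hu2
      · show u * t = v
        rw [← huv, ← mul_assoc, hu1, one_mul]
  have hG := H28.thompson_order_formula h.hz h.ht (fun e => h.nc e.symm) fun x hx =>
    (h.cases x hx).imp IsConj.symm IsConj.symm
  rw [hT, h.countz, h.cardC, hcount] at hG
  exact small_impossible h d hT hG

theorem exists_split (h : Local z t E A) {f k : G} (d : FiveData z t f k) :
    ∃ W, Split z t E A (derT t) W := by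
  classical
  obtain ⟨e⟩ := h.four_cases.resolve_left fun hA => h.not_small d hA
  haveI : Fact (Nat.Prime 2) := ⟨Nat.prime_two⟩
  obtain ⟨P, hP⟩ := h.exists_sylowB
  haveI : IsMulCommutative (P : Subgroup (derT t)) := by
    refine ⟨⟨fun p q => Subtype.ext (Subtype.ext ?_)⟩⟩
    exact h.commE (h.A_le (mem_subgroupOf.1 (hP.le p.2))) (h.A_le (mem_subgroupOf.1 (hP.le q.2)))
  have hzB := h.AB h.z_mem
  have hzz : z * z = 1 := h.sqE z (h.A_le h.z_mem)
  have invB : ∀ y ∈ derT t, orderOf y = 2 → ∃ c ∈ derT t, c * y * c⁻¹ = z := by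
    intro y hy hy2
    obtain ⟨c, hc⟩ := iso_invol e (a := ⟨y, hy⟩) (b := ⟨z, hzB⟩)
      (Subtype.ext (show y * y = 1 by rw [← pow_two, ← hy2, pow_orderOf_eq_one]))
      (fun e' => by rw [show y = 1 from congrArg Subtype.val e', orderOf_one] at hy2; norm_num at hy2)
      (Subtype.ext hzz) (fun e' => h.z_ne (congrArg Subtype.val e'))
    exact ⟨c, c.2, congrArg Subtype.val hc⟩
  obtain ⟨a₁, ha₁, ha₁1, ha₁z⟩ : ∃ a ∈ A, a ≠ 1 ∧ a ≠ z := by
    by_contra hcon
    push Not at hcon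
    have hsub : (A : Set G) ⊆ {1, z} := fun b hb => by
      by_cases hb1 : b = 1
      · exact Or.inl hb1
      · exact Or.inr (hcon b hb hb1)
    have := Set.ncard_le_ncard hsub
    rw [← Nat.card_coe_set_eq, SetLike.coe_sort_coe, h.cardA, Set.ncard_pair h.z_ne.symm] at this
    omega
  -- an element of `B` moving `z`
  obtain ⟨b, hbB, hbA, hbz⟩ : ∃ b ∈ derT t, (∀ a ∈ A, b * a * b⁻¹ ∈ A) ∧ b * z * b⁻¹ ≠ z := by
    obtain ⟨c, hc, hca⟩ := invB a₁ (h.AB ha₁) (orderOf_two (h.sqE _ (h.A_le ha₁)) ha₁1)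
    obtain ⟨n, hn, hne⟩ := P.conj_eq_normalizer_conj_of_mem ⟨z, hzB⟩ ⟨c, hc⟩
      (hP.ge (mem_subgroupOf.2 h.z_mem))
      (hP.ge (mem_subgroupOf.2 (by
        show c⁻¹ * z * c ∈ A
        rwa [← hca, show c⁻¹ * (c * a₁ * c⁻¹) * c = a₁ by group])))
    refine ⟨(n : G)⁻¹, Subgroup.inv_mem _ n.2, fun a ha => ?_, ?_⟩
    · have := (mem_normalizer_iff.1 (Subgroup.inv_mem _ hn) ⟨a, h.AB ha⟩).1 (hP.ge (mem_subgroupOf.2 ha))
      simpa [hP, mem_subgroupOf] using this
    · have h1 : c⁻¹ * z * c = (n : G)⁻¹ * z * n := congrArg Subtype.val hne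
      rw [← hca] at h1
      rw [inv_inv]
      intro e'
      exact ha₁z (by rw [← e', ← hca, ← h1]; group)
  have hbT := derT_le hbB
  have hbE : ∀ x ∈ E, b * x * b⁻¹ ∈ E := fun x hx => h.conj_mem_E hbT hbA hx
  -- the fixed points of `b` on `E`
  let φ : E →* A :=
    { toFun := fun x => ⟨b * x * b⁻¹ * (x : G)⁻¹, h.commutator_mem_A hbT hbE x.2⟩
      map_one' := Subtype.ext (by simp)
      map_mul' := fun x y => Subtype.ext (by
        show b * ((x : G) * y) * b⁻¹ * ((x : G) * y)⁻¹ =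
          b * x * b⁻¹ * (x : G)⁻¹ * (b * y * b⁻¹ * (y : G)⁻¹)
        rw [h.commE x.2 y.2]
        have hc := h.commE (E.mul_mem (hbE x x.2) (E.inv_mem x.2)) (hbE y y.2)
        calc b * ((y : G) * x) * b⁻¹ * ((y : G) * x)⁻¹
            = b * y * b⁻¹ * (b * x * b⁻¹ * (x : G)⁻¹) * (y : G)⁻¹ := by group
          _ = b * x * b⁻¹ * (x : G)⁻¹ * (b * y * b⁻¹) * (y : G)⁻¹ := by rw [hc]
          _ = _ := by group) }
  let W : Subgroup G := φ.ker.map E.subtype
  have hW : ∀ x, x ∈ W ↔ x ∈ E ∧ b * x * b⁻¹ = x := by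
    intro x
    constructor
    · rintro ⟨y, hy, rfl⟩
      exact ⟨y.2, mul_inv_eq_one.1 (congrArg Subtype.val hy)⟩
    · rintro ⟨hx, hx'⟩
      exact ⟨⟨x, hx⟩, Subtype.ext (mul_inv_eq_one.2 hx'), rfl⟩
  have hWA : W ⊓ A = ⊥ := by
    rw [Subgroup.eq_bot_iff_forall]
    rintro x ⟨hxW, hxA⟩
    by_contra hx1
    have := h.infE.le ⟨hbB, h.fixed_mem hbT hxA hx1 ((hW x).1 hxW).2⟩
    exact hbz (by rw [h.commE (h.A_le this) (h.A_le h.z_mem), mul_inv_cancel_right])
  have hinjA : Function.Injective (φ.comp (inclusion h.A_le)) := by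
    refine (injective_iff_map_eq_one _).2 fun a ha => Subtype.ext ?_
    have : (a : G) ∈ W ⊓ A := ⟨(hW _).2 ⟨h.A_le a.2, mul_inv_eq_one.1 (congrArg Subtype.val ha)⟩, a.2⟩
    rwa [hWA, mem_bot] at this
  have hsurA := Finite.injective_iff_surjective.1 hinjA
  have hW4 : Nat.card W = 4 := by
    have h1 := φ.ker.index_mul_card
    rw [index_ker, (MonoidHom.range_eq_top (f := φ)).2 (fun a => let ⟨c, hc⟩ := hsurA a; ⟨_, hc⟩), card_top,
      h.cardA, h.cardE] at h1
    rw [← Nat.card_congr (φ.ker.equivMapOfInjective _ (subtype_injective _)).toEquiv]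
    omega
  have hWE : W ≤ E := fun x hx => ((hW x).1 hx).1
  have hWA' : ∀ x ∈ E, ∃ w ∈ W, ∃ a ∈ A, w * a = x := by
    intro x hx
    obtain ⟨a, ha⟩ := hsurA (φ ⟨x, hx⟩)
    refine ⟨x * (a : G)⁻¹, ⟨⟨x, hx⟩ * (inclusion h.A_le a)⁻¹, ?_, rfl⟩, a, a.2, inv_mul_cancel_right x _⟩
    show φ _ = 1
    rw [map_mul, map_inv, ← MonoidHom.comp_apply, ha, mul_inv_cancel]
  have htW : t ∈ W := (hW t).2 ⟨h.t_mem, mul_inv_eq_iff_eq_mul.2 (mem_centralizer_singleton_iff.1 hbT)⟩
  -- `W` centralises `B`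
  have hcomm : ∀ w ∈ W, ∀ y ∈ derT t, w * y = y * w := by
    intro w hw y hy
    let ψ : derT t →* derT t :=
      { toFun := fun x => ⟨w * x * w⁻¹, h.derT_normal w (h.le_T (hWE hw)) x x.2⟩
        map_one' := Subtype.ext (by simp)
        map_mul' := fun p q => Subtype.ext (by simp [mul_assoc]) }
    have hza : (z : G) * z = 1 := hzz
    have hb' : b * z * b⁻¹ ∈ A := hbA z h.z_mem
    have := fix_all e ψ (a := ⟨z, hzB⟩) (b := ⟨b, hbB⟩) (Subtype.ext hza)
      (fun e' => h.z_ne (congrArg Subtype.val e'))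
      (Subtype.ext (h.commE (h.A_le hb') (h.A_le h.z_mem)))
      (fun e' => hbz (congrArg Subtype.val e'))
      (Subtype.ext (by show w * z * w⁻¹ = z; rw [h.commE (hWE hw) (h.A_le h.z_mem), mul_inv_cancel_right]))
      (Subtype.ext (by
        show w * b * w⁻¹ = b
        rw [mul_inv_eq_iff_eq_mul, ← mul_inv_eq_iff_eq_mul.1 ((hW w).1 hw).2]))
      ⟨y, hy⟩
    exact mul_inv_eq_iff_eq_mul.1 (congrArg Subtype.val this)
  have hdisj : W ⊓ derT t = ⊥ := by
    rw [eq_bot_iff]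
    rintro x ⟨hxW, hxB⟩
    exact hWA.le ⟨hxW, h.infE.le ⟨hxB, hWE hxW⟩⟩
  -- the centraliser is the product
  have hprod : ∀ x ∈ centralizer ({t} : Set G), ∃ w ∈ W, ∃ y ∈ derT t, w * y = x := by
    intro x hx
    obtain ⟨c, hc, hcz⟩ := invB (x * z * x⁻¹) (h.derT_normal x hx z hzB) (by rw [orderOf_conj, h.hz])
    have hcx : c * x ∈ E := by
      refine h.fixed_mem (Subgroup.mul_mem _ (derT_le hc) hx) h.z_mem h.z_ne ?_
      calc c * x * z * (c * x)⁻¹ = c * (x * z * x⁻¹) * c⁻¹ := by group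
        _ = z := hcz
    obtain ⟨w, hw, a, ha, hwa⟩ := hWA' _ hcx
    refine ⟨w, hw, c⁻¹ * a, Subgroup.mul_mem _ (Subgroup.inv_mem _ hc) (h.AB ha), ?_⟩
    rw [← mul_assoc, hcomm w hw _ (Subgroup.inv_mem _ hc), mul_assoc, hwa, inv_mul_cancel_left]
  obtain ⟨ε⟩ := noncomm_equiv (hWE.trans h.le_T) derT_le hcomm hdisj hprod
  have hidp : Cfsg.IsInternalDirectProduct W (derT t) (centralizer ({t} : Set G)) := by
    refine ⟨hWE.trans h.le_T, derT_le, hcomm, hdisj, le_antisymm (sup_le (hWE.trans h.le_T) derT_le) ?_⟩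
    intro x hx
    obtain ⟨w, hw, y, hy, rfl⟩ := hprod x hx
    exact mul_mem_sup hw hy
  refine ⟨W, ⟨e⟩, hidp, ?_, fun w hw => h.sqE w (hWE hw), hW4, htW, hWE, h.AB, h.infE,
    fun y hy hy2 => ?_, fun y hy hy2 hyB => ?_, fun g hg x hx => derT_conj hg hx, ?_,
    ⟨b, hbB, hbA, hbz⟩⟩
  · intro x
    constructor
    · intro hxW
      refine ⟨h.le_T (hWE hxW), fun y hy => ?_⟩
      obtain ⟨w, hw, c, hc, rfl⟩ := hprod y hy
      rw [mul_assoc, ← hcomm x hxW c hc, ← mul_assoc, h.commE (hWE hw) (hWE hxW), mul_assoc]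
    · rintro ⟨hxT, hx⟩
      obtain ⟨w, hw, c, hc, rfl⟩ := hprod x hxT
      have hc1 : (⟨c, hc⟩ : derT t) = 1 := iso_center e fun y => Subtype.ext (by
        have := hx y (derT_le y.2)
        rw [← mul_assoc, ← hcomm w hw y y.2, mul_assoc, mul_assoc] at this
        exact mul_left_cancel this)
      rw [show c = 1 from congrArg Subtype.val hc1, mul_one]
      exact hw
  · obtain ⟨c, -, hcz⟩ := invB y hy hy2
    exact isConj_iff.2 ⟨c, hcz⟩
  · refine (h.cases y hy2).resolve_left fun hyz => hyB ?_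
    obtain ⟨g, hg, hgy⟩ := h.conj_to_z hy hyz
    have := h.derT_normal _ (Subgroup.inv_mem _ hg) z hzB
    rwa [← hgy, show g⁻¹ * (g * y * g⁻¹) * g⁻¹⁻¹ = y by group] at this
  · rw [← Nat.card_congr ε.toEquiv, Nat.card_prod, hW4, iso_card e]

theorem card_G (h : Local z t E A) {B W : Subgroup G} (s : Split z t E A B W) :
    Nat.card G = 604800 := by
  obtain ⟨e⟩ := s.alt
  have hcount := H33.HJ.count_t h.ht h.hz (fun e' => h.nc e'.symm) s.idp
    (fun v hv => by rw [pow_two]; exact s.sqW v hv) s.tW e s.invB s.outB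
  have hG := H28.thompson_order_formula h.hz h.ht (fun e' => h.nc e'.symm) fun x hx =>
    (h.cases x hx).imp IsConj.symm IsConj.symm
  rw [s.cardT, h.countz, h.cardC, hcount] at hG
  exact hG

end Local

end Cfsg.Agent.H59.HJ
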