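import Cfsg.Agent.H59.HJ.FiveCount

/-!
Groups of Hall-Janko type: the centralisers of elements of order three.
-/

set_option autoImplicit false
set_option linter.style.haveILetI false
set_option linter.constructorNameAsVariable false

namespace Cfsg.Agent.H59.HJ

open Subgroup
open scoped Pointwise

theorem alt_five_cent3 : ∀ x y : ↥(alternatingGroup (Fin 5)), x ^ 3 = 1 → x ≠ 1 → y * x = x * y →
    ∃ i : Fin 3, y = x ^ (i : ℕ) := by decide +kernel

theorem alt_five_inv : ∀ x : ↥(alternatingGroup (Fin 5)), x ^ 5 = 1 →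
    ∃ y, y * x * y⁻¹ = x⁻¹ := by decide +kernel

theorem fix_closed : ∀ x y : Q0, actQ sigH x = x → actQ sigH y = y →
    actQ sigH (mulQ x y) = mulQ x y := by decide +kernel

theorem fix_inv : ∀ x : Q0, actQ sigH x = x → ∃ y : Q0, actQ sigH y = y ∧ mulQ x y = 0 := by
  decide +kernel

theorem fix_card : ((Finset.univ : Finset Q0).filter fun x => actQ sigH x = x).card = 8 := by
  decide +kernel

theorem mulQ_comm_or : ∀ x y : Q0, mulQ x y = mulQ y x ∨ mulQ x y = mulQ (mulQ y x) zQ := by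
  decide +kernel

theorem cent_three_snd : ∀ a : Q0 × A5, pm (0, sigH) a = pm a (0, sigH) →
    a.2 ^ 3 = 1 ∧ (a.2 = 1 → actQ sigH a.1 = a.1) := by decide +kernel

theorem sigH_cube : ppow (0, sigH) 3 = (0, 1) ∧ ((0, sigH) : Q0 × A5) ≠ (0, 1) := by decide +kernel

theorem inverter_three : ∃ τ : A5, pm (0, τ) (0, sigH) = pm (ppow (0, sigH) 2) (0, τ) := by
  decide +kernel

theorem ppow_snd (a : Q0 × A5) (n : ℕ) : (ppow a n).2 = a.2 ^ n := by
  induction n with
  | zero => rfl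
  | succ n ih => rw [ppow, pow_succ, ← ih]; rfl

variable {G : Type*} [Group G] [Finite G] {z t : G} {E A B W : Subgroup G}

theorem factorization_two_eight {X : Subgroup G} (S : Sylow 2 X) (hS : Nat.card (S : Subgroup X) = 8) :
    (Nat.card X).factorization 2 = 3 := by
  haveI : Fact (Nat.Prime 2) := ⟨Nat.prime_two⟩
  have h := S.card_eq_multiplicity
  rw [hS, show (8 : ℕ) = 2 ^ 3 from rfl] at h
  exact (Nat.pow_right_injective (le_refl 2) h).symm

/-- An element of order three in the centraliser of `z`: its centraliser has Sylow 2-subgroups of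
order eight and it is inverted. -/
theorem three_local {Φ : Q0 × A5 → G} (F : Frame z Φ) :
    orderOf (Φ (0, sigH)) = 3 ∧ Φ (0, sigH) ∈ centralizer ({z} : Set G) ∧
      (Nat.card (centralizer ({Φ (0, sigH)} : Set G))).factorization 2 = 3 ∧
      ∃ τ : G, τ * Φ (0, sigH) * τ⁻¹ = (Φ (0, sigH))⁻¹ := by
  classical
  haveI : Fact (Nat.Prime 3) := ⟨Nat.prime_three⟩
  haveI : Fact (Nat.Prime 2) := ⟨Nat.prime_two⟩
  set h₀ := Φ (0, sigH) with hh
  have h3 : h₀ ^ 3 = 1 := by rw [hh, ← F.ppow_map, sigH_cube.1, F.one]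
  have hord : orderOf h₀ = 3 :=
    orderOf_eq_prime h3 fun e => sigH_cube.2 (F.inj (e.trans F.one.symm))
  refine ⟨hord, (F.range _).2 ⟨_, rfl⟩, ?_, ?_⟩
  swap
  · obtain ⟨τ, hτ⟩ := inverter_three
    refine ⟨Φ (0, τ), ?_⟩
    have hinv : h₀⁻¹ = h₀ ^ 2 := inv_eq_of_mul_eq_one_right (by rw [← pow_succ', h3])
    rw [mul_inv_eq_iff_eq_mul, hinv, hh, ← F.ppow_map, ← F.mul, ← F.mul, hτ]
  set X := centralizer ({h₀} : Set G) with hX
  have hcomm : ∀ a, Φ a ∈ X ↔ pm (0, sigH) a = pm a (0, sigH) := fun a => by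
    rw [hX, mem_centralizer_singleton_iff, hh, F.comm_iff]; exact eq_comm
  have hfix : ∀ x : Q0, actQ sigH x = x → Φ (x, 1) ∈ X := fun x hx => by
    have key : ∀ y : Q0, mulQ 0 y = y ∧ mulQ y 0 = y ∧ actQ 1 y = y := by decide +kernel
    refine (hcomm _).2 ?_
    simp only [pm, hx, (key x).1, (key 0).2.2, (key x).2.1, one_mul, mul_one]
  let S8 : Subgroup X :=
    { carrier := {g | ∃ x, actQ sigH x = x ∧ Φ (x, 1) = (g : G)}
      one_mem' := ⟨0, by decide +kernel, F.one⟩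
      mul_mem' := fun {g g'} ⟨x, hx, hgx⟩ ⟨y, hy, hgy⟩ =>
        ⟨mulQ x y, fix_closed x y hx hy, by rw [← F.inner_mul, hgx, hgy]; rfl⟩
      inv_mem' := fun {g} ⟨x, hx, hgx⟩ => by
        obtain ⟨y, hy, hxy⟩ := fix_inv x hx
        refine ⟨y, hy, ?_⟩
        rw [InvMemClass.coe_inv, eq_comm]
        exact inv_eq_of_mul_eq_one_right (by rw [← hgx, F.inner_mul, hxy, F.one]) }
  have hS8 : Nat.card S8 = 8 := by
    rw [← fix_card, ← Fintype.card_coe, ← Nat.card_eq_fintype_card]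
    symm
    refine Nat.card_congr (Equiv.ofBijective (fun x => ⟨⟨Φ (x.1, 1), hfix _ (Finset.mem_filter.1 x.2).2⟩,
      x.1, (Finset.mem_filter.1 x.2).2, rfl⟩) ⟨fun a b e => ?_, ?_⟩)
    · exact Subtype.ext (congrArg Prod.fst (F.inj (congrArg (fun g : S8 => ((g : X) : G)) e)))
    · rintro ⟨⟨g, hg⟩, x, hx, hxg⟩
      exact ⟨⟨x, Finset.mem_filter.2 ⟨Finset.mem_univ _, hx⟩⟩, Subtype.ext (Subtype.ext hxg)⟩
  obtain ⟨S, hS⟩ : ∃ S : Sylow 2 X, (S : Subgroup X) = S8 := by
    refine sylow_of_normalizer (IsPGroup.of_card (n := 3) (by rw [hS8]; rfl)) fun u hu ⟨k, hk⟩ => ?_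
    obtain ⟨x, y, hx, hy, hxy⟩ := cent_three_nonabelian
    have himg : ∀ w : Q0, actQ sigH w = w → ∃ w', actQ sigH w' = w' ∧
        Φ (w', 1) = (u : G) * Φ (w, 1) * (u : G)⁻¹ := fun w hw =>
      (mem_normalizer_iff.1 hu ⟨Φ (w, 1), hfix w hw⟩).1 ⟨w, hw, rfl⟩
    obtain ⟨x', -, hx'⟩ := himg x hx
    obtain ⟨y', -, hy'⟩ := himg y hy
    have hz : Φ (x, 1) * Φ (y, 1) = Φ (y, 1) * Φ (x, 1) * z := by
      rw [← F.zmap, F.inner_mul, F.inner_mul, F.inner_mul, (mulQ_comm_or x y).resolve_left hxy]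
    have hz' : Φ (x', 1) * Φ (y', 1) = Φ (y', 1) * Φ (x', 1) * ((u : G) * z * (u : G)⁻¹) := by
      rw [hx', hy', conj_mul, conj_mul, conj_mul, hz]
    have huz : (u : G) * z * (u : G)⁻¹ = z := by
      rcases mulQ_comm_or x' y' with h1 | h1
      · rw [F.inner_mul, F.inner_mul, h1] at hz'
        have := mul_eq_left.1 hz'.symm
        rw [conj_eq_one_iff] at this
        have hz2 := F.z_two
        rw [this, orderOf_one] at hz2
        norm_num at hz2
      · rw [F.inner_mul, h1, ← F.inner_mul, ← F.inner_mul, F.zmap] at hz'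
        exact (mul_left_cancel hz').symm
    obtain ⟨a, ha⟩ := (F.range _).1 (mem_centralizer_singleton_iff.2 (mul_inv_eq_iff_eq_mul.1 huz))
    obtain ⟨h1, h2⟩ := cent_three_snd a ((hcomm a).1 (ha ▸ u.2))
    have hk' : (u : G) ^ 2 ^ k = 1 := by simpa using congrArg Subtype.val hk
    rw [← ha, ← F.ppow_map, ← F.one] at hk'
    have h4 : a.2 ^ 2 ^ k = 1 := by rw [← ppow_snd, F.inj hk']
    have ha1 : a.2 = 1 := orderOf_eq_one_iff.1 (Nat.eq_one_of_dvd_coprimes
      (Nat.Coprime.pow_right k (by norm_num : Nat.Coprime 3 2))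
      (orderOf_dvd_of_pow_eq_one h1) (orderOf_dvd_of_pow_eq_one h4))
    exact ⟨a.1, h2 ha1, by rw [← ha1, Prod.mk.eta, ha]⟩
  exact factorization_two_eight S (hS ▸ hS8)

namespace Split

variable (s : Split z t E A B W)
include s

omit [Finite G] in
theorem cent_B_three {w y : G} (hw : w ∈ B) (hw3 : orderOf w = 3) (hy : y ∈ B) (hc : y * w = w * y) :
    y ∈ zpowers w := by
  obtain ⟨e⟩ := s.alt
  have h3 : (⟨w, hw⟩ : B) ^ 3 = 1 := Subtype.ext (by rw [Subgroup.coe_pow, ← hw3]; exact pow_orderOf_eq_one w)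
  obtain ⟨i, hi⟩ := alt_five_cent3 (e ⟨w, hw⟩) (e ⟨y, hy⟩) (by rw [← map_pow, h3, map_one])
    (fun h => by
      have := congrArg Subtype.val (e.injective (h.trans e.map_one.symm))
      simp only [Subgroup.coe_one] at this
      rw [this, orderOf_one] at hw3; norm_num at hw3)
    (by rw [← map_mul, ← map_mul]; exact congrArg e (Subtype.ext hc))
  rw [← map_pow] at hi
  exact ⟨((i : ℕ) : ℤ), by simpa using (congrArg Subtype.val (e.injective hi)).symm⟩

theorem sylow_two_odd {q : ℕ} {u : G} (hu : u ∈ B) (hu5 : orderOf u = q) (hq : Nat.Coprime q 2)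
    (hcent : ∀ y ∈ B, y * u = u * y → y ∈ zpowers u) :
    ∃ S : Sylow 2 (centralizer ({u} : Set G)),
      (S : Subgroup (centralizer ({u} : Set G))) = W.subgroupOf (centralizer ({u} : Set G)) := by
  have hle : W ≤ centralizer ({u} : Set G) := fun w hw => s.W_cent hw hu
  refine sylow_of_normalizer (IsPGroup.of_card (n := 2) ?_) fun v hv ⟨k, hk⟩ => ?_
  · rw [Nat.card_congr (subgroupOfEquivOfLe hle).toEquiv, s.cardW]; norm_num
  have hvN : (v : G) ∈ normalizer (W : Set G) := s.mem_normalizer_W.2 (by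
    simpa [mem_subgroupOf] using (mem_normalizer_iff.1 hv ⟨t, hle s.tW⟩).1 (mem_subgroupOf.2 s.tW))
  have hk' : (v : G) ^ 2 ^ k = 1 := by simpa using congrArg Subtype.val hk
  obtain ⟨w, hw, y, hy, hwy⟩ := s.exists_mul (s.N_two_elem hvN hk')
  have hyu : y * u = u * y := by
    have := mem_centralizer_singleton_iff.1 v.2
    rw [← hwy, mul_assoc, ← mul_assoc u, ← s.comm hw hu, mul_assoc w u] at this
    exact mul_left_cancel this
  obtain ⟨i, hi⟩ := mem_zpowers_iff.1 (hcent y hy hyu)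
  have h2 : y ^ 2 ^ (k + 1) = 1 := by
    have h1 : (v : G) ^ 2 ^ (k + 1) = 1 := by rw [pow_succ, pow_mul, hk', one_pow]
    rw [← hwy, (show Commute w y from s.comm hw hy).mul_pow, pow_succ' 2 k, pow_mul w, pow_two w,
      s.sqW w hw, one_pow, one_mul] at h1
    rwa [pow_succ' 2 k]
  have hy5 : y ^ q = 1 := by
    rw [← hi, ← zpow_natCast, ← zpow_mul, mul_comm, zpow_mul, zpow_natCast, ← hu5,
      pow_orderOf_eq_one, one_zpow]
  have hy1 : y = 1 := orderOf_eq_one_iff.1 (Nat.eq_one_of_dvd_coprimes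
    (Nat.Coprime.pow_right (k + 1) hq)
    (orderOf_dvd_of_pow_eq_one hy5) (orderOf_dvd_of_pow_eq_one h2))
  rw [mem_subgroupOf, ← hwy, hy1, mul_one]
  exact hw

/-- The centraliser of an element of odd prime order of `B`, self-centralising in `B`. -/
theorem odd_quot {q : ℕ} {u : G} (hu : u ∈ B) (hu5 : orderOf u = q)
    (hq : Nat.Coprime q 2) (hcent : ∀ y ∈ B, y * u = u * y → y ∈ zpowers u)
    (h5 : ¬ 5 ∣ Nat.card (centralizer ({u} : Set G))) :
    Nat.card (centralizer ({u} : Set G)) = 4 * q ∨ (Nat.card (centralizer ({u} : Set G)) = 12 * q ∧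
      ∀ v ∈ centralizer ({u} : Set G), orderOf v = 2 → v ∈ W) := by
  classical
  haveI : Fact (Nat.Prime 2) := ⟨Nat.prime_two⟩
  set X := centralizer ({u} : Set G) with hX
  have hle : W ≤ X := fun w hw => s.W_cent hw hu
  have hZle : zpowers u ≤ X := fun x hx => zpowers_le_centralizer hx
  haveI hZn : ((zpowers u).subgroupOf X).Normal := ⟨fun x hx g => by
    rw [mem_subgroupOf] at hx ⊢
    obtain ⟨i, hi⟩ := mem_zpowers_iff.1 hx
    rw [Subgroup.coe_mul, Subgroup.coe_mul, InvMemClass.coe_inv, ← hi]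
    have hc : Commute (g : G) (u ^ i) := Commute.zpow_right (mem_centralizer_singleton_iff.1 g.2) i
    rw [hc.eq, mul_inv_cancel_right]
    exact zpow_mem (mem_zpowers u) i⟩
  set Z := (zpowers u).subgroupOf X with hZ
  have hZcard : Nat.card Z = q := by
    rw [hZ, Nat.card_congr (subgroupOfEquivOfLe hZle).toEquiv, Nat.card_zpowers, hu5]
  obtain ⟨S, hS⟩ := s.sylow_two_odd hu hu5 hq hcent
  set P := S.mapSurjective (QuotientGroup.mk'_surjective Z) with hP
  have hPmem : ∀ q : X ⧸ Z, q ∈ (P : Subgroup (X ⧸ Z)) ↔ ∃ w : X, (w : G) ∈ W ∧ (w : X ⧸ Z) = q := by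
    intro q
    rw [hP, Sylow.coe_mapSurjective, Subgroup.mem_map]
    simp only [hS, mem_subgroupOf, QuotientGroup.mk'_apply]
  have hWZ : ∀ w : X, (w : G) ∈ W → w ∈ Z → w = 1 := by
    intro w hw hwZ
    refine Subtype.ext (orderOf_eq_one_iff.1 (Nat.eq_one_of_dvd_coprimes hq.symm
      (orderOf_dvd_of_pow_eq_one ?_) ?_))
    · rw [pow_two]; exact s.sqW _ hw
    · rw [← hu5, ← Nat.card_zpowers u]
      have := orderOf_dvd_natCard (⟨(w : G), mem_subgroupOf.1 hwZ⟩ : zpowers u)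
      rwa [Subgroup.orderOf_mk] at this
  have h4 : Nat.card (P : Subgroup (X ⧸ Z)) = 4 := by
    rw [← s.cardW]
    symm
    refine Nat.card_congr (Equiv.ofBijective (fun w : W =>
      (⟨((⟨w, hle w.2⟩ : X) : X ⧸ Z), (hPmem _).2 ⟨_, w.2, rfl⟩⟩ : (P : Subgroup (X ⧸ Z)))) ⟨?_, ?_⟩)
    · intro a b e
      have e' := QuotientGroup.eq.1 (congrArg Subtype.val e)
      have e'' : (⟨a, hle a.2⟩ : X) = ⟨b, hle b.2⟩ :=
        inv_mul_eq_one.1 (hWZ _ (W.mul_mem (W.inv_mem a.2) b.2) e')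
      exact Subtype.ext (show (a : G) = b from congrArg (fun x : X => (x : G)) e'')
    · rintro ⟨q, hq⟩
      obtain ⟨w, hw, rfl⟩ := (hPmem q).1 hq
      exact ⟨⟨w, hw⟩, rfl⟩
  have hC : ∀ a ∈ (P : Subgroup (X ⧸ Z)), a ≠ 1 → centralizer ({a} : Set (X ⧸ Z)) = (P : Subgroup (X ⧸ Z)) := by
    intro a ha ha1
    obtain ⟨w, hw, rfl⟩ := (hPmem a).1 ha
    ext q
    rw [mem_centralizer_singleton_iff]
    constructor
    · induction q using QuotientGroup.induction_on with | H x =>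
      intro hxw
      rw [← QuotientGroup.mk_mul, ← QuotientGroup.mk_mul, QuotientGroup.eq] at hxw
      obtain ⟨i, hi⟩ := mem_zpowers_iff.1 (mem_subgroupOf.1 hxw)
      simp only [Subgroup.coe_mul, InvMemClass.coe_inv] at hi
      -- the power of `u` vanishes
      have hxu : Commute (x : G) u := mem_centralizer_singleton_iff.1 x.2
      have hwu : Commute (w : G) u := mem_centralizer_singleton_iff.1 w.2
      have e1 : (x : G)⁻¹ * w * x = w * u ^ i := by
        rw [hi]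
        have hww := inv_eq_of_mul_eq_one_right (s.sqW _ hw)
        rw [mul_inv_rev, hww]
        rw [show (w : G) * ((w : G) * (x : G)⁻¹ * (w * x)) = w * w * ((x : G)⁻¹ * w * x) by group,
          s.sqW _ hw, one_mul]
      have e2 : (u ^ i) ^ 2 = 1 := by
        have h1 : ((x : G)⁻¹ * w * x) ^ 2 = 1 := by
          rw [pow_two, show (x : G)⁻¹ * w * x * ((x : G)⁻¹ * w * x) = (x : G)⁻¹ * (w * w) * x by group,
            s.sqW _ hw]; group
        rwa [e1, (hwu.zpow_right i).mul_pow, pow_two (w : G), s.sqW _ hw, one_mul] at h1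
      have e3 : (u ^ i) ^ q = 1 := by
        rw [← zpow_natCast, ← zpow_mul, mul_comm, zpow_mul, zpow_natCast, ← hu5, pow_orderOf_eq_one,
          one_zpow]
      have e4 : u ^ i = 1 := orderOf_eq_one_iff.1 (Nat.eq_one_of_dvd_coprimes
        hq.symm (orderOf_dvd_of_pow_eq_one e2) (orderOf_dvd_of_pow_eq_one e3))
      rw [e4, mul_one] at e1
      have hxT : (x : G) ∈ centralizer ({t} : Set G) := by
        rw [← s.centralizer_W hw fun e => ha1 (by rw [show w = 1 from Subtype.ext e]; rfl),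
          mem_centralizer_singleton_iff]
        conv_lhs => rw [← e1]
        group
      obtain ⟨w', hw', y, hy, hwy⟩ := s.exists_mul hxT
      have hyu : y * u = u * y := by
        have := hxu.eq
        rw [← hwy, mul_assoc, ← mul_assoc u, ← s.comm hw' hu, mul_assoc w' u] at this
        exact mul_left_cancel this
      refine (hPmem _).2 ⟨⟨w', hle hw'⟩, hw', QuotientGroup.eq.2 (mem_subgroupOf.2 ?_)⟩
      rw [Subgroup.coe_mul, InvMemClass.coe_inv, ← hwy, inv_mul_cancel_left]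
      exact hcent y hy hyu
    · intro hq
      obtain ⟨w', hw', rfl⟩ := (hPmem q).1 hq
      rw [← QuotientGroup.mk_mul, ← QuotientGroup.mk_mul]
      exact congrArg _ (Subtype.ext (((s.memW _).1 hw).2 _ (s.W_le hw')))
  have hsq : ∀ a ∈ (P : Subgroup (X ⧸ Z)), a * a = 1 := by
    intro a ha
    obtain ⟨w, hw, rfl⟩ := (hPmem a).1 ha
    rw [← QuotientGroup.mk_mul, show w * w = 1 from Subtype.ext (s.sqW _ hw), QuotientGroup.mk_one]
  have hXcard : Nat.card X = Nat.card (X ⧸ Z) * q := by rw [Z.card_eq_card_quotient_mul_card_subgroup, hZcard]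
  rcases four_self_centralizing P h4 hsq hC with h1 | ⟨hn, h1⟩ | ⟨⟨e⟩⟩
  · exact Or.inl (by rw [hXcard, ← card_top (G := X ⧸ Z), ← h1, h4])
  · refine Or.inr ⟨by rw [hXcard, h1], fun v hv hv2 => ?_⟩
    haveI := Sylow.unique_of_normal P hn
    have hv1 : (((⟨v, hv⟩ : X) : X ⧸ Z)) ^ 2 = 1 := by
      rw [← QuotientGroup.mk_pow, show (⟨v, hv⟩ : X) ^ 2 = 1 from Subtype.ext (by
        rw [Subgroup.coe_pow, ← hv2, pow_orderOf_eq_one, Subgroup.coe_one]), QuotientGroup.mk_one]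
    obtain ⟨R, hR⟩ := (IsPGroup.of_card (p := 2) (G := zpowers ((⟨v, hv⟩ : X) : X ⧸ Z))
      (n := ((Nat.dvd_prime_pow Nat.prime_two).1 (show _ ∣ 2 ^ 1 from orderOf_dvd_of_pow_eq_one hv1)).choose)
      (by rw [Nat.card_zpowers]; exact ((Nat.dvd_prime_pow Nat.prime_two).1 (show _ ∣ 2 ^ 1 from
        orderOf_dvd_of_pow_eq_one hv1)).choose_spec.2)).exists_le_sylow
    obtain ⟨w, hw, hwv⟩ := (hPmem _).1 (Subsingleton.elim R P ▸ hR (mem_zpowers _))
    rw [QuotientGroup.eq, mem_subgroupOf] at hwv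
    obtain ⟨i, hi⟩ := mem_zpowers_iff.1 hwv
    change u ^ i = (w : G)⁻¹ * v at hi
    have hvw : v = w * u ^ i := by rw [hi, mul_inv_cancel_left]
    have hwu : Commute (w : G) u := mem_centralizer_singleton_iff.1 w.2
    have e2 : (u ^ i) ^ 2 = 1 := by
      have h2 : v ^ 2 = 1 := by rw [← hv2, pow_orderOf_eq_one]
      rwa [hvw, (hwu.zpow_right i).mul_pow, pow_two (w : G), s.sqW _ hw, one_mul] at h2
    have e3 : (u ^ i) ^ q = 1 := by
      rw [← zpow_natCast, ← zpow_mul, mul_comm, zpow_mul, zpow_natCast, ← hu5, pow_orderOf_eq_one,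
        one_zpow]
    rw [hvw, show u ^ i = 1 from orderOf_eq_one_iff.1 (Nat.eq_one_of_dvd_coprimes
      hq.symm (orderOf_dvd_of_pow_eq_one e2) (orderOf_dvd_of_pow_eq_one e3)), mul_one]
    exact hw
  · exfalso
    exact h5 (by rw [hXcard, iso_card e]; exact Dvd.dvd.mul_right (by norm_num) q)

end Split

end Cfsg.Agent.H59.HJ
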