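import Cfsg.Agent.H59.HJ.Three

/-!
Groups of Hall-Janko type: the Sylow 3-subgroup.
-/

set_option autoImplicit false
set_option linter.style.haveILetI false
set_option linter.constructorNameAsVariable false

namespace Cfsg.Agent.H59.HJ

open Subgroup
open scoped Pointwise commutatorElement

variable {G : Type*} [Group G] [Finite G] {z t : G} {E A B W : Subgroup G}

omit [Finite G] in
theorem conj_iff_centralizer {c a x : G} :
    c * x * c⁻¹ ∈ centralizer ({c * a * c⁻¹} : Set G) ↔ x ∈ centralizer ({a} : Set G) := by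
  rw [mem_centralizer_singleton_iff, mem_centralizer_singleton_iff, conj_mul, conj_mul]
  exact ⟨fun h => mul_left_cancel (mul_right_cancel h), fun h => by rw [h]⟩

omit [Finite G] in
theorem conj_zpowers_eq {c a b : G} (h : c * a * c⁻¹ ∈ zpowers b) (ha : orderOf a = orderOf b)
    [Finite G] : zpowers (c * a * c⁻¹) = zpowers b :=
  eq_of_le_of_card_ge (zpowers_le.2 h) (by rw [Nat.card_zpowers, Nat.card_zpowers, orderOf_conj, ha])

/-- Subgroups of prime order `p` of a group with `p`-part `p` are conjugate. -/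
theorem conj_of_prime_part {X : Subgroup G} {p : ℕ} [hp : Fact p.Prime]
    (hX : (Nat.card X).factorization p = 1) {a b : G} (ha : a ∈ X) (hb : b ∈ X)
    (ha' : orderOf a = p) (hb' : orderOf b = p) : ∃ c ∈ X, zpowers (c * a * c⁻¹) = zpowers b := by
  let Sa : Sylow p X := Sylow.ofCard (zpowers (⟨a, ha⟩ : X)) (by
    rw [Nat.card_zpowers, Subgroup.orderOf_mk, ha', hX, pow_one])
  let Sb : Sylow p X := Sylow.ofCard (zpowers (⟨b, hb⟩ : X)) (by
    rw [Nat.card_zpowers, Subgroup.orderOf_mk, hb', hX, pow_one])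
  obtain ⟨c, hc⟩ := MulAction.exists_smul_eq X Sa Sb
  have h1 : c * ⟨a, ha⟩ * c⁻¹ ∈ (Sb : Subgroup X) := hc ▸ ⟨⟨a, ha⟩, mem_zpowers _, rfl⟩
  obtain ⟨i, hi⟩ := mem_zpowers_iff.1 h1
  refine ⟨c, c.2, conj_zpowers_eq (mem_zpowers_iff.2 ⟨i, ?_⟩) (ha'.trans hb'.symm)⟩
  simpa using congrArg Subtype.val hi

omit [Finite G] in
theorem factorization_of_mul {p n k m : ℕ} (hp : p.Prime) (hn : n = p ^ k * m) (hm : ¬ p ∣ m) :
    n.factorization p = k := by
  rw [hn, Nat.factorization_mul (pow_ne_zero _ hp.ne_zero) (fun h => hm (by rw [h]; exact dvd_zero p)),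
    Finsupp.add_apply, Nat.Prime.factorization_pow hp, Finsupp.single_eq_same,
    Nat.factorization_eq_zero_of_not_dvd hm, add_zero]

namespace Split

variable (s : Split z t E A B W) (h : Local z t E A) {f k : G} (d : FiveData z t f k)
include s h d

theorem centralizer_sylow_five (P : Sylow 5 G) :
    centralizer ((P : Subgroup G) : Set G) = P := by
  haveI : Fact (Nat.Prime 5) := ⟨by norm_num⟩
  obtain ⟨u, P₀, -, -, hC, -, -⟩ := s.five_classes h d
  obtain ⟨g, hg⟩ := MulAction.exists_smul_eq G P₀ P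
  refine le_antisymm (fun x hx => ?_) fun x hx => mem_centralizer_iff.2 fun p hp =>
    mem_centralizer_singleton_iff.1 (s.sylow_five_le h hx hp)
  rw [← hg]
  refine ⟨g⁻¹ * x * g, ?_, by simp [mul_assoc]⟩
  show g⁻¹ * x * g ∈ (P₀ : Subgroup G)
  rw [← hC, mem_centralizer_iff]
  intro p hp
  have h1 : g * p * g⁻¹ * x = x * (g * p * g⁻¹) := mem_centralizer_iff.1 hx _ (hg ▸ ⟨p, hp, rfl⟩)
  calc p * (g⁻¹ * x * g) = g⁻¹ * (g * p * g⁻¹ * x) * g := by group
    _ = g⁻¹ * (x * (g * p * g⁻¹)) * g := by rw [h1]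
    _ = g⁻¹ * x * g * p := by group

theorem f_card : Nat.card (centralizer ({f} : Set G)) = 50 := by
  obtain ⟨P, hP⟩ := (IsPGroup.of_card (n := 1) (by rw [Nat.card_zpowers, d.ordf, pow_one]) :
    IsPGroup 5 (zpowers f)).exists_le_sylow
  exact (s.f_facts h d (hP (mem_zpowers f)) (s.centralizer_sylow_five h d P)).1

/-- An element of order five centralised by an element of order three is conjugate into `B`. -/
theorem five_of_three {x y : G} (hx : orderOf x = 5) (hy : orderOf y = 3) (hc : y * x = x * y) :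
    ∃ u c, u ∈ B ∧ orderOf u = 5 ∧ c * y * c⁻¹ ∈ centralizer ({u} : Set G) := by
  haveI : Fact (Nat.Prime 5) := ⟨by norm_num⟩
  obtain ⟨u, P₀, hu, hu5, -, -, hclass⟩ := s.five_classes h d
  obtain ⟨P, hP⟩ := (IsPGroup.of_card (n := 1) (by rw [Nat.card_zpowers, hx, pow_one]) :
    IsPGroup 5 (zpowers x)).exists_le_sylow
  obtain ⟨g, hg⟩ := MulAction.exists_smul_eq G P P₀
  have hm : g * x * g⁻¹ ∈ (P₀ : Subgroup G) := hg ▸ ⟨x, hP (mem_zpowers x), rfl⟩
  have hne : g * x * g⁻¹ ≠ 1 := fun e => by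
    rw [conj_eq_one_iff] at e; rw [e, orderOf_one] at hx; norm_num at hx
  have hdvd : 3 ∣ Nat.card (centralizer ({x} : Set G)) := by
    rw [← hy, ← Subgroup.orderOf_mk y (mem_centralizer_singleton_iff.2 hc)]
    exact orderOf_dvd_natCard _
  have h50 : ∀ a : G, Nat.card (centralizer ({a} : Set G)) = 50 → ¬ IsConj x a := by
    intro a ha hxa
    obtain ⟨c, rfl⟩ := isConj_iff.1 hxa
    rw [card_centralizer_conj] at ha
    rw [ha] at hdvd
    norm_num at hdvd
  have hu' : IsConj x u ∨ IsConj x (u ^ 2) := by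
    have hxg : IsConj x (g * x * g⁻¹) := isConj_iff.2 ⟨g, rfl⟩
    rcases hclass _ hm hne with h1 | h1 | h1 | h1
    · exact Or.inl (hxg.trans h1)
    · exact Or.inr (hxg.trans h1)
    · exact absurd (hxg.trans h1) (h50 f (s.f_card h d))
    · exact absurd (hxg.trans h1) (h50 _ (by rw [centralizer_sq d.ordf, s.f_card h d]))
  have hc' : ∀ a, IsConj x a → ∃ c, c * y * c⁻¹ ∈ centralizer ({a} : Set G) := fun a ha => by
    obtain ⟨c, rfl⟩ := isConj_iff.1 ha
    exact ⟨c, conj_iff_centralizer.2 (mem_centralizer_singleton_iff.2 hc)⟩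
  rcases hu' with h1 | h1
  · obtain ⟨c, hcu⟩ := hc' u h1
    exact ⟨u, c, hu, hu5, hcu⟩
  · obtain ⟨c, hcu⟩ := hc' _ h1
    exact ⟨u, c, hu, hu5, centralizer_sq hu5 ▸ hcu⟩

end Split

/-- The element of order three centralising `B`. -/
structure ThreeData (z t g : G) (B W : Subgroup G) : Prop where
  ord : orderOf g = 3
  gN : g ∈ normalizer (W : Set G)
  gT : g ∉ centralizer ({t} : Set G)
  gB : ∀ y ∈ B, g * y = y * g
  part : (Nat.card (centralizer ({g} : Set G))).factorization 2 = 3
  inv : ∃ τ : G, τ * g * τ⁻¹ = g⁻¹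

namespace Split

variable (s : Split z t E A B W) (h : Local z t E A)
include s h

theorem exists_three {Φ : Q0 × A5 → G} (F : Frame z Φ) : ∃ g, ThreeData z t g B W := by
  haveI : Fact (Nat.Prime 3) := ⟨Nat.prime_three⟩
  obtain ⟨g, hg, hgN, hgt, hgz, hgB⟩ := s.exists_outer h
  obtain ⟨h3, hh, hpart, τ, hτ⟩ := three_local F
  obtain ⟨c, -, hc⟩ := conj_of_prime_part (factorization_of_mul (k := 1) (m := 640) Nat.prime_three
    (by rw [h.cardC]; norm_num) (by norm_num)) hgz hh hg h3
  refine ⟨g, hg, hgN, hgt, hgB, ?_, ?_⟩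
  · rwa [← card_centralizer_conj c g, centralizer_of_zpowers hc]
  · refine ⟨c⁻¹ * τ * c, ?_⟩
    obtain ⟨i, hi⟩ := mem_zpowers_iff.1 (hc ▸ mem_zpowers (c * g * c⁻¹) : c * g * c⁻¹ ∈ _)
    have e : τ * (c * g * c⁻¹) * τ⁻¹ = (c * g * c⁻¹)⁻¹ := by
      rw [← hi, ← conj_zpow, hτ, inv_zpow]
    calc c⁻¹ * τ * c * g * (c⁻¹ * τ * c)⁻¹ = c⁻¹ * (τ * (c * g * c⁻¹) * τ⁻¹) * c := by group
      _ = c⁻¹ * (c * g * c⁻¹)⁻¹ * c := by rw [e]
      _ = g⁻¹ := by group

variable {f k : G} (d : FiveData z t f k) {g : G} (D : ThreeData z t g B W)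
include d D

theorem card_Cg : Nat.card (centralizer ({g} : Set G)) = 1080 := by
  classical
  haveI : Fact (Nat.Prime 5) := ⟨by norm_num⟩
  haveI : Fact (Nat.Prime 2) := ⟨Nat.prime_two⟩
  haveI : Fact (Nat.Prime 3) := ⟨Nat.prime_three⟩
  set X := centralizer ({g} : Set G) with hX
  have hBX : B ≤ X := fun y hy => mem_centralizer_singleton_iff.2 (D.gB y hy).symm
  have hgX : g ∈ X := mem_centralizer_singleton_iff.2 rfl
  obtain ⟨⟨u, hu⟩, hu5⟩ := exists_prime_orderOf_dvd_card' (G := B) 5 (by rw [s.card_B]; norm_num)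
  rw [Subgroup.orderOf_mk] at hu5
  have hgu : Commute g u := D.gB u hu
  -- forty-five divides the order
  have h45 : 45 ∣ Nat.card X := by
    have hg' : zpowers g ≤ X := zpowers_le.2 hgX
    let F : zpowers g × B →* X := (inclusion hg').noncommCoprod (inclusion hBX) fun a b => Subtype.ext (by
      obtain ⟨i, hi⟩ := mem_zpowers_iff.1 a.2
      show (a : G) * b = b * a
      rw [← hi]
      exact (Commute.zpow_left (D.gB b b.2 : Commute g (b : G)) i).eq)
    have hF : Function.Injective F := by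
      refine (injective_iff_map_eq_one F).2 fun p hp => ?_
      have h1 : (p.1 : G) * p.2 = 1 := congrArg Subtype.val hp
      have h2 : (p.2 : G) = 1 := by
        refine s.center_B p.2.2 fun y hy => ?_
        rw [eq_inv_of_mul_eq_one_right h1]
        obtain ⟨i, hi⟩ := mem_zpowers_iff.1 p.1.2
        rw [← hi]
        exact (Commute.inv_right (Commute.zpow_right (D.gB y hy).symm i)).eq
      rw [h2, mul_one] at h1
      exact Prod.ext (Subtype.ext h1) (Subtype.ext h2)
    have h180 : 180 ∣ Nat.card X := by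
      have := Subgroup.card_dvd_of_injective F hF
      rwa [Nat.card_prod, Nat.card_zpowers, D.ord, s.card_B] at this
    exact (by norm_num : 45 ∣ 180).trans h180
  have h25 : ¬ 25 ∣ Nat.card X := by
    intro h25
    obtain ⟨R, hR⟩ := Sylow.exists_subgroup_card_pow_prime 5 (G := X) (n := 2) h25
    let P : Sylow 5 G := Sylow.ofCard (R.map X.subtype) (by
      rw [← Nat.card_congr (R.equivMapOfInjective _ (subtype_injective _)).toEquiv, hR,
        factorization_of_mul (k := 2) (m := 24192) (by norm_num) (by rw [s.cardG h]; norm_num) (by norm_num)])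
    have hgP : g ∈ centralizer ((P : Subgroup G) : Set G) := mem_centralizer_iff.2 fun p hp => by
      obtain ⟨r, -, rfl⟩ := hp
      exact mem_centralizer_singleton_iff.1 r.2
    rw [s.centralizer_sylow_five h d P] at hgP
    have := orderOf_dvd_natCard (⟨g, hgP⟩ : (P : Subgroup G))
    rw [Subgroup.orderOf_mk, D.ord, s.card_sylow_five h P] at this
    norm_num at this
  -- the centraliser of `u`
  have huX : u ∈ X := hBX hu
  have h15 : Nat.card ↥(X ⊓ centralizer ({u} : Set G)) = 15 := by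
    obtain ⟨-, φ, -, hker⟩ := s.five_quot h hu hu5
    have hle : X ⊓ centralizer ({u} : Set G) = zpowers (g * u) := by
      refine le_antisymm (fun x hx => ?_) (zpowers_le.2 ⟨X.mul_mem hgX huX,
        mem_centralizer_singleton_iff.2 (hgu.mul_left (Commute.refl u)).eq⟩)
      set g' : centralizer ({u} : Set G) := ⟨g, mem_centralizer_singleton_iff.2 hgu⟩
      have hg3 : g' ^ 3 = 1 := Subtype.ext (by rw [Subgroup.coe_pow, ← D.ord]; exact pow_orderOf_eq_one g)
      obtain ⟨i, hi⟩ := alt_five_cent3 (φ g') (φ ⟨x, hx.2⟩) (by rw [← map_pow, hg3, map_one])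
        (fun e => by
          have := orderOf_dvd_natCard (⟨g, (hker g').1 e⟩ : zpowers u)
          rw [Subgroup.orderOf_mk, Nat.card_zpowers, D.ord, hu5] at this
          norm_num at this)
        (by rw [← map_mul, ← map_mul]; exact congrArg φ (Subtype.ext (mem_centralizer_singleton_iff.1 hx.1)))
      have hm : x * (g ^ (i : ℕ))⁻¹ ∈ zpowers u :=
        (hker (⟨x, hx.2⟩ * (g' ^ (i : ℕ))⁻¹)).1 (by rw [map_mul, map_inv, map_pow, ← hi, mul_inv_cancel])
      have hgmem : g ∈ zpowers (g * u) := by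
        refine mem_zpowers_iff.2 ⟨((10 : ℕ) : ℤ), ?_⟩
        have hg10 : g ^ 10 = g := by
          rw [show 10 = 3 * 3 + 1 from rfl, pow_succ, pow_mul,
            show g ^ 3 = 1 by rw [← D.ord, pow_orderOf_eq_one], one_pow, one_mul]
        have hu10 : u ^ 10 = 1 := by
          rw [show 10 = 5 * 2 from rfl, pow_mul, ← hu5, pow_orderOf_eq_one, one_pow]
        rw [zpow_natCast, hgu.mul_pow, hg10, hu10, mul_one]
      have humem : u ∈ zpowers (g * u) := by
        have := Subgroup.mul_mem _ (Subgroup.inv_mem _ hgmem) (mem_zpowers (g * u))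
        rwa [inv_mul_cancel_left] at this
      have := Subgroup.mul_mem _ (zpowers_le.2 humem hm) (Subgroup.pow_mem _ hgmem (i : ℕ))
      rwa [inv_mul_cancel_right] at this
    rw [hle, Nat.card_zpowers, hgu.orderOf_mul_eq_mul_orderOf_of_coprime (by rw [D.ord, hu5]; norm_num),
      D.ord, hu5]
  -- the normaliser of `⟨u⟩`
  set U := zpowers u with hU
  have h30 : Nat.card ↥(X ⊓ normalizer (U : Set G)) = 30 := by
    have hne : u⁻¹ ≠ u := fun e => by
      have h1 : u ^ 2 = 1 := by rw [pow_two]; nth_rewrite 1 [← e]; exact inv_mul_cancel u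
      have := orderOf_dvd_of_pow_eq_one h1
      rw [hu5] at this; norm_num at this
    rw [card_orbit (a := u) (K := X ⊓ centralizer ({u} : Set G)) (S := ({u, u⁻¹} : Set G)), h15,
      Set.ncard_pair hne.symm]
    · exact fun x hx => ⟨hx.1, mem_normalizer_fintype fun y hy => by
        obtain ⟨i, rfl⟩ := mem_zpowers_iff.1 hy
        rw [← conj_zpow, mul_inv_eq_iff_eq_mul.2 (mem_centralizer_singleton_iff.1 hx.2)]
        exact zpow_mem (mem_zpowers u) i⟩
    · intro x hx
      rw [mul_inv_eq_iff_eq_mul, ← mem_centralizer_singleton_iff, mem_inf]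
      exact and_iff_right hx.1
    · intro x
      constructor
      · rintro (rfl | rfl)
        · exact ⟨1, Subgroup.one_mem _, by group⟩
        · obtain ⟨e⟩ := s.alt
          have h5 : (⟨u, hu⟩ : B) ^ 5 = 1 := Subtype.ext (by
            rw [Subgroup.coe_pow, ← hu5]; exact pow_orderOf_eq_one u)
          obtain ⟨y, hy⟩ := alt_five_inv (e ⟨u, hu⟩) (by rw [← map_pow, h5, map_one])
          obtain ⟨⟨y, hyB⟩, rfl⟩ := e.surjective y
          have hyu : y * u * y⁻¹ = u⁻¹ := by
            rw [← map_inv, ← map_inv, ← map_mul, ← map_mul] at hy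
            exact congrArg Subtype.val (e.injective hy)
          refine ⟨y, ⟨hBX hyB, mem_normalizer_fintype fun w hw => ?_⟩, hyu⟩
          obtain ⟨i, rfl⟩ := mem_zpowers_iff.1 hw
          rw [← conj_zpow, hyu]
          exact zpow_mem (Subgroup.inv_mem _ (mem_zpowers u)) i
      · rintro ⟨n, hn, rfl⟩
        obtain ⟨i, hi⟩ := mem_powers_iff_mem_zpowers.2 ((mem_normalizer_iff.1 hn.2 u).1 (mem_zpowers u))
        have hi' : n * u * n⁻¹ = u ^ (i % 5) := by rw [← hu5, pow_mod_orderOf]; exact hi.symm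
        have := Nat.mod_lt i (show 5 > 0 by norm_num)
        have hu' : u ^ 5 = 1 := by rw [← hu5, pow_orderOf_eq_one]
        interval_cases hh : i % 5
        · rw [pow_zero, conj_eq_one_iff] at hi'
          rw [hi', orderOf_one] at hu5; norm_num at hu5
        · exact Or.inl (by rw [hi', pow_one])
        · exact absurd hi' (s.five_not_sq h hu hu5 n)
        · refine absurd ?_ (s.five_not_sq h hu hu5 n⁻¹)
          have e : n * u ^ 2 * n⁻¹ = u := by
            rw [← conj_pow, hi', ← pow_mul, show 3 * 2 = 5 + 1 from rfl, pow_succ, hu', one_mul]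
          calc n⁻¹ * u * n⁻¹⁻¹ = n⁻¹ * (n * u ^ 2 * n⁻¹) * n⁻¹⁻¹ := by rw [e]
            _ = u ^ 2 := by group
        · refine Or.inr (?_ : n * u * n⁻¹ = u⁻¹)
          rw [hi', eq_inv_iff_mul_eq_one, ← pow_succ, hu']
  -- Sylow's theorem
  have h5X : (Nat.card X).factorization 5 = 1 := by
    obtain ⟨m, hm⟩ := (show 5 ∣ 45 by norm_num).trans h45
    refine factorization_of_mul (k := 1) (m := m) (by norm_num) (by rw [hm, pow_one]) fun h5 => h25 ?_
    obtain ⟨m', rfl⟩ := h5
    exact ⟨m', by rw [hm]; ring⟩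
  let S : Sylow 5 X := Sylow.ofCard (U.subgroupOf X) (by
    rw [Nat.card_congr (subgroupOfEquivOfLe (zpowers_le.2 huX)).toEquiv, Nat.card_zpowers, hu5, h5X, pow_one])
  have hn5 := card_sylow_modEq_one 5 X
  rw [S.card_eq_index_normalizer] at hn5
  replace hn5 : (normalizer ((U.subgroupOf X : Subgroup X) : Set X)).index ≡ 1 [MOD 5] := hn5
  have hNU : normalizer ((U.subgroupOf X : Subgroup X) : Set X) = (normalizer (U : Set G)).subgroupOf X := by
    ext x
    rw [mem_subgroupOf]
    constructor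
    · intro hx
      refine mem_normalizer_fintype fun p hp => ?_
      exact mem_subgroupOf.1 ((mem_normalizer_iff.1 hx ⟨p, zpowers_le.2 huX hp⟩).1 (mem_subgroupOf.2 hp))
    · intro hx
      refine mem_normalizer_iff.2 fun p => ?_
      rw [mem_subgroupOf, mem_subgroupOf]
      exact mem_normalizer_iff.1 hx p
  have hidx := (normalizer ((U.subgroupOf X : Subgroup X) : Set X)).index_mul_card
  rw [hNU, ← inf_subgroupOf_left, Nat.card_congr (subgroupOfEquivOfLe inf_le_left).toEquiv, h30] at hidx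
  rw [hNU, ← inf_subgroupOf_left] at hn5
  -- arithmetic
  have hG : Nat.card X ∣ 604800 := s.cardG h ▸ X.card_subgroup_dvd_card
  set o := Nat.card X / 2 ^ (Nat.card X).factorization 2 with ho
  have ho2 : ¬ 2 ∣ o := Nat.not_dvd_ordCompl Nat.prime_two Nat.card_pos.ne'
  have hXo : 2 ^ 3 * o = Nat.card X := by
    have := Nat.ordProj_mul_ordCompl_eq_self (Nat.card X) 2
    rw [D.part] at this
    rwa [ho, D.part]
  have ho45 : 45 ∣ o := Nat.Coprime.dvd_of_dvd_mul_left (show Nat.Coprime 45 (2 ^ 3) by norm_num)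
    (hXo ▸ h45)
  have ho4725 : o ∣ 4725 := by
    have h1 : o ∣ 2 ^ 7 * 4725 := (Dvd.intro_left _ hXo).trans hG
    exact Nat.Coprime.dvd_of_dvd_mul_left
      (Nat.Coprime.pow_right 7 ((Nat.prime_two.coprime_iff_not_dvd.2 ho2).symm)) h1
  have key : ∀ o ∈ Nat.divisors 4725, 45 ∣ o → ¬ 25 ∣ o → (8 * o / 30) % 5 = 1 → o = 135 := by
    decide +kernel
  have hmod : (8 * o / 30) % 5 = 1 := by
    rw [show 8 * o = Nat.card X by omega, ← hidx, Nat.mul_div_cancel _ (by norm_num)]
    exact hn5
  have := key o (Nat.mem_divisors.2 ⟨ho4725, by norm_num⟩) ho45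
    (fun h' => h25 (hXo ▸ Dvd.dvd.mul_left h' _)) hmod
  omega

/-- The centraliser of an element of order three of `B`. -/
theorem Cw_facts {w : G} (hw : w ∈ B) (hw3 : orderOf w = 3) :
    Nat.card (centralizer ({w} : Set G)) = 36 ∧
      ∀ v ∈ centralizer ({w} : Set G), orderOf v = 2 → v ∈ W := by
  haveI : Fact (Nat.Prime 5) := ⟨by norm_num⟩
  haveI : Fact (Nat.Prime 3) := ⟨Nat.prime_three⟩
  haveI : Fact (Nat.Prime 2) := ⟨Nat.prime_two⟩
  have hcent : ∀ y ∈ B, y * w = w * y → y ∈ zpowers w := fun y hy => s.cent_B_three hw hw3 hy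
  have h5 : ¬ 5 ∣ Nat.card (centralizer ({w} : Set G)) := by
    intro h5
    obtain ⟨⟨x, hx⟩, hx5⟩ := exists_prime_orderOf_dvd_card' (G := centralizer ({w} : Set G)) 5 h5
    rw [Subgroup.orderOf_mk] at hx5
    obtain ⟨u, c, hu, hu5, hcu⟩ := s.five_of_three h d hx5 hw3 (mem_centralizer_singleton_iff.1 hx).symm
    have h300 := (s.five_quot h hu hu5).1
    obtain ⟨c', -, hc'⟩ := conj_of_prime_part (p := 3)
      (factorization_of_mul (k := 1) (m := 100) Nat.prime_three (by rw [h300]; norm_num) (by norm_num))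
      hcu (mem_centralizer_singleton_iff.2 (D.gB u hu)) (by rw [orderOf_conj, hw3]) D.ord
    have h1 : Nat.card (centralizer ({w} : Set G)) = 1080 := by
      rw [← card_centralizer_conj c w, ← card_centralizer_conj c' (c * w * c⁻¹),
        centralizer_of_zpowers hc', s.card_Cg h d D]
    obtain ⟨S, hS⟩ := s.sylow_two_odd hw hw3 (by norm_num) hcent
    have h4 : Nat.card (S : Subgroup (centralizer ({w} : Set G))) = 4 := by
      rw [hS, Nat.card_congr (subgroupOfEquivOfLe (show W ≤ centralizer ({w} : Set G) from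
        fun v hv => s.W_cent hv hw)).toEquiv, s.cardW]
    rw [S.card_eq_multiplicity, h1, factorization_of_mul (n := 1080) (k := 3) (m := 135) Nat.prime_two
      (by norm_num) (by norm_num)] at h4
    norm_num at h4
  have h9 : 9 ∣ Nat.card (centralizer ({w} : Set G)) := by
    have hgw : Commute g w := D.gB w hw
    let F : zpowers g × zpowers w →* centralizer ({w} : Set G) :=
      (inclusion (zpowers_le.2 (mem_centralizer_singleton_iff.2 hgw.eq))).noncommCoprod
        (inclusion (fun x hx => zpowers_le_centralizer hx)) fun a b => Subtype.ext (by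
          obtain ⟨i, hi⟩ := mem_zpowers_iff.1 a.2
          obtain ⟨j, hj⟩ := mem_zpowers_iff.1 b.2
          show (a : G) * b = b * a
          rw [← hi, ← hj]
          exact (hgw.zpow_zpow i j).eq)
    have hF : Function.Injective F := by
      refine (injective_iff_map_eq_one F).2 fun p hp => ?_
      have h1 : (p.1 : G) * p.2 = 1 := congrArg Subtype.val hp
      have h2 : (p.2 : G) = 1 := by
        have hwB : zpowers w ≤ B := zpowers_le.2 hw
        refine s.center_B (hwB p.2.2) fun y hy => ?_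
        rw [eq_inv_of_mul_eq_one_right h1]
        obtain ⟨i, hi⟩ := mem_zpowers_iff.1 p.1.2
        rw [← hi]
        exact (Commute.inv_right (Commute.zpow_right (D.gB y hy).symm i)).eq
      rw [h2, mul_one] at h1
      exact Prod.ext (Subtype.ext h1) (Subtype.ext h2)
    have := Subgroup.card_dvd_of_injective F hF
    rwa [Nat.card_prod, Nat.card_zpowers, Nat.card_zpowers, D.ord, hw3] at this
  rcases s.odd_quot hw hw3 (by norm_num) hcent h5 with h1 | h1
  · rw [h1] at h9; norm_num at h9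
  · exact ⟨h1.1, h1.2⟩

end Split

end Cfsg.Agent.H59.HJ
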