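import Cfsg.Agent.H59.HJ.ThreeCount
import Cfsg.Agent.H24.Extraspecial

/-!
Groups of Hall-Janko type: the Sylow 3-normaliser and the classes of elements of order three.
-/

set_option autoImplicit false
set_option linter.style.haveILetI false
set_option linter.constructorNameAsVariable false

namespace Cfsg.Agent.H59.HJ

open Subgroup
open scoped Pointwise commutatorElement

theorem card_perm_fin_le {n : ℕ} (hn : n ≤ 4) : Nat.card (Equiv.Perm (Fin n)) ≤ 24 := by
  rw [Nat.card_perm, Nat.card_fin]
  exact (Nat.factorial_le hn).trans (by decide)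

variable {G : Type*} [Group G] [Finite G] {z t : G} {E A B W : Subgroup G}

namespace Split

variable (s : Split z t E A B W) (h : Local z t E A) {f k : G} (d : FiveData z t f k) {g : G}
  (D : ThreeData z t g B W)
include s h d D

omit d D in
theorem card_sylow_three (P : Sylow 3 G) : Nat.card (P : Subgroup G) = 27 := by
  haveI : Fact (Nat.Prime 3) := ⟨Nat.prime_three⟩
  rw [P.card_eq_multiplicity, s.cardG h,
    factorization_of_mul (k := 3) (m := 22400) Nat.prime_three (by norm_num) (by norm_num)]
  rfl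

/-- The number of Sylow 3-subgroups of the centraliser of `g`. -/
theorem card_sylow_three_Cg {w : G} (hw : w ∈ B) (hw3 : orderOf w = 3)
    (R : Sylow 3 (centralizer ({g} : Set G))) (hwR : ∀ hwX, (⟨w, hwX⟩ : centralizer ({g} : Set G)) ∈ (R : Subgroup _)) :
    Nat.card (normalizer ((R : Subgroup (centralizer ({g} : Set G))) : Set (centralizer ({g} : Set G)))) = 108 := by
  classical
  haveI : Fact (Nat.Prime 3) := ⟨Nat.prime_three⟩
  have hX1080 : Nat.card (centralizer ({g} : Set G)) = 1080 := s.card_Cg h d D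
  have hBX : B ≤ (centralizer ({g} : Set G)) := fun y hy => mem_centralizer_singleton_iff.2 (D.gB y hy).symm
  obtain ⟨e⟩ := s.alt
  haveI : IsSimpleGroup B := e.isSimpleGroup
  let ι : B →* (centralizer ({g} : Set G)) := inclusion hBX
  have hι : Function.Injective ι := inclusion_injective hBX
  let wB : B := ⟨w, hw⟩
  have hwR' : ι wB ∈ (R : Subgroup (centralizer ({g} : Set G))) := hwR (hBX hw)
  have hw1 : wB ≠ 1 := fun h1 => by
    have := congrArg Subtype.val h1
    simp only [wB, Subgroup.coe_one] at this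
    rw [this, orderOf_one] at hw3; norm_num at hw3
  have hR27 : Nat.card (R : Subgroup (centralizer ({g} : Set G))) = 27 := by
    rw [R.card_eq_multiplicity, hX1080,
      factorization_of_mul (k := 3) (m := 40) Nat.prime_three (by norm_num) (by norm_num)]
    rfl
  have hidx : (R : Subgroup (centralizer ({g} : Set G))).index = 40 := by
    have := (R : Subgroup (centralizer ({g} : Set G))).card_mul_index
    rw [hR27, hX1080] at this
    omega
  have hn1 := card_sylow_modEq_one 3 (centralizer ({g} : Set G))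
  have hnd : Nat.card (Sylow 3 (centralizer ({g} : Set G))) ∣ 40 := hidx ▸ R.card_dvd_index
  -- more than four
  have hgt4 : 4 < Nat.card (Sylow 3 (centralizer ({g} : Set G))) := by
    by_contra hle
    push Not at hle
    haveI := Fintype.ofFinite (Sylow 3 (centralizer ({g} : Set G)))
    let σ : B →* Equiv.Perm (Fin (Fintype.card (Sylow 3 (centralizer ({g} : Set G))))) :=
      ((Fintype.equivFin (Sylow 3 (centralizer ({g} : Set G)))).permCongrHom.toMonoidHom.comp (MulAction.toPermHom (centralizer ({g} : Set G)) (Sylow 3 (centralizer ({g} : Set G))))).comp ι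
    rcases Subgroup.Normal.eq_bot_or_eq_top (inferInstance : σ.ker.Normal) with hk | hk
    · have h1 := Nat.card_le_card_of_injective σ ((MonoidHom.ker_eq_bot_iff _).1 hk)
      have h2 := card_perm_fin_le (n := Fintype.card (Sylow 3 (centralizer ({g} : Set G)))) (by rwa [← Nat.card_eq_fintype_card])
      rw [s.card_B] at h1
      omega
    · -- `B` normalises `R`
      have hnorm : ∀ b : B, ι b ∈ normalizer ((R : Subgroup (centralizer ({g} : Set G))) : Set (centralizer ({g} : Set G))) := by
        intro b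
        refine Sylow.smul_eq_iff_mem_normalizer.1 ?_
        have hb : σ b = 1 := MonoidHom.mem_ker.1 (hk ▸ mem_top b)
        have := congrArg (fun p : Equiv.Perm _ => (Fintype.equivFin (Sylow 3 (centralizer ({g} : Set G)))).symm
          (p ((Fintype.equivFin (Sylow 3 (centralizer ({g} : Set G)))) R))) hb
        simpa [σ, Equiv.permCongr_apply] using this
      let M : Subgroup B := (R : Subgroup (centralizer ({g} : Set G))).comap ι
      haveI hMn : M.Normal := ⟨fun m hm b => by
        rw [mem_comap, map_mul, map_mul, map_inv]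
        exact (mem_normalizer_iff.1 (hnorm b) _).1 hm⟩
      rcases Subgroup.Normal.eq_bot_or_eq_top hMn with hb | hb
      · have : wB ∈ M := hwR'
        rw [hb, mem_bot] at this
        exact hw1 this
      · have h1 : Nat.card B ∣ Nat.card (R : Subgroup (centralizer ({g} : Set G))) := by
          refine card_dvd_of_injective ((ι.codRestrict (R : Subgroup (centralizer ({g} : Set G))) fun b => ?_)) fun a b e' => ?_
          · show b ∈ M
            rw [hb]; exact mem_top _
          · exact hι (congrArg Subtype.val e')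
        rw [s.card_B, hR27] at h1
        norm_num at h1
  -- not self-normalising
  have hne40 : Nat.card (Sylow 3 (centralizer ({g} : Set G))) ≠ 40 := by
    intro h40
    have hg' : zpowers g ≤ (centralizer ({g} : Set G)) := zpowers_le.2 (mem_centralizer_singleton_iff.2 rfl)
    haveI hZn : ((zpowers g).subgroupOf (centralizer ({g} : Set G))).Normal := ⟨fun x hx y => by
      rw [mem_subgroupOf] at hx ⊢
      obtain ⟨i, hi⟩ := mem_zpowers_iff.1 hx
      rw [Subgroup.coe_mul, Subgroup.coe_mul, InvMemClass.coe_inv, ← hi]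
      have hc : Commute (y : G) (g ^ i) := Commute.zpow_right (mem_centralizer_singleton_iff.1 y.2) i
      rw [hc.eq, mul_inv_cancel_right]
      exact zpow_mem (mem_zpowers g) i⟩
    set Z := (zpowers g).subgroupOf (centralizer ({g} : Set G)) with hZ
    set q := QuotientGroup.mk' Z with hq
    have hZ3 : Nat.card Z = 3 := by
      rw [hZ, Nat.card_congr (subgroupOfEquivOfLe hg').toEquiv, Nat.card_zpowers, D.ord]
    have hZR : Z ≤ (R : Subgroup (centralizer ({g} : Set G))) := by
      have hZp : IsPGroup 3 Z := IsPGroup.of_card (n := 1) (by rw [hZ3, pow_one])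
      obtain ⟨R', hR'⟩ := hZp.exists_le_sylow
      obtain ⟨c, hc⟩ := MulAction.exists_smul_eq (centralizer ({g} : Set G)) R' R
      intro x hx
      rw [← hc]
      refine ⟨c⁻¹ * x * c, hR' (by simpa using hZn.conj_mem x hx c⁻¹), ?_⟩
      simp [mul_assoc]
    set R' := R.mapSurjective (QuotientGroup.mk'_surjective Z) with hR'
    have hR'co : (R' : Subgroup ((centralizer ({g} : Set G)) ⧸ Z)) = (R : Subgroup (centralizer ({g} : Set G))).map q := Sylow.coe_mapSurjective _ _
    have hX360 : Nat.card ((centralizer ({g} : Set G)) ⧸ Z) = 360 := by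
      have := Z.card_eq_card_quotient_mul_card_subgroup
      rw [hZ3, hX1080] at this
      omega
    have hR9 : Nat.card (R' : Subgroup ((centralizer ({g} : Set G)) ⧸ Z)) = 9 := by
      rw [R'.card_eq_multiplicity, hX360,
        factorization_of_mul (k := 2) (m := 40) Nat.prime_three (by norm_num) (by norm_num)]
      rfl
    haveI hR'c : IsMulCommutative (R' : Subgroup ((centralizer ({g} : Set G)) ⧸ Z)) :=
      IsPGroup.isMulCommutative_of_card_eq_prime_sq (p := 3) (by rw [hR9]; norm_num)
    -- its normaliser is itself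
    have hNR : normalizer ((R : Subgroup (centralizer ({g} : Set G))) : Set (centralizer ({g} : Set G))) = (R : Subgroup (centralizer ({g} : Set G))) := by
      refine (eq_of_le_of_card_ge le_normalizer ?_).symm
      have h1 := (normalizer ((R : Subgroup (centralizer ({g} : Set G))) : Set (centralizer ({g} : Set G)))).card_mul_index
      rw [R.card_eq_index_normalizer] at h40
      replace h40 : (normalizer ((R : Subgroup (centralizer ({g} : Set G))) : Set (centralizer ({g} : Set G)))).index = 40 := h40
      rw [h40, hX1080] at h1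
      rw [hR27]; omega
    have hnc : normalizer ((R' : Subgroup ((centralizer ({g} : Set G)) ⧸ Z)) : Set ((centralizer ({g} : Set G)) ⧸ Z)) ≤
        centralizer ((R' : Subgroup ((centralizer ({g} : Set G)) ⧸ Z)) : Set ((centralizer ({g} : Set G)) ⧸ Z)) := by
      intro y hy
      have hyR : y ∈ (R' : Subgroup ((centralizer ({g} : Set G)) ⧸ Z)) := by
        induction y using QuotientGroup.induction_on with | H x =>
        have hx : x ∈ normalizer ((R : Subgroup (centralizer ({g} : Set G))) : Set (centralizer ({g} : Set G))) := mem_normalizer_fintype fun r hr => by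
          have h1 := (mem_normalizer_iff.1 hy (q r)).1 (hR'co ▸ mem_map_of_mem q hr)
          rw [hR'co, show (x : (centralizer ({g} : Set G)) ⧸ Z) * q r * (x : (centralizer ({g} : Set G)) ⧸ Z)⁻¹ = q (x * r * x⁻¹) by simp [hq]] at h1
          obtain ⟨r', hr', he⟩ := h1
          rw [hq, QuotientGroup.mk'_apply, QuotientGroup.mk'_apply, QuotientGroup.eq] at he
          have := Subgroup.mul_mem _ hr' (hZR he)
          rwa [mul_inv_cancel_left] at this
        rw [hNR] at hx
        exact hR'co ▸ mem_map_of_mem q hx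
      exact mem_centralizer_iff.2 fun r hr => congrArg Subtype.val (hR'c.is_comm.comm ⟨r, hr⟩ ⟨y, hyR⟩)
    set τ := MonoidHom.transferSylow R' hnc with hτ
    have hcompl := MonoidHom.ker_transferSylow_isComplement' R' hnc
    have hker40 : Nat.card τ.ker = 40 := by
      have := hcompl.card_mul_card
      rw [hR9, hX360] at this
      rw [hτ]
      omega
    let ψ := τ.comp (q.comp ι)
    rcases Subgroup.Normal.eq_bot_or_eq_top (inferInstance : ψ.ker.Normal) with hk | hk
    · have h1 := Subgroup.card_dvd_of_injective ψ ((MonoidHom.ker_eq_bot_iff _).1 hk)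
      rw [s.card_B, hR9] at h1
      norm_num at h1
    · have hmem : q (ι wB) ∈ τ.ker := MonoidHom.mem_ker.2 (MonoidHom.mem_ker.1 (hk ▸ mem_top wB : wB ∈ ψ.ker))
      have h1 := orderOf_dvd_natCard (⟨q (ι wB), hmem⟩ : τ.ker)
      rw [Subgroup.orderOf_mk, hker40] at h1
      have h3 : orderOf (q (ι wB)) ∣ 3 := by
        refine orderOf_dvd_of_pow_eq_one ?_
        rw [← map_pow, ← map_pow, show wB ^ 3 = 1 from Subtype.ext (by
          rw [Subgroup.coe_pow, ← hw3]; exact pow_orderOf_eq_one w), map_one, map_one]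
      have h2 := orderOf_eq_one_iff.1 (Nat.eq_one_of_dvd_coprimes (by norm_num) h1 h3)
      rw [hq, QuotientGroup.mk'_apply, QuotientGroup.eq_one_iff, mem_subgroupOf] at h2
      obtain ⟨i, hi⟩ := mem_zpowers_iff.1 h2
      change g ^ i = w at hi
      refine hw1 (Subtype.ext (s.center_B hw fun y hy => ?_))
      show y * w = w * y
      rw [← hi]
      exact (Commute.zpow_right (D.gB y hy).symm i).eq
  have h10 : Nat.card (Sylow 3 (centralizer ({g} : Set G))) = 10 := by
    unfold Nat.ModEq at hn1
    have := Nat.le_of_dvd (by norm_num) hnd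
    interval_cases hc : Nat.card (Sylow 3 (centralizer ({g} : Set G))) <;> omega
  have h1 := (normalizer ((R : Subgroup (centralizer ({g} : Set G))) : Set (centralizer ({g} : Set G)))).card_mul_index
  rw [R.card_eq_index_normalizer] at h10
  replace h10 : (normalizer ((R : Subgroup (centralizer ({g} : Set G))) : Set (centralizer ({g} : Set G)))).index = 10 := h10
  rw [h10, hX1080] at h1
  omega

/-- The Sylow 3-subgroup. -/
theorem three_classes : ∃ (w : G) (P : Sylow 3 G), orderOf w = 3 ∧ ¬ IsConj w g ∧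
    Cfsg.IsExtraspecial 3 (P : Subgroup G) ∧
    Nat.card (normalizer ((P : Subgroup G) : Set G)) = 216 ∧
    ∀ x ∈ (P : Subgroup G), x ≠ 1 → IsConj x g ∨ IsConj x w := by
  classical
  haveI : Fact (Nat.Prime 3) := ⟨Nat.prime_three⟩
  haveI : Fact (Nat.Prime 2) := ⟨Nat.prime_two⟩
  obtain ⟨⟨w, hw⟩, hw3⟩ := exists_prime_orderOf_dvd_card' (G := B) 3 (by rw [s.card_B]; norm_num)
  rw [Subgroup.orderOf_mk] at hw3
  obtain ⟨hw36, hwinv⟩ := s.Cw_facts h d D hw hw3
  have hX1080 := s.card_Cg h d D
  set X := centralizer ({g} : Set G) with hX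
  have hwX : w ∈ X := mem_centralizer_singleton_iff.2 (D.gB w hw).symm
  have hgX : g ∈ X := mem_centralizer_singleton_iff.2 rfl
  obtain ⟨R, hR⟩ := (IsPGroup.of_card (n := 1) (by
    rw [Nat.card_zpowers, Subgroup.orderOf_mk, hw3, pow_one]) : IsPGroup 3 (zpowers (⟨w, hwX⟩ : X))).exists_le_sylow
  have hR27 : Nat.card (R : Subgroup X) = 27 := by
    rw [R.card_eq_multiplicity, hX1080,
      factorization_of_mul (k := 3) (m := 40) Nat.prime_three (by norm_num) (by norm_num)]
    rfl
  have hgR : (⟨g, hgX⟩ : X) ∈ (R : Subgroup X) := by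
    obtain ⟨R', hR'⟩ := (IsPGroup.of_card (n := 1) (by
      rw [Nat.card_zpowers, Subgroup.orderOf_mk, D.ord, pow_one]) : IsPGroup 3 (zpowers (⟨g, hgX⟩ : X))).exists_le_sylow
    obtain ⟨c, hc⟩ := MulAction.exists_smul_eq X R' R
    rw [← hc]
    refine ⟨⟨g, hgX⟩, hR' (mem_zpowers _), Subtype.ext ?_⟩
    show (c : G) * g * (c : G)⁻¹ = g
    rw [mem_centralizer_singleton_iff.1 c.2, mul_inv_cancel_right]
  have hnR := s.card_sylow_three_Cg h d D hw hw3 R fun _ => hR (mem_zpowers _)
  let P : Sylow 3 G := Sylow.ofCard ((R : Subgroup X).map X.subtype) (by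
    rw [← Nat.card_congr ((R : Subgroup X).equivMapOfInjective _ (subtype_injective _)).toEquiv, hR27,
      s.cardG h, factorization_of_mul (k := 3) (m := 22400) Nat.prime_three (by norm_num) (by norm_num)]
    rfl)
  have hP27 := s.card_sylow_three h P
  have hPX : (P : Subgroup G) ≤ X := by rintro x ⟨y, -, rfl⟩; exact y.2
  have hgP : g ∈ (P : Subgroup G) := ⟨⟨g, hgX⟩, hgR, rfl⟩
  have hwP : w ∈ (P : Subgroup G) := ⟨⟨w, hwX⟩, hR (mem_zpowers _), rfl⟩
  have hngw : ¬ IsConj w g := fun hc => by
    obtain ⟨c, hc⟩ := isConj_iff.1 hc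
    have := card_centralizer_conj c w
    rw [hc, hw36, hX1080] at this
    omega
  -- the centre
  set Zc := center (P : Subgroup G) with hZc
  have hgZ : (⟨g, hgP⟩ : (P : Subgroup G)) ∈ Zc := mem_center_iff.2 fun x =>
    Subtype.ext (mem_centralizer_singleton_iff.1 (hPX x.2))
  have hw_not : (⟨w, hwP⟩ : (P : Subgroup G)) ∉ Zc := fun hc => by
    have hle : (P : Subgroup G) ≤ centralizer ({w} : Set G) := fun x hx =>
      mem_centralizer_singleton_iff.2 (congrArg Subtype.val (mem_center_iff.1 hc ⟨x, hx⟩))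
    have := card_dvd_of_le hle
    rw [hP27, hw36] at this
    norm_num at this
  have hZ3 : Nat.card Zc = 3 := by
    have h1 : Nat.card Zc ∣ 3 ^ 3 := by
      have := Zc.card_subgroup_dvd_card
      rwa [hP27] at this
    obtain ⟨j, hj, hje⟩ := (Nat.dvd_prime_pow Nat.prime_three).1 h1
    have hne0 : j ≠ 0 := fun e => by
      rw [e, pow_zero] at hje
      have := orderOf_dvd_natCard (⟨⟨g, hgP⟩, hgZ⟩ : Zc)
      rw [Subgroup.orderOf_mk, Subgroup.orderOf_mk, D.ord, hje] at this
      norm_num at this
    have hne3 : j ≠ 3 := fun e => hw_not (by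
      rw [show Zc = ⊤ from eq_top_of_card_eq _ (by rw [hje, e, hP27]; rfl)]
      exact mem_top _)
    have hne2 : j ≠ 2 := fun e => by
      have hq : Nat.card ((P : Subgroup G) ⧸ Zc) = 3 := by
        have := Zc.card_eq_card_quotient_mul_card_subgroup
        rw [hP27, hje, e] at this
        omega
      haveI : IsCyclic ((P : Subgroup G) ⧸ Zc) := isCyclic_of_prime_card hq
      refine hw_not (mem_center_iff.2 fun x => ?_)
      exact (MonoidHom.isMulCommutative_of_isCyclic_of_ker_le_center (QuotientGroup.mk' Zc)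
        (le_of_eq (QuotientGroup.ker_mk' Zc))).is_comm.comm x _
    have : j = 1 := by omega
    rw [hje, this, pow_one]
  have hZg : ∀ x : (P : Subgroup G), x ∈ Zc → (x : G) ∈ zpowers g := by
    intro x hx
    have heq : zpowers (⟨g, hgP⟩ : (P : Subgroup G)) = Zc := eq_of_le_of_card_ge (zpowers_le.2 hgZ)
      (by rw [hZ3, Nat.card_zpowers, Subgroup.orderOf_mk, D.ord])
    obtain ⟨i, hi⟩ := mem_zpowers_iff.1 (heq.ge hx)
    exact ⟨i, by simpa using congrArg Subtype.val hi⟩
  -- the normaliser
  set N := normalizer ((P : Subgroup G) : Set G) with hN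
  have hgpow : ∀ x ∈ zpowers g, x = 1 ∨ x = g ∨ x = g⁻¹ := by
    intro x hx
    obtain ⟨i, hi⟩ := mem_powers_iff_mem_zpowers.2 hx
    have hi' : x = g ^ (i % 3) := by rw [← D.ord, pow_mod_orderOf]; exact hi.symm
    have := Nat.mod_lt i (show 3 > 0 by norm_num)
    interval_cases hh : i % 3
    · exact Or.inl (by rw [hi', pow_zero])
    · exact Or.inr (Or.inl (by rw [hi', pow_one]))
    · refine Or.inr (Or.inr ?_)
      rw [hi', eq_inv_iff_mul_eq_one, ← pow_succ]
      exact (congrArg (g ^ ·) D.ord.symm).trans (pow_orderOf_eq_one g)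
  have hNXcard : Nat.card ↥(N ⊓ X) = 108 := by
    have hNR : normalizer ((R : Subgroup X) : Set X) = (N ⊓ X).subgroupOf X := by
      ext x
      rw [mem_subgroupOf, mem_inf, and_iff_left x.2]
      constructor
      · intro hx
        refine mem_normalizer_fintype fun p ⟨r, hr, hp⟩ => ?_
        exact ⟨x * r * x⁻¹, (mem_normalizer_iff.1 hx r).1 hr, by subst hp; rfl⟩
      · intro hx
        refine mem_normalizer_fintype fun r hr => ?_
        obtain ⟨r', hr', he⟩ := (mem_normalizer_iff.1 hx (r : G)).1 ⟨r, hr, rfl⟩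
        exact (show x * r * x⁻¹ = r' from Subtype.ext he.symm) ▸ hr'
    rw [hNR, Nat.card_congr (subgroupOfEquivOfLe inf_le_right).toEquiv] at hnR
    exact hnR
  have hgne : g ≠ g⁻¹ := fun e => by
    have h1 : g ^ 2 = 1 := by rw [pow_two]; nth_rewrite 1 [e]; exact inv_mul_cancel g
    have := orderOf_dvd_of_pow_eq_one h1
    rw [D.ord] at this; norm_num at this
  have hNcard : Nat.card N = 216 := by
    rw [card_orbit (a := g) (K := N ⊓ X) (S := ({g, g⁻¹} : Set G)) inf_le_left, hNXcard,
      Set.ncard_pair hgne]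
    · intro x hx
      rw [mul_inv_eq_iff_eq_mul, ← mem_centralizer_singleton_iff, mem_inf]
      exact and_iff_right hx
    · intro x
      constructor
      · rintro (rfl | rfl)
        · exact ⟨1, N.one_mem, by group⟩
        · obtain ⟨τ, hτ⟩ := D.inv
          have hτX : ∀ y ∈ X, τ * y * τ⁻¹ ∈ X := fun y hy => by
            have h1 := (conj_iff_centralizer (c := τ) (a := g) (x := y)).2 hy
            rwa [hτ, centralizer_of_zpowers (zpowers_inv (g := g))] at h1
          let T₁ : X →* X :=
            { toFun := fun y => (⟨τ * y * τ⁻¹, hτX y y.2⟩ : X)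
              map_one' := Subtype.ext (by simp)
              map_mul' := fun a b => Subtype.ext (by simp [mul_assoc]) }
          let R₁ : Sylow 3 X := Sylow.ofCard ((R : Subgroup X).map T₁) (by
            rw [← R.card_eq_multiplicity]
            refine (Nat.card_congr ((R : Subgroup X).equivMapOfInjective _ fun a b e => ?_).toEquiv).symm
            exact Subtype.ext (mul_left_cancel (mul_right_cancel (congrArg Subtype.val e))))
          obtain ⟨c, hc⟩ := MulAction.exists_smul_eq X R₁ R
          refine ⟨c * τ, mem_normalizer_fintype fun p ⟨r, hr, hp⟩ => ?_, ?_⟩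
          · have hcr : c * (⟨τ * r * τ⁻¹, hτX r r.2⟩ : X) * c⁻¹ ∈ (R : Subgroup X) :=
              hc ▸ ⟨_, ⟨r, hr, rfl⟩, rfl⟩
            refine ⟨_, hcr, ?_⟩
            subst hp
            simp [mul_assoc]
          · rw [mul_inv_rev, show (c : G) * τ * g * (τ⁻¹ * (c : G)⁻¹) = c * (τ * g * τ⁻¹) * (c : G)⁻¹ by group,
              hτ, (Commute.inv_right (mem_centralizer_singleton_iff.1 c.2 : Commute (c : G) g)).eq,
              mul_inv_cancel_right]
      · rintro ⟨n, hn, rfl⟩
        have hm := (mem_normalizer_iff.1 hn g).1 hgP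
        have hmc : (⟨n * g * n⁻¹, hm⟩ : (P : Subgroup G)) ∈ Zc := mem_center_iff.2 fun x => Subtype.ext (by
          show (x : G) * (n * g * n⁻¹) = n * g * n⁻¹ * x
          have hx : n⁻¹ * x * n ∈ (P : Subgroup G) := (mem_normalizer_iff.1 hn _).2 (by
            rw [show n * (n⁻¹ * (x : G) * n) * n⁻¹ = x by group]; exact x.2)
          calc (x : G) * (n * g * n⁻¹) = n * (n⁻¹ * x * n * g) * n⁻¹ := by group
            _ = n * (g * (n⁻¹ * x * n)) * n⁻¹ := by rw [mem_centralizer_singleton_iff.1 (hPX hx)]
            _ = n * g * n⁻¹ * x := by group)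
        rcases hgpow _ (hZg _ hmc) with e | e | e
        · rw [conj_eq_one_iff] at e
          have := D.ord
          rw [e, orderOf_one] at this
          norm_num at this
        · exact Or.inl e
        · exact Or.inr e
  -- the stabiliser of `w`
  have hPw : Nat.card ↥((P : Subgroup G) ⊓ centralizer ({w} : Set G)) = 9 := by
    have hd : Nat.card ↥((P : Subgroup G) ⊓ centralizer ({w} : Set G)) ∣ Nat.gcd 27 36 :=
      Nat.dvd_gcd (hP27 ▸ card_dvd_of_le inf_le_left) (hw36 ▸ card_dvd_of_le inf_le_right)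
    obtain ⟨j, hj, hje⟩ := (Nat.dvd_prime_pow Nat.prime_three).1 (show _ ∣ 3 ^ 2 from hd)
    have hge : 3 < Nat.card ↥((P : Subgroup G) ⊓ centralizer ({w} : Set G)) := by
      have hgm : g ∈ (P : Subgroup G) ⊓ centralizer ({w} : Set G) :=
        ⟨hgP, mem_centralizer_singleton_iff.2 (D.gB w hw)⟩
      have hwm : w ∈ (P : Subgroup G) ⊓ centralizer ({w} : Set G) :=
        ⟨hwP, mem_centralizer_singleton_iff.2 rfl⟩
      by_contra hle
      push Not at hle
      have heq := eq_of_le_of_card_ge (zpowers_le.2 hgm) (by rw [Nat.card_zpowers, D.ord]; exact hle)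
      obtain ⟨i, hi⟩ := mem_zpowers_iff.1 (heq.ge hwm)
      refine absurd hw3 ?_
      rw [s.center_B hw fun y hy => by rw [← hi]; exact (Commute.zpow_right (D.gB y hy).symm i).eq,
        orderOf_one]
      norm_num
    rw [hje] at hge ⊢
    interval_cases j <;> omega
  set M := N ⊓ centralizer ({w} : Set G) with hM
  have hPwM : (P : Subgroup G) ⊓ centralizer ({w} : Set G) ≤ M := inf_le_inf_right _ le_normalizer
  have hM9 : Nat.card M = 9 := by
    have h1 : Nat.card M ∣ 36 := hw36 ▸ card_dvd_of_le inf_le_right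
    have h2 : 9 ∣ Nat.card M := hPw ▸ card_dvd_of_le hPwM
    by_contra hne
    have h2M : 2 ∣ Nat.card M := by
      obtain ⟨c, hc⟩ := h2
      have := Nat.le_of_dvd (by norm_num) h1
      have := Nat.card_pos (α := M)
      rw [hc] at h1 hne ⊢
      have hc4 : c ≤ 4 := by omega
      interval_cases c <;> omega
    obtain ⟨v₀, hv2⟩ := exists_prime_orderOf_dvd_card' (G := M) 2 h2M
    rw [← Subgroup.orderOf_coe] at hv2
    obtain ⟨v, hvN, hvw⟩ := v₀
    replace hv2 : orderOf v = 2 := hv2
    have hvW := hwinv v hvw hv2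
    set c := g * v * g⁻¹ * v⁻¹ with hc
    have hcW : c ∈ W := W.mul_mem (s.conj_W (s.mem_normalizer_W.1 D.gN) hvW) (W.inv_mem hvW)
    have hcP : c ∈ (P : Subgroup G) := by
      have h1 := (mem_normalizer_iff.1 hvN g⁻¹).1 (Subgroup.inv_mem _ hgP)
      have h2 := Subgroup.mul_mem _ hgP h1
      rwa [show g * (v * g⁻¹ * v⁻¹) = c by rw [hc]; group] at h2
    have hc1 := orderOf_dvd_natCard (⟨c, hcW⟩ : W)
    have hc2 := orderOf_dvd_natCard (⟨c, hcP⟩ : (P : Subgroup G))
    rw [Subgroup.orderOf_mk, s.cardW] at hc1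
    rw [Subgroup.orderOf_mk, hP27] at hc2
    have hce : c = 1 := orderOf_eq_one_iff.1 (Nat.eq_one_of_dvd_coprimes (by norm_num) hc1 hc2)
    rw [hc, mul_inv_eq_one, mul_inv_eq_iff_eq_mul] at hce
    refine D.gT ?_
    rw [← s.centralizer_W hvW fun e => by rw [e, orderOf_one] at hv2; norm_num at hv2,
      mem_centralizer_singleton_iff]
    exact hce
  -- the orbit of `w`
  let S : Set G := {x | ∃ n ∈ N, n * w * n⁻¹ = x}
  have hS : Nat.card N = S.ncard * Nat.card M := card_orbit (a := w) inf_le_left
    (fun n hn => by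
      rw [mul_inv_eq_iff_eq_mul, ← mem_centralizer_singleton_iff, hM, mem_inf]
      exact and_iff_right hn) fun x => Iff.rfl
  rw [hNcard, hM9] at hS
  let T : Set G := ((P : Subgroup G) : Set G) \ (zpowers g : Set G)
  have hgle : (zpowers g : Set G) ⊆ (P : Subgroup G) := zpowers_le.2 hgP
  have hT : T.ncard = 24 := by
    rw [Set.ncard_sdiff hgle, ← Nat.card_coe_set_eq, ← Nat.card_coe_set_eq, SetLike.coe_sort_coe,
      SetLike.coe_sort_coe, hP27, Nat.card_zpowers, D.ord]
  have hST : S ⊆ T := by
    rintro x ⟨n, hn, rfl⟩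
    refine ⟨(mem_normalizer_iff.1 hn w).1 hwP, fun hz => ?_⟩
    rcases hgpow _ hz with e | e | e
    · rw [conj_eq_one_iff] at e; rw [e, orderOf_one] at hw3; norm_num at hw3
    · exact hngw (isConj_iff.2 ⟨n, e⟩)
    · obtain ⟨τ, hτ⟩ := D.inv
      exact hngw ((isConj_iff.2 ⟨n, e⟩).trans (isConj_iff.2 ⟨τ, hτ⟩).symm)
  have hSeq : S = T := Set.eq_of_subset_of_ncard_le hST (by omega) (Set.toFinite _)
  have hclass : ∀ x ∈ (P : Subgroup G), x ≠ 1 → IsConj x g ∨ IsConj x w := by
    intro x hx hx1
    by_cases hxz : x ∈ zpowers g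
    · rcases hgpow x hxz with e | e | e
      · exact absurd e hx1
      · exact Or.inl (e ▸ IsConj.refl x)
      · obtain ⟨τ, hτ⟩ := D.inv
        exact Or.inl (e ▸ (isConj_iff.2 ⟨τ, hτ⟩).symm)
    · obtain ⟨n, -, hn⟩ : x ∈ S := hSeq ▸ ⟨hx, hxz⟩
      exact Or.inr (isConj_iff.2 ⟨n, hn⟩).symm
  refine ⟨w, P, hw3, hngw, ?_, hNcard, hclass⟩
  have hexp : ∀ x : (P : Subgroup G), x ^ 3 = 1 := by
    intro x
    by_cases hx1 : (x : G) = 1
    · exact Subtype.ext (by simp [hx1])
    have ho : orderOf (x : G) = 3 := by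
      rcases hclass x x.2 hx1 with hc | hc
      · exact (isConj_orderOf hc).trans D.ord
      · exact (isConj_orderOf hc).trans hw3
    exact Subtype.ext (orderOf_dvd_iff_pow_eq_one.1 (dvd_of_eq ho))
  refine H24.isExtraspecial_of P.2 hZ3 (fun htop => hw_not ?_) (fun a b => ?_) fun x => ?_
  · rw [hZc, htop]; exact mem_top _
  · haveI : IsMulCommutative ((P : Subgroup G) ⧸ Zc) :=
      IsPGroup.isMulCommutative_of_card_eq_prime_sq (p := 3) (by
        have := Zc.card_eq_card_quotient_mul_card_subgroup
        rw [hP27, hZ3] at this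
        omega)
    rw [← QuotientGroup.eq_one_iff, ← QuotientGroup.mk'_apply, map_commutatorElement,
      commutatorElement_eq_one_iff_mul_comm]
    exact this.is_comm.comm _ _
  · rw [hexp x]
    exact Subgroup.one_mem _

end Split

end Cfsg.Agent.H59.HJ
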